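import Mathlib.GroupTheory.PGroup
import Mathlib.Algebra.Group.End

/-!
2-automorphisms of abelian 2-groups.
-/

set_option autoImplicit false

namespace CfsgLib.ClassK

/-- If a 2-automorphism `t` of an abelian 2-group has the same fixed points as `t ^ 2`, it is trivial. -/
theorem eq_self_of_fixed_sq {A : Type*} [CommGroup A] [Finite A] (hA : IsPGroup 2 A) (t : MulAut A)
    (ht : ∃ k : ℕ, t ^ 2 ^ k = 1) (hC : ∀ a : A, t (t a) = a → t a = a) : ∀ a : A, t a = a := by
  haveI : Fact (Nat.Prime 2) := ⟨Nat.prime_two⟩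
  let d : A →* A :=
    { toFun := fun a => t a / a
      map_one' := by simp
      map_mul' := fun a b => by simp only [map_mul]; exact mul_div_mul_comm _ _ _ _ }
  have hd : ∀ a, t (d a) = d a → d a = 1 := by
    intro a ha
    have hinv : ∀ m : ℕ, t ((d a) ^ m) = (d a) ^ m := fun m => by rw [map_pow, ha]
    obtain ⟨k, hk⟩ := (isPGroup_iff_pow_pow_eq_one.mp hA) (d a)
    have step : ∀ m : ℕ, (d a) ^ 2 ^ (m + 1) = 1 → (d a) ^ 2 ^ m = 1 := by
      intro m hm
      have h1 : d (a ^ 2 ^ m) = (d a) ^ 2 ^ m := map_pow d a _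
      set b := a ^ 2 ^ m with hb
      set c := (d a) ^ 2 ^ m with hc
      have hcc : c * c = 1 := by rw [hc, ← pow_add, ← two_mul, ← pow_succ']; exact hm
      have hb1 : t b = c * b := div_eq_iff_eq_mul.mp h1
      have hb2 : t (t b) = b := by
        rw [hb1, map_mul, hb1, hc, hinv, ← hc, ← mul_assoc, hcc, one_mul]
      have := hC b hb2
      rw [hb1] at this
      exact mul_eq_right.mp this
    clear_value d
    revert hk
    induction k with
    | zero => intro hk; simpa using hk
    | succ k ihk => exact fun hk => ihk (step k hk)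
  -- the 2-group generated by `t` acts on the range of `d`
  intro a
  by_contra hne
  let R : Subgroup A := d.range
  have htR : ∀ x ∈ R, t x ∈ R := by
    rintro x ⟨b, rfl⟩
    exact ⟨t b, by simp [d, map_div]⟩
  let Γ : Subgroup (MulAut A) := Subgroup.zpowers t
  have hΓR : ∀ g ∈ Γ, ∀ x ∈ R, g x ∈ R := by
    intro g hg
    obtain ⟨k, rfl⟩ := (mem_powers_iff_mem_zpowers.mpr hg)
    induction k with
    | zero => intro x hx; simpa using hx
    | succ k ihk =>
      intro x hx
      simp only [pow_succ', MulAut.mul_apply]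
      exact htR _ (ihk ⟨k, rfl⟩ x hx)
  letI act : MulAction ↥Γ ↥R :=
    { smul := fun g x => ⟨(g : MulAut A) x, hΓR g g.2 x x.2⟩
      one_smul := fun x => Subtype.ext rfl
      mul_smul := fun g h x => Subtype.ext rfl }
  have hΓ : IsPGroup 2 ↥Γ := by
    obtain ⟨k, hk⟩ := ht
    rw [isPGroup_iff_pow_pow_eq_one]
    rintro ⟨g, j, rfl⟩
    refine ⟨k, Subtype.ext ?_⟩
    show (t ^ j) ^ 2 ^ k = 1
    rw [← zpow_natCast, ← zpow_mul, mul_comm, zpow_mul, zpow_natCast, hk, one_zpow]
  have hdvd : 2 ∣ Nat.card ↥R := by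
    refine (hA.to_subgroup R).card_eq_or_dvd.resolve_left fun h1 => hne ?_
    have : d a = 1 := Subgroup.mem_bot.mp (Subgroup.card_eq_one.mp h1 ▸ ⟨a, rfl⟩)
    exact div_eq_one.mp this
  obtain ⟨b, hb, hb1⟩ := hΓ.exists_fixed_point_of_prime_dvd_card_of_fixed_point ↥R hdvd
    (a := 1) (fun g => Subtype.ext (map_one (g : MulAut A)))
  obtain ⟨c, hc⟩ := b.2
  have hfix : t (b : A) = b := congrArg Subtype.val (hb ⟨t, Subgroup.mem_zpowers t⟩)
  apply hb1
  rw [← hc] at hfix
  exact Subtype.ext (by rw [← hc, hd c hfix]; rfl)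

end CfsgLib.ClassK
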