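import Cfsg.Agent.Lib.CharTheory.Convolution
import Cfsg.Agent.Lib.Blocks.DefectZero
import Cfsg.Agent.Lib.ClassK.SLDefectZero

/-!
Sums of a character of defect zero over the cosets of a Sylow subgroup.
-/

set_option autoImplicit false
set_option linter.style.haveILetI false
set_option linter.unusedSectionVars false

open Cfsg CfsgLib.Blocks

namespace CfsgLib.ClassK.SylowSums

variable {G : Type*} [Group G] [Finite G] {U : Subgroup G} {p : ℕ} [Fact p.Prime]
variable {M : Ideal AlgInt}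

/-- The sum of a function over a unitriangular coset. -/
noncomputable def cosetSum (U : Subgroup G) (χ : G → ℂ) (g : G) :
    ℂ :=
  haveI := Fintype.ofFinite (U)
  ∑ u : U, χ ((u : G) * g)

theorem cosetSum_eq [Fintype (U)] (χ : G → ℂ) (g : G) :
    cosetSum U χ g = ∑ u : U, χ ((u : G) * g) := by
  unfold cosetSum
  convert rfl

theorem cosetSum_mul_left (χ : G → ℂ) {v : G} (hv : v ∈ U) (g : G) :
    cosetSum U χ (v * g) = cosetSum U χ g := by
  classical
  haveI := Fintype.ofFinite (U)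
  rw [cosetSum_eq, cosetSum_eq]
  exact Fintype.sum_equiv (Equiv.mulRight ⟨v, hv⟩) _ _ fun u => by simp [mul_assoc]

theorem cosetSum_mul_right {χ : G → ℂ} (hχ : IsClassFunction G χ) {v : G} (hv : v ∈ U)
    (g : G) : cosetSum U χ (g * v) = cosetSum U χ g := by
  classical
  haveI := Fintype.ofFinite (U)
  rw [cosetSum_eq, cosetSum_eq]
  refine Fintype.sum_equiv (Equiv.mulLeft ⟨v, hv⟩) _ _ fun u => ?_
  rw [← hχ ((u : G) * (g * v)) v]
  simp [mul_assoc]

theorem memLocalRing_cosetSum [M.IsPrime] (χ : IrrCharacter G) (g : G) :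
    MemLocalRing M (cosetSum U (χ : G → ℂ) g) := by
  haveI := Fintype.ofFinite (U)
  rw [cosetSum_eq]
  exact memLocalRing_sum fun u _ => memLocalRing_irr χ _

/-- The part of the unitriangular group moved into itself by `g`. -/
noncomputable def cosetInter (U : Subgroup G) (g : G) :
    Subgroup (G) :=
  U ⊓ (U).comap (MulAut.conj g).toMonoidHom

theorem mem_cosetInter {g v : G} : v ∈ cosetInter U g ↔ v ∈ U ∧ g * v * g⁻¹ ∈ U :=
  Iff.rfl

theorem card_cosetInter_inv (g : G) : Nat.card (cosetInter U g⁻¹) = Nat.card (cosetInter U g) :=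
  Nat.card_congr
    { toFun := fun v => ⟨g⁻¹ * v.1 * g, by
        have h1 := (mem_cosetInter.1 v.2)
        rw [inv_inv] at h1
        refine mem_cosetInter.2 ⟨h1.2, ?_⟩
        have : g * (g⁻¹ * v.1 * g) * g⁻¹ = v.1 := by group
        rw [this]; exact h1.1⟩
      invFun := fun v => ⟨g * v.1 * g⁻¹, by
        have h1 := (mem_cosetInter.1 v.2)
        refine mem_cosetInter.2 ⟨h1.2, ?_⟩
        have : g⁻¹ * (g * v.1 * g⁻¹) * g⁻¹⁻¹ = v.1 := by group
        rw [this]; exact h1.1⟩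
      left_inv := fun v => Subtype.ext (by group)
      right_inv := fun v => Subtype.ext (by group) }

/-- Divisibility of a coset sum by the order of the intersection. -/
theorem exists_cosetSum_eq [M.IsPrime] (χ : IrrCharacter G) {d : ℕ}
    (hd : (d : ℂ) * (χ : G → ℂ) 1 = Nat.card G) (g : G) :
    ∃ s, MemLocalRing M s ∧ (d : ℂ) * cosetSum U (χ : G → ℂ) g = (Nat.card (cosetInter U g) : ℂ) * s := by
  classical
  haveI := Fintype.ofFinite (U)
  letI : MulAction (cosetInter U g) (U) :=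
    { smul := fun v u => ⟨(v : G) * u * (g * (v : G)⁻¹ * g⁻¹), mul_mem (mul_mem v.2.1 u.2) (by
        have := inv_mem (mem_cosetInter.1 v.2).2
        simpa [mul_assoc] using this)⟩
      one_smul := fun u => Subtype.ext (by
        show (1 : G) * u * (g * (1 : G)⁻¹ * g⁻¹) = u
        simp)
      mul_smul := fun v w u => Subtype.ext (by
        show ((v : G) * w) * u * (g * ((v : G) * w)⁻¹ * g⁻¹) =
          (v : G) * ((w : G) * u * (g * (w : G)⁻¹ * g⁻¹)) * (g * (v : G)⁻¹ * g⁻¹)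
        group) }
  have hcoe : ∀ (v : cosetInter U g) (u : U),
      ((v • u : U) : G) * g = (v : G) * ((u : G) * g) * (v : G)⁻¹ := fun v u => by
    show (v : G) * u * (g * (v : G)⁻¹ * g⁻¹) * g = _
    group
  rw [cosetSum_eq, Finset.mul_sum]
  refine SLn.sum_mem_card_smul (V := cosetInter U g) _ (MemLocalRing M) (zero_mem (locRing M))
    (fun a b => memLocalRing_add) (fun v u => by
      rw [hcoe, CharTheory.IsIrrCharacter.isClassFunction χ.2]) fun u => ?_
  set x := (u : G) * g with hx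
  set C := Subgroup.centralizer ({x} : Set G)
  have hle : (MulAction.stabilizer (cosetInter U g) u).map (cosetInter U g).subtype ≤ C := by
    rintro _ ⟨v, hv, rfl⟩
    rw [Subgroup.mem_centralizer_singleton_iff]
    have hh := hcoe v u
    rw [MulAction.mem_stabilizer_iff.1 hv] at hh
    show (v : G) * x = x * v
    conv_rhs => rw [hx, hh]
    simp [hx, mul_assoc]
  obtain ⟨c, hc⟩ : Nat.card (MulAction.stabilizer (cosetInter U g) u) ∣ Nat.card C := by
    have := Subgroup.card_dvd_of_le hle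
    rwa [Subgroup.card_map_of_injective (cosetInter U g).subtype_injective] at this
  refine ⟨(c : ℂ) * centralChar (χ : G → ℂ) x,
    memLocalRing_mul (memLocalRing_natCast c) (memLocalRing_centralChar χ x), ?_⟩
  rw [← mul_assoc, ← Nat.cast_mul, ← hc, centralChar_apply]
  have h1 : (χ : G → ℂ) 1 ≠ 0 := CharTheory.apply_one_ne_zero_of_isIrr χ.2
  have h2 : (Nat.card C : ℂ) * (C.index : ℂ) = (d : ℂ) * (χ : G → ℂ) 1 := by
    rw [hd, ← Nat.cast_mul, Subgroup.card_mul_index]
  field_simp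
  linear_combination (-(χ : G → ℂ) x) * h2

/-- The degree quotient of a character. -/
theorem cast_div_mul (χ : IrrCharacter G) :
    ((Nat.card G / charDegree (χ : G → ℂ) : ℕ) : ℂ) * (χ : G → ℂ) 1 = Nat.card G := by
  rw [← charDegree_cast χ, ← Nat.cast_mul, Nat.div_mul_cancel (charDegree_dvd_card χ)]

variable [hMp : M.IsPrime]

/-- Coset sums vanish modulo the prime unless the intersection is trivial. -/
theorem memLocalIdeal_cosetSum (hU : IsPGroup p U) (hM : IsPModular p M) (χ : IrrCharacter G)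
    (hχ : ¬ p ∣ Nat.card G / charDegree (χ : G → ℂ)) {g v : G} (hv : v ∈ U) (hv1 : v ≠ 1)
    (hg : g * v * g⁻¹ ∈ U) : MemLocalIdeal M (cosetSum U (χ : G → ℂ) g) := by
  obtain ⟨s, hs, he⟩ := exists_cosetSum_eq (M := M) χ (cast_div_mul χ) g
  have hne : cosetInter U g ≠ ⊥ := fun e => hv1 (by
    have : v ∈ cosetInter U g := mem_cosetInter.2 ⟨hv, hg⟩
    rwa [e, Subgroup.mem_bot] at this)
  have hp : p ∣ Nat.card (cosetInter U g) := by
    have hP : IsPGroup p (cosetInter U g) := hU.to_le inf_le_left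
    obtain ⟨k, hk⟩ := IsPGroup.iff_card.1 hP
    rcases k with _ | k
    · exact absurd (Subgroup.eq_bot_of_card_eq _ (by simpa using hk)) hne
    · exact hk ▸ dvd_pow_self p k.succ_ne_zero
  have h1 : MemLocalIdeal M ((Nat.card (cosetInter U g) : ℂ) * s) :=
    memLocalIdeal_mul_right ((memLocalIdeal_natCast_iff hM _).2 hp) hs
  rw [← he] at h1
  have hd0 : ((Nat.card G / charDegree (χ : G → ℂ) : ℕ) : ℂ) ≠ 0 :=
    Nat.cast_ne_zero.2 fun e => hχ (e ▸ dvd_zero p)
  have := memLocalIdeal_mul_left (memLocalRing_inv_natCast hM hχ) h1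
  rwa [inv_mul_cancel_left₀ hd0] at this

/-- Orthogonality for coset sums. -/
theorem sum_cosetSum_mul_cosetSum (χ ψ : IrrCharacter G) [Fintype G] [Decidable (χ = ψ)] (g : G) :
    ∑ h : G, cosetSum U (χ : G → ℂ) h * cosetSum U (ψ : G → ℂ) (h⁻¹ * g) =
      if χ = ψ then (Nat.card (U) : ℂ) * ((Nat.card G : ℂ) / (ψ : G → ℂ) 1) *
        cosetSum U (ψ : G → ℂ) g else 0 := by
  classical
  haveI := Fintype.ofFinite (U)
  have key : ∀ u v : U, ∑ h : G, (χ : G → ℂ) ((u : G) * h) *
      (ψ : G → ℂ) ((v : G) * (h⁻¹ * g)) = if χ = ψ then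
        (Nat.card G : ℂ) * (ψ : G → ℂ) ((u : G) * g * v) / (ψ : G → ℂ) 1 else 0 := by
    intro u v
    rw [← SLn.sum_irr_mul_inv χ ψ]
    refine Fintype.sum_equiv (Equiv.mulLeft (u : G)) _ _ fun h => ?_
    rw [← CharTheory.IsIrrCharacter.isClassFunction ψ.2 ((v : G) * (h⁻¹ * g)) (v : G)⁻¹]
    simp [mul_assoc]
  rw [Finset.sum_congr rfl fun h _ => by rw [cosetSum_eq, cosetSum_eq, Finset.sum_mul_sum]]
  rw [Finset.sum_comm, Finset.sum_congr rfl fun u _ => Finset.sum_comm]
  simp only [key]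
  split_ifs
  · have hv : ∀ v : U, cosetSum U (ψ : G → ℂ) (g * v) = cosetSum U (ψ : G → ℂ) g := fun v =>
      cosetSum_mul_right (CharTheory.IsIrrCharacter.isClassFunction ψ.2) v.2 g
    rw [Finset.sum_comm]
    simp only [mul_assoc, ← Finset.sum_div, ← Finset.mul_sum]
    simp only [cosetSum_eq] at hv
    simp only [hv, Finset.sum_const, Finset.card_univ, nsmul_eq_mul, Nat.card_eq_fintype_card,
      cosetSum_eq]
    ring
  · simp

theorem cosetSum_one (hU : IsPGroup p U) (χ : IrrCharacter G) (hχ : ¬ p ∣ Nat.card G / charDegree (χ : G → ℂ)) :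
    cosetSum U (χ : G → ℂ) 1 = (χ : G → ℂ) 1 := by
  classical
  haveI := Fintype.ofFinite (U)
  rw [cosetSum_eq, Fintype.sum_eq_single (1 : U)]
  · simp
  · intro u hu
    rw [mul_one]
    refine irr_eq_zero_of_full χ hχ ?_
    obtain ⟨k, hk⟩ := IsPGroup.iff_orderOf.1 hU u
    rw [← Subgroup.orderOf_coe] at hk
    rcases k with _ | k
    · exact absurd (Subtype.ext (orderOf_eq_one_iff.1 (by simpa using hk))) hu
    · exact hk ▸ dvd_pow_self p k.succ_ne_zero

/-- Not all coset sums vanish modulo the prime. -/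
theorem exists_cosetSum_notMem (hU : IsPGroup p U) (hUi : ¬ p ∣ U.index) (hM : IsPModular p M) (χ : IrrCharacter G)
    (hχ : ¬ p ∣ Nat.card G / charDegree (χ : G → ℂ)) :
    ∃ g, ¬ MemLocalIdeal M (cosetSum U (χ : G → ℂ) g) := by
  classical
  haveI := Fintype.ofFinite G
  by_contra hall
  push Not at hall
  set d := Nat.card G / charDegree (χ : G → ℂ) with hd
  letI : MulAction (U × U) G :=
    { smul := fun a h => (a.1 : G) * h * (a.2 : G)⁻¹
      one_smul := fun h => show (1 : G) * h * (1 : G)⁻¹ = h by simp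
      mul_smul := fun a b h => by
        show ((a.1 : G) * b.1) * h * ((a.2 : G) * b.2)⁻¹ =
          (a.1 : G) * ((b.1 : G) * h * (b.2 : G)⁻¹) * (a.2 : G)⁻¹
        group }
  have hcl := CharTheory.IsIrrCharacter.isClassFunction χ.2
  have hmem : ∀ h : G, ∀ a : MulAction.stabilizer (U × U) h, (a.1.2 : G) ∈ cosetInter U h := by
    intro h a
    refine mem_cosetInter.2 ⟨a.1.2.2, ?_⟩
    have e : (a.1.1 : G) * h * (a.1.2 : G)⁻¹ = h := a.2
    have : h * (a.1.2 : G) * h⁻¹ = (a.1.1 : G) := by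
      rw [mul_inv_eq_iff_eq_mul] at e ⊢
      exact e.symm
    rw [this]
    exact a.1.1.2
  have hst : ∀ h : G, Nat.card (MulAction.stabilizer (U × U) h) = Nat.card (cosetInter U h) := by
    intro h
    refine Nat.card_congr (Equiv.ofBijective (fun a => (⟨_, hmem h a⟩ : cosetInter U h)) ⟨?_, ?_⟩)
    · intro a b hab
      have e2 : (a.1.2 : G) = (b.1.2 : G) :=
        congrArg (fun v : cosetInter U h => (v : G)) hab
      have ea : (a.1.1 : G) * h * (a.1.2 : G)⁻¹ = h := a.2
      have eb : (b.1.1 : G) * h * (b.1.2 : G)⁻¹ = h := b.2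
      rw [← e2] at eb
      refine Subtype.ext (Prod.ext (Subtype.ext ?_) (Subtype.ext e2))
      exact mul_right_cancel (mul_right_cancel (ea.trans eb.symm))
    · intro v
      obtain ⟨h1, h2⟩ := mem_cosetInter.1 v.2
      refine ⟨⟨(⟨h * v.1 * h⁻¹, h2⟩, ⟨v.1, h1⟩), ?_⟩, rfl⟩
      show h * v.1 * h⁻¹ * h * (v.1)⁻¹ = h
      group
  obtain ⟨s, hs, he⟩ := SLn.sum_mem_card_smul (V := U × U)
    (fun h : G => cosetSum U (χ : G → ℂ) h * ((d : ℂ) * cosetSum U (χ : G → ℂ) h⁻¹)) (MemLocalIdeal M)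
    memLocalIdeal_zero (fun a b => memLocalIdeal_add)
    (fun a h => by
      show cosetSum U (χ : G → ℂ) ((a.1 : G) * h * (a.2 : G)⁻¹) *
        ((d : ℂ) * cosetSum U (χ : G → ℂ) ((a.1 : G) * h * (a.2 : G)⁻¹)⁻¹) = _
      rw [_root_.mul_inv_rev, _root_.mul_inv_rev, inv_inv, cosetSum_mul_right hcl (inv_mem a.2.2),
        cosetSum_mul_left _ a.1.2, cosetSum_mul_left _ a.2.2, cosetSum_mul_right hcl (inv_mem a.1.2)])
    (fun h => by
      obtain ⟨w, hw, hwe⟩ := exists_cosetSum_eq (M := M) χ (cast_div_mul χ) h⁻¹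
      refine ⟨cosetSum U (χ : G → ℂ) h * w, memLocalIdeal_mul_right (hall h) hw, ?_⟩
      show cosetSum U (χ : G → ℂ) h * ((d : ℂ) * cosetSum U (χ : G → ℂ) h⁻¹) = _
      rw [hwe, card_cosetInter_inv, hst]
      ring)
  have h1 := sum_cosetSum_mul_cosetSum (U := U) χ χ (1 : G)
  simp only [mul_one, if_true, cosetSum_one hU χ hχ] at h1
  have hsum : ∑ h : G, cosetSum U (χ : G → ℂ) h * ((d : ℂ) * cosetSum U (χ : G → ℂ) h⁻¹) =
      (d : ℂ) * ((Nat.card U : ℂ) * Nat.card G) := by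
    simp only [mul_left_comm _ (d : ℂ), ← Finset.mul_sum]
    rw [h1, mul_assoc (Nat.card U : ℂ),
      div_mul_cancel₀ _ (CharTheory.apply_one_ne_zero_of_isIrr χ.2)]
  rw [hsum, ← Subgroup.card_mul_index U, Nat.card_prod, Nat.cast_mul, Nat.cast_mul,
    show (d : ℂ) * ((Nat.card U : ℂ) * ((Nat.card U : ℂ) * (U.index : ℂ))) =
      ((Nat.card U : ℂ) * (Nat.card U : ℂ)) * ((d * U.index : ℕ) : ℂ) by push_cast; ring] at he
  have hU0 : ((Nat.card U : ℂ) * (Nat.card U : ℂ)) ≠ 0 :=
    mul_ne_zero (Nat.cast_ne_zero.2 Nat.card_pos.ne') (Nat.cast_ne_zero.2 Nat.card_pos.ne')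
  rw [← mul_left_cancel₀ hU0 he, memLocalIdeal_natCast_iff hM,
    (Fact.out : p.Prime).dvd_mul] at hs
  exact hs.elim hχ (hUi)

end CfsgLib.ClassK.SylowSums
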