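import Cfsg.Agent.Lib.Chevalley.Core
import Cfsg.Agent.Lib.ClassK.SylowCosetSums

/-!
Root elements, the torus and the open cell inside a Chevalley group, and the rank-one operator on
functions bi-invariant under the unipotent subgroup.
-/

set_option autoImplicit false
set_option linter.style.haveILetI false
set_option linter.unusedSectionVars false

open Cfsg.Lie CfsgLib.Chevalley Cfsg CfsgLib.Blocks

namespace CfsgLib.ClassK.ChevCell

variable {D : ChevalleyDatum} {A : Aux} {F : Type*} [Field F]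

/-- The positive unipotent subgroup inside the group. -/
def posU (D : ChevalleyDatum) (F : Type*) [Field F] : Subgroup (D.group F) :=
  (D.posUnipotent F).subgroupOf (D.group F)

/-- The diagonal subgroup inside the group. -/
def diagT (D : ChevalleyDatum) (F : Type*) [Field F] : Subgroup (D.group F) :=
  (D.diagonalSubgroup F).subgroupOf (D.group F)

theorem mem_posU {g : D.group F} : g ∈ posU D F ↔ (g : GL D.Idx F) ∈ D.posUnipotent F := Iff.rfl

theorem mem_diagT {g : D.group F} : g ∈ diagT D F ↔ (g : GL D.Idx F) ∈ D.diagonalSubgroup F :=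
  Iff.rfl

/-- A root element inside the group. -/
noncomputable def xE (h : Full D A) (r : ℕ) (t : F) : D.group F :=
  ⟨xG h.cert r t, xG_mem_group h.cert r t⟩

theorem coe_xE (h : Full D A) (r : ℕ) (t : F) : (xE h r t : GL D.Idx F) = xG h.cert r t := rfl

theorem xE_mul (h : Full D A) (r : ℕ) (t u : F) : xE h r t * xE h r u = xE h r (t + u) :=
  Subtype.ext (xG_mul h.cert r t u)

theorem xE_zero (h : Full D A) (r : ℕ) : xE h r (0 : F) = 1 := Subtype.ext (xG_zero h.cert r)

theorem xE_mem_posU (h : Full D A) {r : ℕ} (hr : D.IsPosRoot r) (t : F) : xE h r t ∈ posU D F :=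
  xG_mem_rootsU (S := {r | D.IsPosRoot r}) h.cert hr t

/-- An element `n_r(c)` inside the group. -/
noncomputable def nE (h : Full D A) (r : ℕ) (c : F) : D.group F :=
  ⟨nG h.cert r c, nG_mem_group h.cert r c⟩

/-- The torus inside the group. -/
noncomputable def tHom (h : Full D A) (F : Type*) [Field F] : (Fin D.rank → Fˣ) →* D.group F :=
  (torusHom D F).codRestrict (D.group F) fun c =>
    diagonal_le_group h.cert (torus_mem_diagonal h c)

theorem coe_tHom (h : Full D A) (c : Fin D.rank → Fˣ) :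
    (tHom h F c : GL D.Idx F) = torusHom D F c := rfl

theorem mem_diagT_iff (h : Full D A) {g : D.group F} : g ∈ diagT D F ↔ ∃ c, g = tHom h F c := by
  rw [mem_diagT, diagonalSubgroup_eq_range h]
  exact ⟨fun ⟨c, hc⟩ => ⟨c, Subtype.ext hc.symm⟩, fun ⟨c, hc⟩ => ⟨c, (congrArg Subtype.val hc).symm⟩⟩

theorem tHom_mem (h : Full D A) (c : Fin D.rank → Fˣ) : tHom h F c ∈ diagT D F :=
  (mem_diagT_iff h).2 ⟨c, rfl⟩

theorem diagT_comm (h : Full D A) {s t : D.group F} (hs : s ∈ diagT D F) (ht : t ∈ diagT D F) :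
    s * t = t * s := by
  obtain ⟨a, rfl⟩ := (mem_diagT_iff h).1 hs
  obtain ⟨b, rfl⟩ := (mem_diagT_iff h).1 ht
  rw [← map_mul, ← map_mul, mul_comm]

theorem diagT_conj_posU (h : Full D A) {t u : D.group F} (ht : t ∈ diagT D F)
    (hu : u ∈ posU D F) : t * u * t⁻¹ ∈ posU D F :=
  diagonal_conj_rootsU h {r | D.IsPosRoot r} _ ht _ hu

/-- The fundamental torus element `h_i(c)`. -/
noncomputable def hE (h : Full D A) (i : Fin D.rank) (c : Fˣ) : D.group F :=
  tHom h F (Pi.mulSingle i c)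

theorem hE_mul (h : Full D A) (i : Fin D.rank) (c d : Fˣ) :
    hE h i c * hE h i d = hE h i (c * d) := by
  rw [hE, hE, hE, ← map_mul, ← Pi.mulSingle_mul]

/-- An element inducing a permutation making all positive roots negative. -/
def IsTop (h : Full D A) (g : D.group F) : Prop :=
  ∃ σ η, Acts h.cert (g : GL D.Idx F) σ η ∧
    ∀ r : Fin D.nroots, D.IsPosRoot r → D.IsNegRoot (σ r)

/-- An element inducing a permutation keeping some positive root positive. -/
def IsLow (h : Full D A) (g : D.group F) : Prop :=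
  ∃ σ η, Acts h.cert (g : GL D.Idx F) σ η ∧
    ∃ r : Fin D.nroots, D.IsPosRoot r ∧ D.IsPosRoot (σ r)

theorem isTop_or_isLow (h : Full D A) {g : D.group F}
    (hg : (g : GL D.Idx F) ∈ D.monomialSubgroup F) : IsTop h g ∨ IsLow h g := by
  obtain ⟨σ, η, hA⟩ := exists_acts h hg
  by_cases hp : ∃ r : Fin D.nroots, D.IsPosRoot r ∧ D.IsPosRoot (σ r)
  · exact Or.inr ⟨σ, η, hA, hp⟩
  · exact Or.inl ⟨σ, η, hA, fun r hr =>
      (h.pos.pos_or_neg (σ r).isLt).resolve_left fun hr' => hp ⟨r, hr, hr'⟩⟩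

theorem neg_to_pos (h : Full D A) {g : GL D.Idx F} {σ : Equiv.Perm (Fin D.nroots)}
    {η : Fin D.nroots → F} (hA : Acts h.cert g σ η)
    (hp : ∀ r : Fin D.nroots, D.IsPosRoot r → D.IsNegRoot (σ r)) {r : Fin D.nroots}
    (hr : D.IsNegRoot r) : D.IsPosRoot (σ r) := by
  have h1 := hp (ngR h.cert r) (h.neg_isPos hr)
  rw [hA.neg] at h1
  exact (h.pos.pos_or_neg (σ r).isLt).resolve_right fun h3 =>
    h.pos_not_neg (h.neg_isPos h3) h1

theorem IsTop.mul_mem_diagT (h : Full D A) {g m : D.group F}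
    (hg : (g : GL D.Idx F) ∈ D.monomialSubgroup F) (hm : (m : GL D.Idx F) ∈ D.monomialSubgroup F)
    (hgt : IsTop h g) (hmt : IsTop h m) : g * m ∈ diagT D F := by
  obtain ⟨σ, η, hA, hσ⟩ := hgt
  obtain ⟨τ, θ, hB, hτ⟩ := hmt
  exact mem_diagonal_of_perm h (Subgroup.mul_mem _ hg hm) (hA.mul hB)
    fun i => neg_to_pos h hA hσ (hτ _ (h.simple_pos i.isLt))

theorem IsTop.exists_eq_mul (h : Full D A) {g m : D.group F}
    (hg : (g : GL D.Idx F) ∈ D.monomialSubgroup F) (hm : (m : GL D.Idx F) ∈ D.monomialSubgroup F)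
    (hgt : IsTop h g) (hmt : IsTop h m) : ∃ t ∈ diagT D F, g = t * m := by
  obtain ⟨σ, η, hA, hσ⟩ := hgt
  obtain ⟨τ, θ, hB, hτ⟩ := hmt
  have hm' := Subgroup.inv_mem _ hm
  obtain ⟨ρ, ξ, hC⟩ := exists_acts h hm'
  have e : τ * ρ = 1 := by
    have := hB.mul hC
    rw [mul_inv_cancel] at this
    exact this.perm_eq (acts_one h.cert)
  refine ⟨g * m⁻¹, mem_diagonal_of_perm h (Subgroup.mul_mem _ hg hm') (hA.mul hC) fun i => ?_,
    (inv_mul_cancel_right g m).symm⟩
  refine neg_to_pos h hA hσ ((h.pos.pos_or_neg (ρ (smp h.cert i)).isLt).resolve_left fun hp => ?_)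
  have h1 := hτ _ hp
  rw [show τ (ρ (smp h.cert i)) = smp h.cert i by rw [← Equiv.Perm.mul_apply, e]; rfl] at h1
  exact h.pos_not_neg (h.simple_pos i.isLt) h1

theorem IsTop.diag_mul (h : Full D A) {g t : D.group F} (hg : IsTop h g) (ht : t ∈ diagT D F) :
    IsTop h (t * g) := by
  obtain ⟨σ, η, hA, hσ⟩ := hg
  obtain ⟨c, rfl⟩ := (mem_diagT_iff h).1 ht
  exact ⟨_, _, (acts_torus h.cert c).mul hA, hσ⟩

theorem IsLow.diag_mul (h : Full D A) {g t : D.group F} (hg : IsLow h g) (ht : t ∈ diagT D F) :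
    IsLow h (t * g) := by
  obtain ⟨σ, η, hA, hσ⟩ := hg
  obtain ⟨c, rfl⟩ := (mem_diagT_iff h).1 ht
  exact ⟨_, _, (acts_torus h.cert c).mul hA, hσ⟩

theorem exists_conj_of_isLow (h : Full D A) {g : D.group F} (hg : IsLow h g) :
    ∃ v ∈ posU D F, v ≠ 1 ∧ g * v * g⁻¹ ∈ posU D F := by
  obtain ⟨σ, η, hA, r, hr, hr'⟩ := hg
  refine ⟨xE h r 1, xE_mem_posU h hr 1, fun e => ?_, ?_⟩
  · exact one_ne_zero (xG_injective h.cert r.isLt
      ((congrArg Subtype.val e).trans (xG_zero h.cert r.1).symm))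
  · show (g : GL D.Idx F) * xG h.cert r 1 * (g : GL D.Idx F)⁻¹ ∈ D.posUnipotent F
    rw [hA.conj]
    exact xG_mem_rootsU (S := {r | D.IsPosRoot r}) h.cert hr' _

theorem exists_unu (h : Full D A) (g : D.group F) :
    ∃ u ∈ posU D F, ∃ n : D.group F, (n : GL D.Idx F) ∈ D.monomialSubgroup F ∧
      ∃ v ∈ posU D F, g = u * n * v := by
  obtain ⟨u, hu, n, hn, v, hv, e⟩ := exists_bnu h g.2
  exact ⟨⟨u, borel_le_group h.cert (Subgroup.mem_sup_left hu)⟩, hu,
    ⟨n, monomial_le_group h.cert hn⟩, hn,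
    ⟨v, borel_le_group h.cert (Subgroup.mem_sup_left hv)⟩, hv, Subtype.ext e⟩

theorem cell_unique (h : Full D A) {n₀ : D.group F}
    (hn₀ : (n₀ : GL D.Idx F) ∈ D.monomialSubgroup F) (htop : IsTop h n₀)
    {u u' t t' v : D.group F} (hu : u ∈ posU D F) (hu' : u' ∈ posU D F) (ht : t ∈ diagT D F)
    (ht' : t' ∈ diagT D F) (hv : v ∈ posU D F) (e : u * t * n₀ * v = u' * t' * n₀) :
    u = u' ∧ t = t' := by
  obtain ⟨σ, η, hA, hσ⟩ := htop
  obtain ⟨c, rfl⟩ := (mem_diagT_iff h).1 ht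
  obtain ⟨c', rfl⟩ := (mem_diagT_iff h).1 ht'
  have hB := (acts_torus (F := F) h.cert c).mul hA
  have hB' := (acts_torus (F := F) h.cert c').mul hA
  have hv' : (v : GL D.Idx F) ∈ rootsU D F (invSet D (1 * σ)) :=
    rootsU_mono (S := {r | D.IsPosRoot r}) (T := invSet D (1 * σ))
      (fun r hr => ⟨hr, ⟨r, hr.1⟩, rfl, hσ ⟨r, hr.1⟩ hr⟩) hv
  have hdn : ∀ d : Fin D.rank → Fˣ,
      torusHom D F d * (n₀ : GL D.Idx F) ∈ D.monomialSubgroup F := fun d =>
    Subgroup.mul_mem _ (diagonal_le_monomial (torus_mem_diagonal h d)) hn₀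
  obtain ⟨e1, e2, -⟩ := canonical_unique h (u := (u : GL D.Idx F)) (v := (u' : GL D.Idx F))
    (u' := (v : GL D.Idx F)) (v' := 1) hu hu' (hdn c) (hdn c') hB hB' hv' (Subgroup.one_mem _)
    (by
      have := congrArg Subtype.val e
      simp only [Subgroup.coe_mul, coe_tHom] at this
      rw [mul_one, ← mul_assoc, ← mul_assoc]
      exact this)
  exact ⟨Subtype.ext e1, Subtype.ext (mul_right_cancel e2)⟩

/-- A fundamental root element passes the rest of the unipotent subgroup. -/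
theorem simple_conj_rest (h : Full D A) (i : Fin D.rank) (c : F) :
    ∀ a ∈ rootsU D F (posButSimple D i),
      xG h.cert (D.simple i) c * a * (xG h.cert (D.simple i) c)⁻¹ ∈
        rootsU D F (posButSimple D i) := by
  refine rootsU_conj_le h.cert fun r hr t => ?_
  have hs := h.simple_pos i.isLt
  obtain ⟨W, hW, e⟩ := conj_xG h.toStd hs.1 hr.1.1 hr.2 (h.toStd.ne_neg hs hr.1)
    (T := posButSimple D i)
    (fun d hd => ⟨(h.lt_commTerms hs hr.1 hd).1, ne_of_gt (h.lt_commTerms hs hr.1 hd).2.1⟩) c t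
  rw [e]
  exact Subgroup.mul_mem _ (xG_mem_rootsU h.cert hr t) hW

theorem split_right_simple (h : Full D A) (i : Fin D.rank) {u : D.group F} (hu : u ∈ posU D F) :
    ∃ a : D.group F, (a : GL D.Idx F) ∈ rootsU D F (posButSimple D i) ∧
      ∃ c : F, u = a * xE h (D.simple i) c := by
  obtain ⟨c, v, hv, e⟩ := exists_split_simple h i.isLt hu
  have hconj := simple_conj_rest h i c v hv
  exact ⟨⟨_, rootsU_le_group h.cert _ hconj⟩, hconj, c, Subtype.ext (by
    simp only [Subgroup.coe_mul, coe_xE]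
    rw [inv_mul_cancel_right]
    exact e)⟩

theorem nE_conj_rest (h : Full D A) (i : Fin D.rank) {a : GL D.Idx F}
    (ha : a ∈ rootsU D F (posButSimple D i)) :
    nG h.cert (D.simple i) 1 * a * (nG h.cert (D.simple i) 1)⁻¹ ∈
      rootsU D F (posButSimple D i) := by
  refine (acts_nG_simple (F := F) h i one_ne_zero).conj_rootsU (S := posButSimple D i)
    (fun s hs => ?_) a ha
  refine ⟨h.rf_ne_simple_pos i hs.1 fun e => hs.2 (congrArg Fin.val e), fun e => ?_⟩
  have e' : rf h.cert i s = smp h.cert i := Fin.ext e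
  have : s = ngR h.cert (smp h.cert i) := by rw [← rf_smp, ← e', rf_rf]
  exact h.pos_not_neg hs.1 (by rw [this]; exact h.neg_isNeg (h.simple_pos i.isLt))

theorem posButSimple_le (D : ChevalleyDatum) (i : ℕ) :
    rootsU D F (posButSimple D i) ≤ D.posUnipotent F :=
  rootsU_mono (T := {r | D.IsPosRoot r}) fun _ hr => hr.1

/-- The rank-one identity. -/
theorem nE_xE (h : Full D A) (i : Fin D.rank) {c : F} (hc : c ≠ 0) :
    ∃ d : Fˣ, ∃ a b : F, (d : F) = -((etaAt A i (smp h.cert i) : F) * c)⁻¹ ∧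
      nE h (D.simple i) 1 * xE h (D.simple i) c =
        xE h (D.simple i) a * nE h (D.simple i) (d : F) * xE h (D.simple i) b *
          nE h (D.simple i) 1 := by
  have hS := acts_nG_simple (F := F) h i one_ne_zero
  have hη := hS.ne_zero (smp h.cert i)
  simp only [_root_.one_zpow, mul_one] at hη
  have he : (etaAt A i (smp h.cert i) : F) * c ≠ 0 := mul_ne_zero hη hc
  have hconj := hS.conj (smp h.cert i) c
  rw [rfPerm_apply, rf_smp] at hconj
  simp only [_root_.one_zpow, mul_one] at hconj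
  set e := (etaAt A i (smp h.cert i) : F) * c with hedef
  refine ⟨Units.mk0 (-e⁻¹) (neg_ne_zero.2 (inv_ne_zero he)), -(-e⁻¹), -(-e⁻¹), rfl, Subtype.ext ?_⟩
  have key := xG_neg_eq_mul (F := F) h.cert (D.simple i) (-e⁻¹)
  rw [inv_neg, inv_inv, neg_neg] at key
  simp only [Subgroup.coe_mul, nE, xE, Units.val_mk0]
  rw [← key]
  exact mul_inv_eq_iff_eq_mul.1 hconj

theorem nE_mul_nE (h : Full D A) (i : Fin D.rank) (c : Fˣ) :
    nE h (D.simple i) (c : F) * nE h (D.simple i) 1 = hE h i (-c) := by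
  refine Subtype.ext ?_
  show nG h.cert (D.simple i) (c : F) * nG h.cert (D.simple i) 1 =
    torusHom D F (Pi.mulSingle i (-c))
  have e := nG_mul_nG_neg h.cert (D.simple i) (c : F) (-1)
  rw [neg_neg] at e
  rw [e, ← torusHom_mulSingle h.cert i c,
    show (-1 : F) = ((-1 : Fˣ) : F) by simp, ← torusHom_mulSingle h.cert i (-1), ← map_inv,
    ← map_mul]
  congr 1
  rw [← Pi.mulSingle_inv, ← Pi.mulSingle_mul, inv_neg, inv_one, mul_neg, mul_one]

end CfsgLib.ClassK.ChevCell
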