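import Cfsg.Agent.Lib.ClassK.ChevalleyCurtisRichen
import Cfsg.Agent.Lib.Chevalley.TorusData

/-!
The parameters of the torus are faithful when the torus has full order.
-/

set_option autoImplicit false
set_option linter.style.haveILetI false

open Cfsg.Lie CfsgLib.Chevalley

namespace CfsgLib.ClassK.Weights

open CfsgLib.ClassK.ChevCell

variable {D : ChevalleyDatum} {A : Aux} {F : Type*} [Field F] [Fintype F]

theorem tHom_injective (h : Full D A)
    (hcard : Nat.card (D.diagonalSubgroup F) = (Fintype.card F - 1) ^ D.rank) :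
    Function.Injective (tHom h F) := by
  classical
  let f : (Fin D.rank → Fˣ) → D.diagonalSubgroup F :=
    fun c => ⟨torusHom D F c, torus_mem_diagonal h c⟩
  have hf : Function.Surjective f := by
    intro t
    obtain ⟨c, hc⟩ : (t : GL D.Idx F) ∈ (torusHom D F).range := by
      rw [← diagonalSubgroup_eq_range h]; exact t.2
    exact ⟨c, Subtype.ext hc⟩
  have hb : Function.Bijective f := by
    refine hf.bijective_of_nat_card_le ?_
    rw [hcard, Nat.card_fun, Nat.card_eq_fintype_card (α := Fˣ), Fintype.card_units,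
      Nat.card_eq_fintype_card, Fintype.card_fin]
  intro a b e
  exact hb.1 (Subtype.ext (congrArg Subtype.val e :))

theorem gcd_two_eq_one (p : ℕ) [CharP F p] (hp : p = 2) : Nat.gcd (Fintype.card F - 1) 2 = 1 := by
  subst hp
  haveI : Fact (Nat.Prime 2) := ⟨Nat.prime_two⟩
  obtain ⟨n, -, hn⟩ := FiniteField.card F 2
  rw [hn, Nat.gcd_comm]
  refine (Nat.prime_two.coprime_iff_not_dvd).2 ?_
  have h2 : 2 ∣ 2 ^ (n : ℕ) := dvd_pow_self 2 n.ne_zero
  have h1 : 1 ≤ 2 ^ (n : ℕ) := Nat.one_le_two_pow
  omega

end CfsgLib.ClassK.Weights
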