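import Cfsg.Agent.Lib.ClassK.ChevalleyCell

/-!
Operators attached to the double cosets `U n U` on the `U`-fixed vectors of a representation of a
Chevalley group over its own field.
-/

set_option autoImplicit false
set_option linter.style.haveILetI false
set_option linter.unusedSectionVars false

open Cfsg.Lie CfsgLib.Chevalley

namespace CfsgLib.ClassK.Weights

open CfsgLib.ClassK.ChevCell

variable {D : ChevalleyDatum} {A : Aux} {F : Type*} [Field F]

/-- A monomial element of the group. -/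
def IsMono (n : D.group F) : Prop := (n : GL D.Idx F) ∈ D.monomialSubgroup F

/-- The fundamental monomial element. -/
noncomputable abbrev nS (h : Full D A) (i : Fin D.rank) : D.group F := nE h (D.simple i) 1

/-- The negative fundamental root element. -/
noncomputable abbrev yS (h : Full D A) (i : Fin D.rank) (e : F) : D.group F :=
  xE h (D.neg (D.simple i)) e

theorem isMono_nS (h : Full D A) (i : Fin D.rank) : IsMono (nS (F := F) h i) :=
  nG_simple_mem_monomial h i

theorem IsMono.mul {n m : D.group F} (hn : IsMono n) (hm : IsMono m) : IsMono (n * m) :=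
  Subgroup.mul_mem _ hn hm

theorem IsMono.inv {n : D.group F} (hn : IsMono n) : IsMono n⁻¹ :=
  Subgroup.inv_mem _ hn

theorem isMono_of_diag {t : D.group F} (ht : t ∈ diagT D F) : IsMono t := diagonal_le_monomial ht

theorem acts_nS (h : Full D A) (i : Fin D.rank) :
    ∃ η, Acts h.cert (nS (F := F) h i : GL D.Idx F) (rfPerm h.cert i) η :=
  ⟨_, acts_nG_simple h i one_ne_zero⟩

theorem IsMono.conj_diagT (h : Full D A) {n t : D.group F} (hn : IsMono n) (ht : t ∈ diagT D F) :
    n * t * n⁻¹ ∈ diagT D F := monomial_conj_diagonal h hn ht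

theorem IsMono.conj_diagT' (h : Full D A) {n t : D.group F} (hn : IsMono n) (ht : t ∈ diagT D F) :
    n⁻¹ * t * n ∈ diagT D F := by
  have := hn.inv.conj_diagT h ht
  rwa [inv_inv] at this

theorem nS_mul_self (h : Full D A) (i : Fin D.rank) :
    nS (F := F) h i * nS h i = hE h i (-1) := by
  have := nE_mul_nE (F := F) h i 1
  rwa [Units.val_one] at this

theorem nS_inv (h : Full D A) (i : Fin D.rank) :
    (nS (F := F) h i)⁻¹ = nS h i * (hE h i (-1))⁻¹ := by
  rw [← nS_mul_self, mul_inv_rev, ← mul_assoc, mul_inv_cancel, one_mul]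

theorem xE_inv (h : Full D A) (r : ℕ) (t : F) : (xE h r t)⁻¹ = xE h r (-t) := by
  rw [inv_eq_iff_mul_eq_one, xE_mul, add_neg_cancel, xE_zero]

theorem nE_inv (h : Full D A) (r : ℕ) (c : F) : (nE h r c)⁻¹ = nE h r (-c) :=
  Subtype.ext (nG_inv h.cert r c)

theorem yS_eq (h : Full D A) (i : Fin D.rank) {c : F} (hc : c ≠ 0) :
    yS h i c⁻¹ = xE h (D.simple i) c * nE h (D.simple i) (-c) * xE h (D.simple i) c := by
  refine Subtype.ext ?_
  have key := xG_neg_eq_mul (F := F) h.cert (D.simple i) (-c)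
  rw [inv_neg, neg_neg, neg_neg] at key
  exact key

/-- The rank-one identity. -/
theorem xE_mul_nS (h : Full D A) (i : Fin D.rank) (c : Fˣ) :
    xE h (D.simple i) (c : F) * nS h i =
      yS h i ((c : F)⁻¹) * (xE h (D.simple i) (-(c : F)) * hE h i (-c)) := by
  rw [yS_eq h i c.ne_zero, ← nE_mul_nE h i c, nS, ← xE_inv, ← nE_inv]
  group

theorem nS_conj_xE (h : Full D A) (i : Fin D.rank) (e : F) :
    ∃ e', nS h i * xE h (D.simple i) e' * (nS h i)⁻¹ = yS h i e := by
  have hS := acts_nG_simple (F := F) h i one_ne_zero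
  refine ⟨((etaAt A i (smp h.cert i) : F) * (1 : F) ^ (-D.cartan i (smp h.cert i)))⁻¹ * e,
    Subtype.ext ?_⟩
  have hconj := hS.conj (smp h.cert i)
    (((etaAt A i (smp h.cert i) : F) * (1 : F) ^ (-D.cartan i (smp h.cert i)))⁻¹ * e)
  rw [rfPerm_apply, rf_smp, mul_inv_cancel_left₀ (hS.ne_zero _)] at hconj
  exact hconj

theorem nS_conj_hE (h : Full D A) (i : Fin D.rank) (a : Fˣ) :
    nS h i * hE h i a * (nS h i)⁻¹ = hE h i a⁻¹ := by
  refine Subtype.ext ?_
  show nG h.cert (D.simple i) (1 : F) * torusHom D F (Pi.mulSingle i a) *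
      (nG h.cert (D.simple i) 1)⁻¹ = torusHom D F (Pi.mulSingle i a⁻¹)
  rw [nG_simple_mul_torus h i 1 one_ne_zero, reflTorus, chi_mulSingle, cartan_simple_self h.cert i,
    ← Pi.mulSingle_mul]
  congr 2
  rw [_root_.zpow_two, mul_inv_rev, ← mul_assoc, mul_inv_cancel, one_mul]

theorem conj_posU_of_pos (h : Full D A) {n : D.group F} {σ : Equiv.Perm (Fin D.nroots)}
    {η : Fin D.nroots → F} (hA : Acts h.cert (n : GL D.Idx F) σ η) (i : Fin D.rank)
    (hp : D.IsPosRoot (σ (smp h.cert i))) (c : F) :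
    n * xE h (D.simple i) c * n⁻¹ ∈ posU D F := by
  show (n : GL D.Idx F) * xG h.cert (smp h.cert i : ℕ) c * (n : GL D.Idx F)⁻¹ ∈ D.posUnipotent F
  rw [hA.conj]
  exact xG_mem_rootsU (S := {r | D.IsPosRoot r}) h.cert hp _

theorem conj_posU_of_neg (h : Full D A) {n : D.group F} {σ : Equiv.Perm (Fin D.nroots)}
    {η : Fin D.nroots → F} (hA : Acts h.cert (n : GL D.Idx F) σ η) (i : Fin D.rank)
    (hp : D.IsNegRoot (σ (smp h.cert i))) (c : F) :
    n * yS h i c * n⁻¹ ∈ posU D F := by
  show (n : GL D.Idx F) * xG h.cert (ngR h.cert (smp h.cert i) : ℕ) c * (n : GL D.Idx F)⁻¹ ∈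
    D.posUnipotent F
  rw [hA.conj, hA.neg]
  exact xG_mem_rootsU (S := {r | D.IsPosRoot r}) h.cert (h.neg_isPos hp) _

theorem split_left_simple (h : Full D A) (i : Fin D.rank) {u : D.group F} (hu : u ∈ posU D F) :
    ∃ (c : F) (a : D.group F), (a : GL D.Idx F) ∈ rootsU D F (posButSimple D i) ∧
      u = xE h (D.simple i) c * a := by
  obtain ⟨c, v, hv, e⟩ := exists_split_simple h i.isLt hu
  exact ⟨c, ⟨v, rootsU_le_group h.cert _ hv⟩, hv, Subtype.ext e⟩

theorem mem_posU_of_rest {i : Fin D.rank} {a : D.group F}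
    (ha : (a : GL D.Idx F) ∈ rootsU D F (posButSimple D i)) : a ∈ posU D F :=
  posButSimple_le D i ha

theorem inv_nS_conj_xE (h : Full D A) (i : Fin D.rank) {c : F} (hc : c ≠ 0) :
    ∃ e, e ≠ 0 ∧ (nS h i)⁻¹ * xE h (D.simple i) c * nS h i = yS h i e := by
  have hm : (-1 : F) ≠ 0 := neg_ne_zero.2 one_ne_zero
  have hS := acts_nG_simple (F := F) h i hm
  refine ⟨_, mul_ne_zero (hS.ne_zero (smp h.cert i)) hc, ?_⟩
  conv_lhs => arg 2; rw [← inv_inv (nS h i)]
  rw [nS, nE_inv]
  refine Subtype.ext ?_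
  have hconj := hS.conj (smp h.cert i) c
  rw [rfPerm_apply, rf_smp] at hconj
  exact hconj

/-- The negative fundamental root element lies in the cell of `n_i`. -/
theorem yS_mul_mem (h : Full D A) (i : Fin D.rank) {e : F} (he : e ≠ 0) {u : D.group F}
    (hu : u ∈ posU D F) {n : D.group F} {τ : Equiv.Perm (Fin D.nroots)} {θ : Fin D.nroots → F}
    (hA : Acts h.cert ((n⁻¹ : D.group F) : GL D.Idx F) τ θ)
    (hp : D.IsPosRoot (τ (smp h.cert i))) :
    ∃ a ∈ posU D F, ∃ b ∈ posU D F, ∃ t ∈ diagT D F,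
      yS h i e * (u * n) = a * (t * (nS h i)⁻¹ * n) * b := by
  have hx : e = ((e⁻¹)⁻¹ : F) := (inv_inv e).symm
  rw [hx, yS_eq h i (inv_ne_zero he)]
  have hc : -e⁻¹ ≠ 0 := neg_ne_zero.2 (inv_ne_zero he)
  set x := xE h (D.simple i) e⁻¹
  have hxU : x ∈ posU D F := xE_mem_posU h (h.simple_pos i.isLt) _
  obtain ⟨a, ha, d, hd⟩ := split_right_simple h i (Subgroup.mul_mem _ hxU hu)
  have hn : nE h (D.simple i) (-e⁻¹) = hE h i (-Units.mk0 _ hc) * (nS h i)⁻¹ := by
    rw [← nE_mul_nE h i (Units.mk0 _ hc), Units.val_mk0, mul_inv_cancel_right]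
  have hrest : (nS h i)⁻¹ * a * nS h i ∈ posU D F := by
    have h1 : (nS h i)⁻¹ * a * nS h i =
        nS h i * ((hE h i (-1))⁻¹ * a * hE h i (-1)) * (nS h i)⁻¹ := by
      rw [← nS_mul_self]; group
    rw [h1]
    refine posButSimple_le D i (nE_conj_rest h i ?_)
    have := diagonal_conj_rootsU h (posButSimple D i) _
      (Subgroup.inv_mem _ (mem_diagT.1 (tHom_mem h (Pi.mulSingle i (-1 : Fˣ))))) _ ha
    rw [inv_inv] at this
    exact this
  set t := hE h i (-Units.mk0 _ hc) with htdef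
  have ht : t ∈ diagT D F := tHom_mem h _
  refine ⟨x * (t * ((nS h i)⁻¹ * a * nS h i) * t⁻¹),
    Subgroup.mul_mem _ hxU (diagT_conj_posU h ht hrest),
    n⁻¹ * xE h (D.simple i) d * n, ?_, t, ht, ?_⟩
  · have := conj_posU_of_pos h hA i hp d
    rwa [inv_inv] at this
  · calc x * nE h (D.simple i) (-e⁻¹) * x * (u * n)
        = x * nE h (D.simple i) (-e⁻¹) * (x * u) * n := by group
      _ = _ := by rw [hd, hn]; group

/-- The fundamental monomial element is not in the torus. -/
theorem nS_not_mem_diagT (h : Full D A) (i : Fin D.rank) : nS (F := F) h i ∉ diagT D F := by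
  intro hmem
  obtain ⟨c, hc⟩ := (mem_diagT_iff h).1 hmem
  obtain ⟨η, hA⟩ := acts_nS (F := F) h i
  have hB := acts_torus h.cert c
  rw [← coe_tHom h c, ← hc] at hB
  have e := Equiv.congr_fun (hA.perm_eq hB) (smp h.cert i)
  rw [rfPerm_apply, rf_smp] at e
  have hneg := h.neg_isNeg (h.simple_pos i.isLt)
  have : ((ngR h.cert (smp h.cert i) : Fin D.nroots) : ℕ) = D.simple i := congrArg Fin.val e
  rw [show ((ngR h.cert (smp h.cert i) : Fin D.nroots) : ℕ) = D.neg (D.simple i) from rfl] at this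
  rw [this] at hneg
  exact h.pos_not_neg (h.simple_pos i.isLt) hneg

/-! ### The operators -/

variable [Fintype F]
variable {V : Type*} [AddCommGroup V] [Module F V]

/-- The cosets of `U` inside `U n U`. -/
noncomputable def cosets (n : D.group F) : Finset (D.group F ⧸ posU D F) :=
  letI : Fintype (D.group F ⧸ posU D F) := Fintype.ofFinite _
  open Classical in
  Finset.univ.filter fun q => ∃ u ∈ posU D F, (QuotientGroup.mk (u * n) : D.group F ⧸ posU D F) = q

theorem mem_cosets {n : D.group F} {q : D.group F ⧸ posU D F} :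
    q ∈ cosets n ↔ ∃ u ∈ posU D F, (QuotientGroup.mk (u * n) : D.group F ⧸ posU D F) = q := by
  classical
  simp [cosets]

variable (ρ : Representation F (D.group F) V)

/-- A vector fixed by `U`. -/
def IsFix (v : V) : Prop := ∀ u ∈ posU D F, ρ u v = v

/-- The operator of the double coset of `n`. -/
noncomputable def opT (n : D.group F) (v : V) : V := ∑ q ∈ cosets n, ρ q.out v

variable {ρ} {v : V}

theorem IsFix.congr (hv : IsFix ρ v) {g g' : D.group F}
    (e : (QuotientGroup.mk g : D.group F ⧸ posU D F) = QuotientGroup.mk g') : ρ g v = ρ g' v := by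
  rw [show g' = g * (g⁻¹ * g') by group, map_mul, Module.End.mul_apply,
    hv _ (QuotientGroup.eq.1 e)]

theorem IsFix.out (hv : IsFix ρ v) (g : D.group F) :
    ρ (QuotientGroup.mk g : D.group F ⧸ posU D F).out v = ρ g v :=
  hv.congr (QuotientGroup.out_eq' _)

theorem opT_one (hv : IsFix ρ v) : opT ρ 1 v = v := by
  classical
  have : cosets (1 : D.group F) = {(QuotientGroup.mk 1 : D.group F ⧸ posU D F)} := by
    ext q
    rw [mem_cosets, Finset.mem_singleton]
    constructor
    · rintro ⟨u, hu, rfl⟩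
      exact QuotientGroup.eq.2 (by simpa using hu)
    · rintro rfl
      exact ⟨1, Subgroup.one_mem _, by rw [mul_one]⟩
  rw [opT, this, Finset.sum_singleton, hv.out, map_one, Module.End.one_apply]

theorem isFix_opT (hv : IsFix ρ v) (n : D.group F) : IsFix ρ (opT ρ n v) := by
  intro u hu
  rw [opT, map_sum]
  refine Finset.sum_nbij' (fun q => u • q) (fun q => u⁻¹ • q) ?_ ?_ (fun q _ => inv_smul_smul u q)
    (fun q _ => smul_inv_smul u q) fun q _ => ?_
  · intro q hq
    obtain ⟨w, hw, rfl⟩ := mem_cosets.1 hq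
    exact mem_cosets.2 ⟨u * w, Subgroup.mul_mem _ hu hw, by rw [mul_assoc]; rfl⟩
  · intro q hq
    obtain ⟨w, hw, rfl⟩ := mem_cosets.1 hq
    exact mem_cosets.2 ⟨u⁻¹ * w, Subgroup.mul_mem _ (Subgroup.inv_mem _ hu) hw, by rw [mul_assoc]; rfl⟩
  · conv_rhs => rw [← q.out_eq']
    rw [MulAction.Quotient.smul_mk, hv.out, smul_eq_mul, map_mul, Module.End.mul_apply]

/-- Torus elements act on `opT ρ n v` through their conjugates. -/
theorem opT_weight (h : Full D A) (hv : IsFix ρ v) {n : D.group F} (hn : IsMono n)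
    {t : D.group F} (ht : t ∈ diagT D F) {a : F} (ha : ρ (n⁻¹ * t * n) v = a • v) :
    ρ t (opT ρ n v) = a • opT ρ n v := by
  set s := (n⁻¹ * t * n)⁻¹ with hs
  have hsT : s ∈ diagT D F := Subgroup.inv_mem _ (hn.conj_diagT' h ht)
  have wd : ∀ {t' s' : D.group F}, s' ∈ diagT D F → ∀ g g' : D.group F,
      (QuotientGroup.mk g : D.group F ⧸ posU D F) = QuotientGroup.mk g' →
      (QuotientGroup.mk (t' * g * s') : D.group F ⧸ posU D F) = QuotientGroup.mk (t' * g' * s') := by
    intro t' s' hs' g g' e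
    rw [QuotientGroup.eq] at e ⊢
    have := diagT_conj_posU h (Subgroup.inv_mem _ hs') e
    rw [inv_inv] at this
    rwa [show (t' * g * s')⁻¹ * (t' * g' * s') = s'⁻¹ * (g⁻¹ * g') * s' by group]
  have mem : ∀ {t' : D.group F}, t' ∈ diagT D F → ∀ q ∈ cosets n,
      (QuotientGroup.mk (t' * q.out * (n⁻¹ * t' * n)⁻¹) : D.group F ⧸ posU D F) ∈ cosets n := by
    intro t' ht' q hq
    obtain ⟨u, hu, rfl⟩ := mem_cosets.1 hq
    refine mem_cosets.2 ⟨t' * u * t'⁻¹, diagT_conj_posU h ht' hu, ?_⟩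
    rw [wd (Subgroup.inv_mem _ (hn.conj_diagT' h ht')) _ (u * n) (QuotientGroup.out_eq' _)]
    congr 1
    group
  rw [opT, map_sum, Finset.smul_sum]
  refine Finset.sum_nbij' (fun q => QuotientGroup.mk (t * q.out * s))
    (fun q => QuotientGroup.mk (t⁻¹ * q.out * (n⁻¹ * t⁻¹ * n)⁻¹))
    (fun q hq => mem ht q hq) (fun q hq => mem (Subgroup.inv_mem _ ht) q hq) ?_ ?_ ?_
  · intro q _
    conv_rhs => rw [← q.out_eq']
    rw [wd (Subgroup.inv_mem _ (hn.conj_diagT' h (Subgroup.inv_mem _ ht))) _ (t * q.out * s)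
      (QuotientGroup.out_eq' _)]
    congr 1
    rw [hs]
    group
  · intro q _
    conv_rhs => rw [← q.out_eq']
    rw [wd hsT _ (t⁻¹ * q.out * (n⁻¹ * t⁻¹ * n)⁻¹) (QuotientGroup.out_eq' _)]
    congr 1
    rw [hs]
    group
  · intro q _
    rw [hv.out, show t * q.out * s = (t * q.out) * s from rfl, map_mul, map_mul, Module.End.mul_apply,
      Module.End.mul_apply, ← map_smul, ← map_smul]
    congr 2
    rw [← map_smul, ← ha, ← Module.End.mul_apply, ← map_mul, hs, inv_mul_cancel, map_one,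
      Module.End.one_apply]

variable (ρ) in
/-- The rank-one operator. -/
noncomputable def opS (h : Full D A) (i : Fin D.rank) (v : V) : V :=
  ∑ c : F, ρ (xE h (D.simple i) c * nS h i) v

theorem card_cast_eq_zero : (Fintype.card F : F) = 0 := Nat.cast_card_eq_zero F

/-- Multiplication of the operators when the length goes up. -/
theorem opS_opT (h : Full D A) (hv : IsFix ρ v) {n : D.group F} (hn : IsMono n)
    {τ : Equiv.Perm (Fin D.nroots)} {θ : Fin D.nroots → F}
    (hA : Acts h.cert ((n⁻¹ : D.group F) : GL D.Idx F) τ θ) (i : Fin D.rank)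
    (hp : D.IsPosRoot (τ (smp h.cert i))) :
    opS ρ h i (opT ρ n v) = opT ρ (nS h i * n) v := by
  have hconj : ∀ c : F, n⁻¹ * xE h (D.simple i) c * n ∈ posU D F := fun c => by
    have := conj_posU_of_pos h hA i hp c
    rwa [inv_inv] at this
  simp only [opS, opT, map_sum]
  rw [← Finset.sum_product']
  refine Finset.sum_bij (fun cq _ => (xE h (D.simple i) cq.1 * nS h i) • cq.2) ?_ ?_ ?_ ?_
  · rintro ⟨c, q⟩ hcq
    obtain ⟨u, hu, rfl⟩ := mem_cosets.1 (Finset.mem_product.1 hcq).2
    obtain ⟨a, ha, d, e⟩ := split_right_simple h i hu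
    refine mem_cosets.2 ⟨xE h (D.simple i) c * (nS h i * a * (nS h i)⁻¹),
      Subgroup.mul_mem _ (xE_mem_posU h (h.simple_pos i.isLt) c)
        (posButSimple_le D i (nE_conj_rest h i ha)), ?_⟩
    rw [MulAction.Quotient.smul_mk, smul_eq_mul, QuotientGroup.eq]
    rw [show (xE h (D.simple i) c * (nS h i * a * (nS h i)⁻¹) * (nS h i * n))⁻¹ *
        (xE h (D.simple i) c * nS h i * (u * n)) = n⁻¹ * (a⁻¹ * u) * n by group,
      e, inv_mul_cancel_left]
    exact hconj d
  · rintro ⟨c, q⟩ hcq ⟨c', q'⟩ hcq' e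
    obtain ⟨u, hu, rfl⟩ := mem_cosets.1 (Finset.mem_product.1 hcq).2
    obtain ⟨u', hu', rfl⟩ := mem_cosets.1 (Finset.mem_product.1 hcq').2
    simp only [MulAction.Quotient.smul_mk, smul_eq_mul] at e
    have hcc : c = c' := by
      by_contra hne
      rw [QuotientGroup.eq] at e
      -- a negative root element would carry `u' n` into `u n U`
      obtain ⟨e', he'0, he'⟩ := inv_nS_conj_xE h i (sub_ne_zero.2 (Ne.symm hne))
      obtain ⟨a, ha, b, hb, t, ht, eq1⟩ := yS_mul_mem h i he'0 hu' hA hp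
      set w := (xE h (D.simple i) c * nS h i * (u * n))⁻¹ * (xE h (D.simple i) c' * nS h i * (u' * n))
        with hw
      have eq2 : yS h i e' * (u' * n) = u * n * w := by
        rw [← he', hw, show c' - c = -c + c' by ring, ← xE_mul, ← xE_inv]
        group
      have hN : IsMono (t * (nS h i)⁻¹ * n) :=
        (((isMono_of_diag ht).mul (isMono_nS h i).inv).mul hn)
      have hbor : ∀ {z : D.group F}, z ∈ posU D F → (z : GL D.Idx F) ∈ D.borelSubgroup F :=
        fun hz => Subgroup.mem_sup_left hz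
      have key := monomial_unique h hN hn (hbor (Subgroup.mul_mem _ (Subgroup.inv_mem _ hu) ha))
        (hbor (Subgroup.mul_mem _ hb (Subgroup.inv_mem _ e)))
        (by
          rw [← Subgroup.coe_mul, ← Subgroup.coe_mul]
          congr 1
          rw [show u⁻¹ * a * (t * (nS h i)⁻¹ * n) * (b * w⁻¹) =
            u⁻¹ * (a * (t * (nS h i)⁻¹ * n) * b) * w⁻¹ by group, ← eq1, eq2]
          group)
      have key' : (t * (nS h i)⁻¹ * n)⁻¹ * n ∈ diagT D F := key
      have := hn.conj_diagT h key'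
      rw [show n * ((t * (nS h i)⁻¹ * n)⁻¹ * n) * n⁻¹ = nS h i * t⁻¹ by group] at this
      refine nS_not_mem_diagT (F := F) h i ?_
      have := Subgroup.mul_mem _ this ht
      rwa [inv_mul_cancel_right] at this
    subst hcc
    rw [QuotientGroup.eq] at e
    rw [show (xE h (D.simple i) c * nS h i * (u * n))⁻¹ * (xE h (D.simple i) c * nS h i * (u' * n)) =
      (u * n)⁻¹ * (u' * n) by group] at e
    exact Prod.ext rfl (QuotientGroup.eq.2 e)
  · intro q hq
    obtain ⟨u, hu, rfl⟩ := mem_cosets.1 hq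
    obtain ⟨c, a, ha, rfl⟩ := split_left_simple h i hu
    refine ⟨(c, QuotientGroup.mk ((nS h i)⁻¹ * a * nS h i * n)),
      Finset.mem_product.2 ⟨Finset.mem_univ _, mem_cosets.2 ⟨_, ?_, rfl⟩⟩, ?_⟩
    · -- the conjugate of the rest lies in `U`
      have h1 : (nS h i)⁻¹ * a * nS h i =
          nS h i * ((hE h i (-1))⁻¹ * a * hE h i (-1)) * (nS h i)⁻¹ := by
        rw [← nS_mul_self]; group
      rw [h1]
      refine posButSimple_le D i (nE_conj_rest h i ?_)
      have := diagonal_conj_rootsU h (posButSimple D i) _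
        (Subgroup.inv_mem _ (mem_diagT.1 (tHom_mem h (Pi.mulSingle i (-1 : Fˣ))))) _ ha
      rw [inv_inv] at this
      exact this
    · rw [MulAction.Quotient.smul_mk, smul_eq_mul]
      congr 1
      group
  · rintro ⟨c, q⟩ _
    conv_rhs => rw [← q.out_eq']
    rw [MulAction.Quotient.smul_mk, hv.out, smul_eq_mul]
    simp only [map_mul, Module.End.mul_apply]

end CfsgLib.ClassK.Weights
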