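import Cfsg.Agent.Lib.ClassK.ChevalleyWeightModel
import Cfsg.Agent.Lib.ModularReps.SimpleCount

/-!
The theorem of Curtis and Richen for a Chevalley group over its own field, and the resulting count
of the classes of elements of order prime to the characteristic.
-/

set_option autoImplicit false
set_option linter.style.haveILetI false
set_option linter.unusedSectionVars false

open Cfsg.Lie CfsgLib.Chevalley Module
open scoped Classical

namespace CfsgLib.ClassK.Weights

open CfsgLib.ClassK.ChevCell CfsgLib.ModularReps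

universe u

/-- The restriction of a representation to an invariant subspace. -/
def subRep {k G V : Type*} [Field k] [Group G] [AddCommGroup V] [Module k V]
    (ρ : Representation k G V) (U : Submodule k V) (hU : ∀ g, ∀ w ∈ U, ρ g w ∈ U) :
    Representation k G U where
  toFun g := (ρ g).restrict (hU g)
  map_one' := LinearMap.ext fun w => Subtype.ext (by simp)
  map_mul' a b := LinearMap.ext fun w => Subtype.ext (by simp)

theorem coe_subRep {k G V : Type*} [Field k] [Group G] [AddCommGroup V] [Module k V]
    (ρ : Representation k G V) (U : Submodule k V) (hU : ∀ g, ∀ w ∈ U, ρ g w ∈ U) (g : G) (w : U) :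
    (subRep ρ U hU g w : V) = ρ g w := rfl

/-- The representation on a quotient by an invariant subspace. -/
def quotRep {k G V : Type*} [Field k] [Group G] [AddCommGroup V] [Module k V]
    (ρ : Representation k G V) (S : Submodule k V) (hS : ∀ g, ∀ w ∈ S, ρ g w ∈ S) :
    Representation k G (V ⧸ S) where
  toFun g := S.mapQ S (ρ g) fun w hw => hS g w hw
  map_one' := Submodule.linearMap_qext _ (LinearMap.ext fun w => by simp)
  map_mul' a b := Submodule.linearMap_qext _ (LinearMap.ext fun w => by simp)

theorem quotRep_mk {k G V : Type*} [Field k] [Group G] [AddCommGroup V] [Module k V]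
    (ρ : Representation k G V) (S : Submodule k V) (hS : ∀ g, ∀ w ∈ S, ρ g w ∈ S) (g : G) (w : V) :
    quotRep ρ S hS g (Submodule.Quotient.mk w) = Submodule.Quotient.mk (ρ g w) := rfl

section Reps

variable {k G : Type u} {V W : Type*} [Field k] [Group G] [AddCommGroup V] [Module k V] [AddCommGroup W]
  [Module k W] {ρ : Representation k G V}

theorem asAlgebraHom_intertwines {σ : Representation k G W} {T : V →ₗ[k] W}
    (hT : Intertwines ρ σ T) (z : MonoidAlgebra k G) (v : V) :
    T (ρ.asAlgebraHom z v) = σ.asAlgebraHom z (T v) := by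
  induction z using MonoidAlgebra.induction_linear with
  | zero => simp
  | add a b ha hb => simp [ha, hb]
  | single g r => simp [hT g v]

end Reps

variable {D : ChevalleyDatum} {A : Aux} {F : Type u} [Field F] [Fintype F]
variable {V : Type*} [AddCommGroup V] [Module F V] [FiniteDimensional F V]
variable {ρ : Representation F (D.group F) V} {χ : TorChar D F} {J : Finset (Fin D.rank)} {v : V}

theorem IsHW.of_injective {W : Type*} [AddCommGroup W] [Module F W] (h : Full D A)
    {σ : Representation F (D.group F) W} {T : V →ₗ[F] W} (hT : Intertwines ρ σ T)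
    (hv : IsHW h ρ χ J v) (hne : T v ≠ 0) : IsHW h σ χ J (T v) := by
  refine ⟨hne, fun u hu => by rw [← hT, hv.fix u hu], fun c => by rw [← hT, hv.weight c, map_smul],
    fun i => ?_⟩
  have := congrArg T (hv.op i)
  rw [map_smul, opS, map_sum] at this
  rw [opS, ← this]
  exact Finset.sum_congr rfl fun c _ => (hT _ _).symm

/-- An invariant functional is determined by its value at the longest translate. -/
theorem invDual_eq_zero (h : Full D A) (hI : IsIrr ρ) (hv : IsHW h ρ χ J v) {n₀ : D.group F}
    (hn₀ : IsMono n₀) (htop : IsTop h n₀) {f : Dual F V}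
    (hf : ∀ u ∈ posU D F, ∀ w, f (ρ u w) = f w) (h0 : f (ρ n₀ v) = 0) : f = 0 := by
  set S := Submodule.span F (Set.range fun g : D.group F => ρ g v)
  have hS : S = ⊤ := by
    refine (hI.eq_bot_or_top S fun g w hw => ?_).resolve_left fun e => hv.ne ?_
    · induction hw using Submodule.span_induction with
      | mem w hw =>
        obtain ⟨g', rfl⟩ := hw
        exact Submodule.subset_span ⟨g * g', by simp [map_mul]⟩
      | zero => rw [map_zero]; exact S.zero_mem
      | add a b _ _ ha hb => rw [map_add]; exact S.add_mem ha hb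
      | smul c a _ ha => rw [map_smul]; exact S.smul_mem c ha
    · have : v ∈ S := Submodule.subset_span ⟨1, by simp⟩
      rw [e] at this
      exact (Submodule.mem_bot F).1 this
  refine LinearMap.ext fun w => ?_
  have hker : S ≤ LinearMap.ker f := by
    refine Submodule.span_le.2 ?_
    rintro _ ⟨g, rfl⟩
    have h1 := mem_span_top h hv hn₀ htop g
    refine (Submodule.span_le.2 ?_) h1
    rintro _ ⟨u, hu, rfl⟩
    show f (ρ (u * n₀) v) = 0
    rw [map_mul, Module.End.mul_apply, hf u hu, h0]
  exact hker (hS ▸ Submodule.mem_top)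

/-- The dual of an irreducible representation is irreducible. -/
theorem isIrr_dual (hI : IsIrr ρ) : IsIrr ρ.dual where
  nontrivial := by
    haveI := hI.nontrivial
    obtain ⟨w, hw⟩ := exists_ne (0 : V)
    obtain ⟨φ, hφ⟩ := exists_dual_ne (k := F) hw
    exact ⟨⟨φ, 0, fun e => hφ (by rw [e]; rfl)⟩⟩
  eq_bot_or_top := fun W hW => by
    have hinv : ∀ g, ∀ w ∈ W.dualCoannihilator, ρ g w ∈ W.dualCoannihilator := by
      intro g w hw
      rw [Submodule.mem_dualCoannihilator] at hw ⊢
      intro φ hφ
      have := hw _ (hW g⁻¹ φ hφ)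
      simpa [Representation.dual_apply, Module.Dual.transpose_apply] using this
    have e := Subspace.dualCoannihilator_dualAnnihilator_eq (K := F) (V := V) (W := W)
    rcases hI.eq_bot_or_top _ hinv with h1 | h1
    · right
      rw [← e, h1, Submodule.dualAnnihilator_bot]
    · left
      rw [← e, h1, Submodule.dualAnnihilator_top]

theorem exists_invDual {p : ℕ} [Fact p.Prime] [CharP F p] (h : Full D A) (hI : IsIrr ρ) :
    ∃ f : Dual F V, f ≠ 0 ∧ ∀ u ∈ posU D F, ∀ w, f (ρ u w) = f w := by
  haveI := (isIrr_dual hI).nontrivial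
  obtain ⟨f, hf0, hf⟩ := exists_fixed (ρ := ρ.dual) (p := p) h
  refine ⟨f, hf0, fun u hu w => ?_⟩
  have := LinearMap.congr_fun (hf u⁻¹ (Subgroup.inv_mem _ hu)) w
  simpa [Representation.dual_apply, Module.Dual.transpose_apply] using this

/-- Only scalars commute. -/
theorem scalar_of_isHW (h : Full D A) (hI : IsIrr ρ) (hv : IsHW h ρ χ J v) (φ : End F V)
    (hφ : ∀ g, φ * ρ g = ρ g * φ) : ∃ c : F, φ = c • 1 := by
  obtain ⟨p, hpC⟩ := CharP.exists F
  haveI : Fact p.Prime := ⟨CharP.char_is_prime F p⟩
  obtain ⟨n₀, hn₀, σ, η, hA, hneg, -⟩ := exists_longest_acts h F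
  let N : D.group F := ⟨n₀, monomial_le_group h.cert hn₀⟩
  have htop : IsTop h N := ⟨σ, η, hA, hneg⟩
  obtain ⟨f, hf0, hf⟩ := exists_invDual (p := p) h hI
  have hfN : f (ρ N v) ≠ 0 := fun e => hf0 (invDual_eq_zero h hI hv (n₀ := N) hn₀ htop hf e)
  set c := f (φ (ρ N v)) / f (ρ N v)
  refine ⟨c, ?_⟩
  set ψ := φ - c • (1 : End F V)
  have hcomm : ∀ g w, ψ (ρ g w) = ρ g (ψ w) := fun g w => by
    have := LinearMap.congr_fun (hφ g) w
    simp only [Module.End.mul_apply] at this
    simp [ψ, this]
  have hzero : f.comp ψ = 0 := by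
    refine invDual_eq_zero h hI hv (n₀ := N) hn₀ htop (fun u hu w => ?_) ?_
    · show f (ψ (ρ u w)) = f (ψ w)
      rw [hcomm, hf u hu]
    · show f (ψ (ρ N v)) = 0
      simp [ψ, c, div_mul_cancel₀ _ hfN]
  have hbot : LinearMap.range ψ = ⊥ := by
    refine (hI.eq_bot_or_top _ ?_).resolve_right fun e => hf0 (LinearMap.ext fun w => ?_)
    · rintro g _ ⟨w, rfl⟩
      exact ⟨ρ g w, hcomm g w⟩
    · obtain ⟨w', hw'⟩ : w ∈ LinearMap.range ψ := e ▸ Submodule.mem_top
      rw [← hw']
      exact LinearMap.congr_fun hzero w'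
  exact sub_eq_zero.1 (LinearMap.range_eq_bot.1 hbot)

/-- The fixed vectors of `U` form a line. -/
theorem fixed_unique {p : ℕ} [Fact p.Prime] [CharP F p] (h : Full D A) (hI : IsIrr ρ) {w : V}
    (hv : IsFix ρ v) (hv0 : v ≠ 0) (hw : IsFix ρ w) : ∃ c : F, w = c • v := by
  haveI := (isIrr_dual hI).nontrivial
  obtain ⟨χ', J', f, -, hf⟩ := isHW_exists (ρ := ρ.dual) (p := p) h
  obtain ⟨n₀, hn₀, σ, η, hA, hneg, -⟩ := exists_longest_acts h F
  let N : D.group F := ⟨n₀, monomial_le_group h.cert hn₀⟩
  have htop : IsTop h N := ⟨σ, η, hA, hneg⟩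
  have hev : ∀ x : V, IsFix ρ x → ∀ u ∈ posU D F, ∀ φ : Dual F V,
      (Module.Dual.eval F V x) (ρ.dual u φ) = Module.Dual.eval F V x φ := by
    intro x hx u hu φ
    simp [Representation.dual_apply, Module.Dual.transpose_apply, hx u⁻¹ (Subgroup.inv_mem _ hu)]
  have key : ∀ x : V, IsFix ρ x → ρ.dual N f x = 0 → x = 0 := by
    intro x hx h0
    have := invDual_eq_zero h (isIrr_dual hI) hf (n₀ := N) hn₀ htop (hev x hx) h0
    exact (Module.forall_dual_apply_eq_zero_iff F x).1 fun φ => LinearMap.congr_fun this φ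
  have hv1 : ρ.dual N f v ≠ 0 := fun e => hv0 (key v hv e)
  refine ⟨ρ.dual N f w / ρ.dual N f v, sub_eq_zero.1 (key _ (fun u hu => ?_) ?_)⟩
  · rw [map_sub, map_smul, hw u hu, hv u hu]
  · rw [map_sub, map_smul, smul_eq_mul, div_mul_cancel₀ _ hv1, sub_self]

theorem IsHW.unique {p : ℕ} [Fact p.Prime] [CharP F p] (h : Full D A) (hI : IsIrr ρ)
    {χ' : TorChar D F} {J' : Finset (Fin D.rank)} {w : V} (hv : IsHW h ρ χ J v)
    (hw : IsHW h ρ χ' J' w) : χ = χ' ∧ J = J' := by
  obtain ⟨c, rfl⟩ := fixed_unique (p := p) h hI hv.fix hv.ne hw.fix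
  have hc : c ≠ 0 := fun e => hw.ne (by rw [e, zero_smul])
  constructor
  · refine MonoidHom.ext fun a => Units.ext ?_
    have h1 := hw.weight a
    rw [map_smul, hv.weight a, smul_smul, smul_smul, mul_comm c] at h1
    exact mul_right_cancel₀ hc (smul_left_injective F hv.ne h1)
  · ext i
    have h1 := hw.op i
    rw [opS_smul, hv.op i, smul_smul, smul_smul, mul_comm c] at h1
    have h2 := mul_right_cancel₀ hc (smul_left_injective F hv.ne h1)
    by_cases hi : i ∈ J <;> by_cases hi' : i ∈ J' <;> simp [hi, hi'] at h2 ⊢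

/-- The types of weight vectors. -/
abbrev WType (D : ChevalleyDatum) (F : Type*) [Field F] : Type _ :=
  {pr : TorChar D F × Finset (Fin D.rank) // ∀ i ∈ pr.2, TrivAt pr.1 i}

/-- A simple subquotient of the functions on the group with a given weight vector. -/
theorem exists_simple (h : Full D A) (hinj : Function.Injective (tHom h F)) (x : WType D F) :
    ∃ (S U : Submodule F (D.group F → F)) (hS : ∀ g, ∀ w ∈ S, rightRep D F g w ∈ S)
      (hU : ∀ g, ∀ w ∈ U, rightRep D F g w ∈ U),
      ∃ (hU' : ∀ g, ∀ w ∈ U.map S.mkQ, quotRep (rightRep D F) S hS g w ∈ U.map S.mkQ),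
        IsIrr (subRep (quotRep (rightRep D F) S hS) (U.map S.mkQ) hU') ∧
        ∃ w, IsHW h (subRep (quotRep (rightRep D F) S hS) (U.map S.mkQ) hU') x.1.1 x.1.2 w := by
  obtain ⟨n₀, hn₀, σ, η, hA, hneg, -⟩ := exists_longest_acts h F
  let N : D.group F := ⟨n₀, monomial_le_group h.cert hn₀⟩
  have htop : IsTop h N := ⟨σ, η, hA, hneg⟩
  have hy := isHW_model h hinj x.1.1 x.1.2 x.2 (n₀ := N) hn₀ htop
  set y := modelVec h (Finset.univ.filter fun i => TrivAt x.1.1 i ∧ i ∉ x.1.2) x.1.1 N
  haveI : Finite (Submodule F (D.group F → F)) :=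
    Finite.of_injective _ SetLike.coe_injective
  obtain ⟨S, hSmax⟩ := (Set.toFinite {S : Submodule F (D.group F → F) |
      (∀ g, ∀ w ∈ S, rightRep D F g w ∈ S) ∧ y ∉ S}).exists_maximal
    ⟨⊥, fun g w hw => by rw [(Submodule.mem_bot F).1 hw, map_zero]; exact Submodule.zero_mem _,
      fun e => hy.ne ((Submodule.mem_bot F).1 e)⟩
  obtain ⟨⟨hS, hyS⟩, hmax⟩ := hSmax
  set U := Submodule.span F (Set.range fun g : D.group F => rightRep D F g y) with hUdef
  have hU : ∀ g, ∀ w ∈ U, rightRep D F g w ∈ U := by
    intro g w hw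
    induction hw using Submodule.span_induction with
    | mem w hw =>
      obtain ⟨g', rfl⟩ := hw
      exact Submodule.subset_span ⟨g * g', by simp [map_mul]⟩
    | zero => rw [map_zero]; exact U.zero_mem
    | add a b _ _ ha hb => rw [map_add]; exact U.add_mem ha hb
    | smul c a _ ha => rw [map_smul]; exact U.smul_mem c ha
  have hU' : ∀ g, ∀ w ∈ U.map S.mkQ, quotRep (rightRep D F) S hS g w ∈ U.map S.mkQ := by
    rintro g _ ⟨w, hw, rfl⟩
    exact ⟨_, hU g w hw, rfl⟩
  refine ⟨S, U, hS, hU, hU', ?_, ?_⟩
  · have hyU : y ∈ U := Submodule.subset_span ⟨1, by simp⟩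
    refine ⟨⟨⟨⟨S.mkQ y, y, hyU, rfl⟩, 0, fun e => hyS ((Submodule.Quotient.mk_eq_zero S).1
      (congrArg Subtype.val e))⟩⟩, fun W hW => ?_⟩
    set W' : Submodule F (D.group F → F) := (W.map (U.map S.mkQ).subtype).comap S.mkQ with hW'
    have hW'inv : ∀ g, ∀ w ∈ W', rightRep D F g w ∈ W' := by
      rintro g w ⟨b, hb, e⟩
      exact ⟨_, hW g b hb, by
        show quotRep (rightRep D F) S hS g (b : _ ⧸ S) = _
        rw [show (b : _ ⧸ S) = S.mkQ w from e]; rfl⟩
    by_cases hyW : y ∈ W'
    · right
      refine Submodule.eq_top_iff'.2 fun b => ?_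
      obtain ⟨w, hw, ew⟩ := b.2
      have hUW : U ≤ W' := Submodule.span_le.2 (by rintro _ ⟨g, rfl⟩; exact hW'inv g y hyW)
      obtain ⟨b', hb', e'⟩ := hUW hw
      rwa [show b = b' from Subtype.ext (ew.symm.trans e'.symm)]
    · left
      have hle : S ≤ W' := fun w hw =>
        ⟨0, W.zero_mem, by rw [map_zero, Submodule.mkQ_apply, (Submodule.Quotient.mk_eq_zero S).2 hw]⟩
      have heq := le_antisymm hle (hmax ⟨hW'inv, hyW⟩ hle)
      refine Submodule.eq_bot_iff _ |>.2 fun b hb => ?_
      obtain ⟨w, hw, ew⟩ := b.2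
      have hwW : w ∈ S := by
        rw [heq]
        exact ⟨b, hb, ew.symm⟩
      exact Subtype.ext (by rw [← ew, Submodule.mkQ_apply, (Submodule.Quotient.mk_eq_zero S).2 hwW]; rfl)
  · have hyU : y ∈ U := Submodule.subset_span ⟨1, by simp⟩
    refine ⟨⟨S.mkQ y, y, hyU, rfl⟩, fun e => hyS ((Submodule.Quotient.mk_eq_zero S).1
      (congrArg Subtype.val e)), fun u hu => Subtype.ext ?_, fun c => Subtype.ext ?_,
      fun i => Subtype.ext ?_⟩
    · show S.mkQ (rightRep D F u y) = S.mkQ y
      rw [hy.fix u hu]
    · show S.mkQ (rightRep D F (tHom h F c) y) = (x.1.1 c : F) • S.mkQ y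
      rw [hy.weight c, map_smul]
    · rw [opS, AddSubmonoidClass.coe_finsetSum]
      show ∑ c : F, S.mkQ (rightRep D F (xE h (D.simple i) c * nS h i) y) = _ • S.mkQ y
      rw [← map_sum, ← opS, hy.op i, map_smul]

/-- An element killed in every model is killed in every irreducible representation. -/
theorem kills_of_models {p : ℕ} [Fact p.Prime] [CharP F p] (h : Full D A)
    {M : WType D F → Type u} [∀ x, AddCommGroup (M x)] [∀ x, Module F (M x)]
    [∀ x, FiniteDimensional F (M x)] {μ : ∀ x, Representation F (D.group F) (M x)}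
    (hμ : ∀ x, IsIrr (μ x)) {m : ∀ x, M x} (hm : ∀ x, IsHW h (μ x) x.1.1 x.1.2 (m x))
    (hI : IsIrr ρ) {z : MonoidAlgebra F (D.group F)} (hz : ∀ x, (μ x).asAlgebraHom z = 0) :
    ρ.asAlgebraHom z = 0 := by
  haveI := hI.nontrivial
  obtain ⟨χ, J, w, hJ, hw⟩ := isHW_exists (ρ := ρ) (p := p) h
  set x : WType D F := ⟨(χ, J), hJ⟩
  obtain ⟨n₀, hn₀, σ, η, hA, hneg, -⟩ := exists_longest_acts h F
  let N : D.group F := ⟨n₀, monomial_le_group h.cert hn₀⟩
  have htop : IsTop h N := ⟨σ, η, hA, hneg⟩
  let π : Representation F (D.group F) (V × M x) :=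
    { toFun := fun g => (ρ g).prodMap (μ x g)
      map_one' := by ext <;> simp
      map_mul' := fun a b => by ext <;> simp }
  set Z := Submodule.span F (Set.range fun g : D.group F => π g (w, m x)) with hZ
  have hZinv : ∀ g, ∀ q ∈ Z, π g q ∈ Z := by
    intro g q hq
    induction hq using Submodule.span_induction with
    | mem q hq =>
      obtain ⟨g', rfl⟩ := hq
      exact Submodule.subset_span ⟨g * g', by simp [map_mul]⟩
    | zero => rw [map_zero]; exact Z.zero_mem
    | add a b _ _ ha hb => rw [map_add]; exact Z.add_mem ha hb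
    | smul c a _ ha => rw [map_smul]; exact Z.smul_mem c ha
  have hwm : (w, m x) ∈ Z := Submodule.subset_span ⟨1, by simp⟩
  have hpair : IsHW h π χ J (w, m x) := by
    refine ⟨fun e => hw.ne (congrArg Prod.fst e), fun u hu => Prod.ext (hw.fix u hu) ((hm x).fix u hu),
      fun c => Prod.ext (hw.weight c) ((hm x).weight c), fun i => Prod.ext ?_ ?_⟩
    · rw [opS, Prod.fst_sum]; exact hw.op i
    · rw [opS, Prod.snd_sum]; exact (hm x).op i
  obtain ⟨f, hf0, hf⟩ := exists_invDual (p := p) h hI
  obtain ⟨f', hf0', hf'⟩ := exists_invDual (p := p) h (hμ x)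
  have hfN : f (ρ N w) ≠ 0 := fun e => hf0 (invDual_eq_zero h hI hw (n₀ := N) hn₀ htop hf e)
  -- a functional vanishing on `Z`
  set c := f' (μ x N (m x)) / f (ρ N w)
  have hvan : ∀ q ∈ Z, c * f q.1 = f' q.2 := by
    intro q hq
    induction hq using Submodule.span_induction with
    | mem q hq =>
      obtain ⟨g, rfl⟩ := hq
      show c * f (π g (w, m x)).1 = f' (π g (w, m x)).2
      have h1 := mem_span_top h hpair (n₀ := N) hn₀ htop g
      generalize π g (w, m x) = q at h1 ⊢
      induction h1 using Submodule.span_induction with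
      | mem q hq =>
        obtain ⟨u, hu, rfl⟩ := hq
        show c * f (ρ (u * N) w) = f' (μ x (u * N) (m x))
        rw [map_mul, map_mul, Module.End.mul_apply, Module.End.mul_apply, hf u hu, hf' u hu,
          div_mul_cancel₀ _ hfN]
      | zero => simp
      | add a b _ _ ha hb => simp [mul_add, ha, hb]
      | smul r a _ ha => simp [← ha]; ring
    | zero => simp
    | add a b _ _ ha hb => simp [mul_add, ha, hb]
    | smul r a _ ha => simp [← ha]; ring
  -- hence `Z` is a graph
  have hfst : ∀ a : V, (a, (0 : M x)) ∈ Z → a = 0 := by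
    intro a ha
    let L : Submodule F V := Z.comap (LinearMap.inl F V (M x))
    have hL : ∀ g, ∀ b ∈ L, ρ g b ∈ L := fun g b hb => by
      have := hZinv g _ hb
      simpa [π, L] using this
    rcases hI.eq_bot_or_top L hL with h1 | h1
    · exact (Submodule.mem_bot F).1 (h1 ▸ ha : a ∈ (⊥ : Submodule F V))
    exfalso
    have h2 : ∀ b, (b, (0 : M x)) ∈ Z := fun b => (h1 ▸ Submodule.mem_top : b ∈ L)
    have hc0 : c = 0 := by
      have := hvan _ (h2 (ρ N w))
      simpa [hfN] using this
    have h3 : ((0 : V), μ x N (m x)) ∈ Z := by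
      have := Z.sub_mem (hZinv N _ hwm) (h2 (ρ N w))
      simpa [π] using this
    have h4 := hvan _ h3
    rw [hc0, zero_mul] at h4
    exact hf0' (invDual_eq_zero h (hμ x) (hm x) (n₀ := N) hn₀ htop hf' h4.symm)
  -- the first projection of `Z` is everything
  have hsurj : Z.map (LinearMap.fst F V (M x)) = ⊤ := by
    refine (hI.eq_bot_or_top _ ?_).resolve_left fun e => hw.ne ?_
    · rintro g _ ⟨q, hq, rfl⟩
      exact ⟨π g q, hZinv g q hq, rfl⟩
    · exact (Submodule.mem_bot F).1 (e ▸ Submodule.mem_map_of_mem hwm :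
        w ∈ (⊥ : Submodule F V))
  have hzinv : ∀ (z : MonoidAlgebra F (D.group F)), ∀ q ∈ Z,
      ((ρ.asAlgebraHom z q.1, (μ x).asAlgebraHom z q.2) : V × M x) ∈ Z := by
    intro z q hq
    induction z using MonoidAlgebra.induction_linear with
    | zero =>
      rw [map_zero, map_zero, LinearMap.zero_apply, LinearMap.zero_apply]
      exact Z.zero_mem
    | add a b ha hb => simpa using Z.add_mem ha hb
    | single g r => simpa [π, Prod.smul_mk] using Z.smul_mem r (hZinv g q hq)
  refine LinearMap.ext fun a => ?_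
  obtain ⟨q, hq, rfl⟩ : a ∈ Z.map (LinearMap.fst F V (M x)) := hsurj ▸ Submodule.mem_top
  have h5 := hzinv z q hq
  rw [hz x, LinearMap.zero_apply] at h5
  exact hfst _ h5

/-- An element killed in every irreducible representation is nilpotent. -/
theorem isNilpotent_of_kills {k G : Type u} [Field k] [Finite k] [Group G] [Finite G]
    {z : MonoidAlgebra k G}
    (hz : ∀ (V : Type u) [AddCommGroup V] [Module k V] [FiniteDimensional k V]
      (ρ : Representation k G V), IsIrr ρ → ρ.asAlgebraHom z = 0) : IsNilpotent z := by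
  let R : Representation k G (G → k) :=
    { toFun := fun g =>
        { toFun := fun f x => f (x * g)
          map_add' := fun _ _ => rfl
          map_smul' := fun _ _ => rfl }
      map_one' := by ext f x; simp
      map_mul' := fun a b => by ext f x; simp [mul_assoc] }
  haveI : FiniteDimensional k (G → k) := inferInstance
  haveI : Finite (Submodule k (G → k)) := Finite.of_injective _ SetLike.coe_injective
  have hfix : ∀ (z : MonoidAlgebra k G) (U : Submodule k (G → k)),
      (∀ g, ∀ w ∈ U, R g w ∈ U) → ∀ w ∈ U, R.asAlgebraHom z w ∈ U := by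
    intro z U hU w hw
    induction z using MonoidAlgebra.induction_linear with
    | zero => simp
    | add a b ha hb => simpa using U.add_mem ha hb
    | single g r => simpa using U.smul_mem r (hU g w hw)
  have key : ∀ (n : ℕ) (U : Submodule k (G → k)), Module.finrank k U = n →
      (∀ g, ∀ w ∈ U, R g w ∈ U) → ∃ m : ℕ, ∀ w ∈ U, (R.asAlgebraHom z ^ m) w = 0 := by
    intro n
    induction n using Nat.strong_induction_on with
    | _ n ih =>
      intro U hn hU
      by_cases hbot : U = ⊥
      · exact ⟨0, fun w hw => by rw [hbot, Submodule.mem_bot] at hw; simp [hw]⟩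
      obtain ⟨S, ⟨hSlt, hS⟩, hmax⟩ := (Set.toFinite {S : Submodule k (G → k) |
        S < U ∧ ∀ g, ∀ w ∈ S, R g w ∈ S}).exists_maximal
        ⟨⊥, bot_lt_iff_ne_bot.2 hbot, fun g w hw => by
          rw [(Submodule.mem_bot k).1 hw, map_zero]; exact Submodule.zero_mem _⟩
      obtain ⟨m, hm⟩ := ih _ (hn ▸ Submodule.finrank_lt_finrank_of_lt hSlt) S rfl hS
      let ρU := subRep R U hU
      let S' : Submodule k U := S.comap U.subtype
      have hS' : ∀ g, ∀ w ∈ S', ρU g w ∈ S' := fun g w hw => hS g w hw
      let ρQ := quotRep ρU S' hS'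
      have hirr : IsIrr ρQ := by
        refine ⟨?_, fun W hW => ?_⟩
        · obtain ⟨w, hw, hwS⟩ := SetLike.exists_of_lt hSlt
          exact ⟨⟨Submodule.Quotient.mk ⟨w, hw⟩, 0, fun e =>
            hwS ((Submodule.Quotient.mk_eq_zero S').1 e)⟩⟩
        · set W' := (W.comap S'.mkQ).map U.subtype with hW'
          have hinv : ∀ g, ∀ w ∈ W', R g w ∈ W' := by
            rintro g _ ⟨b, hb, rfl⟩
            exact ⟨ρU g b, hW g _ hb, rfl⟩
          have hle : S ≤ W' := fun w hw => ⟨⟨w, hSlt.le hw⟩, by
            show S'.mkQ _ ∈ W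
            rw [Submodule.mkQ_apply, (Submodule.Quotient.mk_eq_zero S').2 hw]
            exact W.zero_mem, rfl⟩
          rcases eq_or_lt_of_le (show W' ≤ U from Submodule.map_subtype_le U _) with e | e
          · right
            refine Submodule.eq_top_iff'.2 fun b => ?_
            obtain ⟨b, rfl⟩ := Submodule.Quotient.mk_surjective _ b
            obtain ⟨b', hb', e'⟩ : (b : G → k) ∈ W' := e.symm ▸ b.2
            rw [show b = b' from Subtype.ext e'.symm]
            exact hb'
          · left
            have heq := le_antisymm hle (hmax ⟨e, hinv⟩ hle)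
            refine (Submodule.eq_bot_iff _).2 fun b hb => ?_
            obtain ⟨b, rfl⟩ := Submodule.Quotient.mk_surjective _ b
            refine (Submodule.Quotient.mk_eq_zero S').2 ?_
            show (b : G → k) ∈ S
            rw [heq]
            exact ⟨b, hb, rfl⟩
      have h0 := hz _ ρQ hirr
      have hmap : ∀ b : U, R.asAlgebraHom z b ∈ S := by
        intro b
        have h1 := asAlgebraHom_intertwines (ρ := ρU) (σ := ρQ) (T := S'.mkQ) (fun g v => rfl) z b
        rw [h0, LinearMap.zero_apply, Submodule.mkQ_apply, Submodule.Quotient.mk_eq_zero] at h1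
        have h2 := asAlgebraHom_intertwines (ρ := ρU) (σ := R) (T := U.subtype) (fun g v => rfl) z b
        rw [Submodule.subtype_apply] at h2
        rw [show (b : G → k) = U.subtype b from rfl, ← asAlgebraHom_intertwines (ρ := ρU) (σ := R)
          (T := U.subtype) (fun g v => rfl) z b]
        exact h1
      exact ⟨m + 1, fun w hw => by
        rw [pow_succ, Module.End.mul_apply]
        exact hm _ (hmap ⟨w, hw⟩)⟩
  obtain ⟨m, hm⟩ := key _ ⊤ rfl fun _ _ _ => Submodule.mem_top
  refine ⟨m, ?_⟩
  ext g
  have hval : ∀ y : MonoidAlgebra k G,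
      R.asAlgebraHom y (Pi.single g (1 : k) : G → k) 1 = y.coeff g := by
    intro y
    induction y using MonoidAlgebra.induction_linear with
    | zero => simp
    | add a b ha hb => simp [ha, hb]
    | single a r =>
      rw [Representation.asAlgebraHom_single]
      show r * (Pi.single g (1 : k) : G → k) (1 * a) = _
      rw [one_mul, MonoidAlgebra.coeff_single, Finsupp.single_apply, Pi.single_apply, mul_ite,
        mul_one, mul_zero]
  have h1 := hval (z ^ m)
  rw [map_pow, hm _ Submodule.mem_top] at h1
  rw [← h1]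
  simp

/-- The number of types. -/
theorem card_wType : Nat.card (WType D F) = Fintype.card F ^ D.rank := by
  let P : Type u := {o : (Fˣ →* Fˣ) × Bool // o.2 = true → o.1 = 1}
  haveI : Finite (Fˣ →* Fˣ) := Finite.of_injective _ DFunLike.coe_injective
  have hP : Nat.card P = Fintype.card F := by
    have e : P ≃ Option (Fˣ →* Fˣ) :=
      { toFun := fun o => if o.1.2 then none else some o.1.1
        invFun := fun o => o.elim ⟨(1, true), fun _ => rfl⟩ fun φ => ⟨(φ, false), fun e => by simp at e⟩
        left_inv := by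
          rintro ⟨⟨φ, b⟩, hb⟩
          cases b
          · rfl
          · obtain rfl : φ = 1 := hb rfl
            rfl
        right_inv := by rintro (_ | φ) <;> rfl }
    rw [Nat.card_congr e, Finite.card_option]
    obtain ⟨g, hg⟩ := IsCyclic.exists_generator (α := Fˣ)
    have e2 : (Fˣ →* Fˣ) ≃ Fˣ :=
      { toFun := fun φ => φ g
        invFun := fun a => monoidHomOfForallMemZpowers hg (g' := a) (by
          rw [orderOf_eq_card_of_forall_mem_zpowers hg]; exact orderOf_dvd_natCard a)
        left_inv := fun φ => by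
          refine MonoidHom.ext fun x => ?_
          obtain ⟨k, rfl⟩ := hg x
          simp [map_zpow, monoidHomOfForallMemZpowers_apply_gen]
        right_inv := fun a => monoidHomOfForallMemZpowers_apply_gen hg _ }
    rw [Nat.card_congr e2, Nat.card_eq_fintype_card, Fintype.card_units]
    have := Fintype.card_pos (α := F)
    omega
  have e : WType D F ≃ (Fin D.rank → P) :=
    { toFun := fun x i => ⟨(x.1.1.comp (MonoidHom.mulSingle (fun _ : Fin D.rank => Fˣ) i),
        decide (i ∈ x.1.2)), fun hd => MonoidHom.ext (x.2 i (of_decide_eq_true hd))⟩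
      invFun := fun f => ⟨(∏ i, (f i).1.1.comp (Pi.evalMonoidHom _ i),
        Finset.univ.filter fun i => (f i).1.2 = true), fun i hi a => by
          have h1 := (f i).2 (Finset.mem_filter.1 hi).2
          rw [MonoidHom.finsetProd_apply, Finset.prod_eq_single i]
          · simp [h1]
          · intro j _ hji
            simp [Pi.mulSingle_eq_of_ne hji]
          · simp⟩
      left_inv := fun x => by
        refine Subtype.ext (Prod.ext ?_ ?_)
        · refine MonoidHom.ext fun c => ?_
          rw [MonoidHom.finsetProd_apply]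
          conv_rhs => rw [← Finset.univ_prod_mulSingle c, map_prod]
          rfl
        · ext i; simp
      right_inv := fun f => funext fun i => by
        refine Subtype.ext (Prod.ext ?_ ?_)
        · refine MonoidHom.ext fun a => ?_
          show (∏ j, (f j).1.1.comp (Pi.evalMonoidHom _ j)) (Pi.mulSingle i a) = _
          rw [MonoidHom.finsetProd_apply, Finset.prod_eq_single i]
          · simp
          · intro j _ hji
            simp [Pi.mulSingle_eq_of_ne hji]
          · simp
        · simp }
  rw [Nat.card_congr e, Nat.card_fun, hP, Nat.card_eq_fintype_card, Fintype.card_fin]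

/-- The number of `p`-regular classes of a Chevalley group with faithful torus parameters. -/
theorem card_pRegular_classes {p : ℕ} [Fact p.Prime] [CharP F p] (h : Full D A)
    (hinj : Function.Injective (tHom h F)) :
    Nat.card {c : ConjClasses (D.group F) //
      ∃ g : D.group F, ConjClasses.mk g = c ∧ (orderOf g).Coprime p} = Fintype.card F ^ D.rank := by
  choose S U hS hU hU' hirr w hw using exists_simple (F := F) h hinj
  haveI : Finite (WType D F) := by
    refine Nat.finite_of_card_ne_zero ?_
    rw [card_wType]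
    exact (pow_pos Fintype.card_pos _).ne'
  have hlist : IsCompleteList (k := F) (G := D.group F)
      (V := fun x : WType D F => ↥((U x).map (S x).mkQ))
      (fun x => subRep (quotRep (rightRep D F) (S x) (hS x)) ((U x).map (S x).mkQ) (hU' x)) := by
    refine ⟨hirr, fun x f hf => scalar_of_isHW h (hirr x) (hw x) f hf, fun x y hxy T hT => ?_,
      fun z hz => ?_⟩
    · by_contra hT0
      refine hxy ?_
      have hne : T (w x) ≠ 0 := by
        intro e
        refine hT0 ?_
        have hker : LinearMap.ker T = ⊤ := by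
          refine ((hirr x).eq_bot_or_top _ fun g q hq => ?_).resolve_left fun e' => (hw x).ne ?_
          · show T _ = 0
            rw [hT, show T q = 0 from hq, map_zero]
          · exact (Submodule.mem_bot F).1 (e' ▸ e : w x ∈ (⊥ : Submodule F _))
        exact LinearMap.ker_eq_top.1 hker
      obtain ⟨e1, e2⟩ := ((hw x).of_injective h hT hne).unique (p := p) h (hirr y) (hw y)
      exact Subtype.ext (Prod.ext e1 e2)
    · exact isNilpotent_of_kills fun V _ _ _ ρ hI => kills_of_models (p := p) h hirr hw hI hz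
  rw [hlist.card_eq, card_wType]

end CfsgLib.ClassK.Weights
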