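import Cfsg.Agent.Lib.ClassK.ChevalleyHecke

/-!
A Chevalley group has a single irreducible character of defect zero in its own characteristic.
-/

set_option autoImplicit false
set_option linter.style.haveILetI false
set_option linter.unusedSectionVars false

open Cfsg.Lie CfsgLib.Chevalley Cfsg CfsgLib.Blocks CfsgLib.ClassK.SylowSums

namespace CfsgLib.ClassK.ChevCell

variable {D : ChevalleyDatum} {A : Aux} {F : Type*} [Field F] [Fintype F] [DecidableEq F]
variable {p : ℕ} [Fact p.Prime] [CharP F p]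
variable {M : Ideal AlgInt} [M.IsPrime]

theorem cellInv_of_mem_diagT (h : Full D A) {n₀ : D.group F} {K : D.group F → ℂ}
    (hK : ∀ i c, CellInv h M n₀ K (hE h i c)) {s : D.group F} (hs : s ∈ diagT D F) :
    CellInv h M n₀ K s := by
  obtain ⟨c, rfl⟩ := (mem_diagT_iff h).1 hs
  rw [← Finset.univ_prod_mulSingle c]
  induction (Finset.univ : Finset (Fin D.rank)) using Finset.induction_on with
  | empty =>
    intro t _
    rw [Finset.prod_empty, map_one, one_mul, sub_self]
    exact memLocalIdeal_zero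
  | @insert i S hi ih =>
    intro t ht
    rw [Finset.prod_insert hi, map_mul]
    have h1 := hK i (c i) _ (Subgroup.mul_mem _ (tHom_mem h (∏ j ∈ S, Pi.mulSingle j (c j))) ht)
    have h2 := ih t ht
    have h3 := memLocalIdeal_add h1 h2
    rw [sub_add_sub_cancel, ← mul_assoc] at h3
    exact h3

theorem nice_cosetSum [Finite (D.group F)] (h : Full D A) (hU : IsPGroup p (posU D F))
    (hM : IsPModular p M) (χ : IrrCharacter (D.group F))
    (hχ : ¬ p ∣ Nat.card (D.group F) / charDegree (χ : D.group F → ℂ)) :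
    Nice h M (cosetSum (posU D F) (χ : D.group F → ℂ)) where
  left _ hu g := cosetSum_mul_left _ hu g
  right _ hu g := cosetSum_mul_right (CharTheory.IsIrrCharacter.isClassFunction χ.2) hu g
  ring g := memLocalRing_cosetSum χ g
  low n _ hlow := by
    obtain ⟨v, hv, hv1, hv2⟩ := exists_conj_of_isLow h hlow
    exact memLocalIdeal_cosetSum hU hM χ hχ hv hv1 hv2

/-- The sum over `U` at the longest element does not depend on the torus element modulo `M`. -/
theorem exists_const_mod (h : Full D A) (hM : IsPModular p M)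
    (hcardU : Nat.card (posU D F) = Fintype.card F ^ (D.nroots / 2)) [Fintype (posU D F)]
    {f : D.group F → ℂ} (hf : Nice h M f) {l : List (Fin D.rank)} (hl : GoodList h l)
    (htop : IsTop h (wE h F l)) (hall : ∀ i, i ∈ l) :
    ∃ R : ℂ, ∀ z ∈ diagT D F, MemLocalIdeal M
      (∑ u : posU D F, f ((wE h F l)⁻¹ * z * (u : D.group F) * wE h F l) - R) := by
  set n₀ := wE h F l with hn₀def
  have hn₀ : (n₀ : GL D.Idx F) ∈ D.monomialSubgroup F := nW_mem_monomial h l
  have hq : MemLocalIdeal M (Fintype.card F : ℂ) := by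
    obtain ⟨e, -, he⟩ := FiniteField.card F p
    exact (memLocalIdeal_natCast_iff hM _).2 (he ▸ dvd_pow_self p e.2.ne')
  obtain ⟨K, hK, hKe, hKi⟩ := exists_iterate h hq hcardU hf hn₀ htop hl
  have hinv := fun {s} (hs : s ∈ diagT D F) =>
    cellInv_of_mem_diagT h (fun i c => hKi i (hall i) c) hs
  set t₁ := (n₀ * n₀)⁻¹ with ht₁def
  have ht₁ : t₁ ∈ diagT D F := Subgroup.inv_mem _ (htop.mul_mem_diagT h hn₀ hn₀ htop)
  refine ⟨(Fintype.card F : ℂ) ^ (D.nroots / 2 - l.length) * K n₀, fun z hz => ?_⟩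
  have hs := Subgroup.mul_mem _ ht₁ hz
  have e : ∑ u : posU D F, f (n₀⁻¹ * z * (u : D.group F) * n₀) = cellSum h l f (t₁ * z * n₀) := by
    rw [cellSum_eq]
    refine Fintype.sum_equiv
      ⟨fun u => ⟨t₁ * z * (u : D.group F) * (t₁ * z)⁻¹, diagT_conj_posU h hs u.2⟩,
        fun u => ⟨(t₁ * z)⁻¹ * (u : D.group F) * (t₁ * z)⁻¹⁻¹,
          diagT_conj_posU h (Subgroup.inv_mem _ hs) u.2⟩,
        fun u => Subtype.ext (by group), fun u => Subtype.ext (by group)⟩ _ _ fun u => ?_
    simp only [Equiv.coe_fn_mk, ← hn₀def]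
    congr 1
    simp only [ht₁def]
    group
  have h1 := hinv hs 1 (Subgroup.one_mem _)
  rw [mul_one, one_mul] at h1
  rw [e, hKe, ← mul_sub]
  exact memLocalIdeal_mul_left (show MemLocalRing M _ from pow_mem (show (_ : ℂ) ∈ locRing M from memLocalRing_natCast _) _) h1

/-- The key congruence. -/
theorem key_congruence [Fintype (D.group F)] (h : Full D A) (hU : IsPGroup p (posU D F))
    (hM : IsPModular p M) (χ ψ : IrrCharacter (D.group F)) [Decidable (χ = ψ)]
    (hχ : ¬ p ∣ Nat.card (D.group F) / charDegree (χ : D.group F → ℂ))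
    [Fintype (posU D F)] [Fintype (diagT D F)] {n₀ : D.group F}
    (hn₀ : (n₀ : GL D.Idx F) ∈ D.monomialSubgroup F) (htop : IsTop h n₀) {R : ℂ}
    (hR : ∀ z ∈ diagT D F, MemLocalIdeal M (∑ u : posU D F,
      cosetSum (posU D F) (ψ : D.group F → ℂ) (n₀⁻¹ * z * (u : D.group F) * n₀) - R))
    {τ : D.group F} (hτ : τ ∈ diagT D F) :
    MemLocalIdeal M ((if χ = ψ then ((Nat.card (D.group F) / charDegree (ψ : D.group F → ℂ) : ℕ) : ℂ) *
        cosetSum (posU D F) (ψ : D.group F → ℂ) (τ * n₀) else 0) -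
      (∑ t : diagT D F, cosetSum (posU D F) (χ : D.group F → ℂ) ((t : D.group F) * n₀)) * R) := by
  classical
  haveI := Fintype.ofFinite (D.group F ⧸ posU D F)
  have hclχ := CharTheory.IsIrrCharacter.isClassFunction χ.2
  have hclψ := CharTheory.IsIrrCharacter.isClassFunction ψ.2
  set g₀ : D.group F := τ * n₀ with hg₀
  let Φ : D.group F → ℂ := fun g =>
    cosetSum (posU D F) (χ : D.group F → ℂ) g * cosetSum (posU D F) (ψ : D.group F → ℂ) (g⁻¹ * g₀)
  have hΦ : ∀ g : D.group F, ∀ v ∈ (posU D F), Φ (g * v) = Φ g := fun g v hv => by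
    simp only [Φ, _root_.mul_inv_rev, mul_assoc]
    rw [cosetSum_mul_right hclχ hv, cosetSum_mul_left _ (inv_mem hv)]
  have hΦout : ∀ g : D.group F, Φ ((g : D.group F ⧸ (posU D F)).out) = Φ g := fun g => by
    obtain ⟨v, hv⟩ := QuotientGroup.mk_out_eq_mul (posU D F) g
    rw [hv]; exact hΦ g v v.2
  have hexact : ∑ x : D.group F ⧸ (posU D F), Φ x.out = if χ = ψ then
      ((Nat.card (D.group F) / charDegree (ψ : D.group F → ℂ) : ℕ) : ℂ) *
        cosetSum (posU D F) (ψ : D.group F → ℂ) g₀ else 0 := by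
    have hb : Function.Bijective (fun a : (D.group F ⧸ (posU D F)) × (posU D F) => a.1.out * (a.2 : D.group F)) := by
      constructor
      · rintro ⟨x, u⟩ ⟨y, v⟩ e
        have hxy : x = y := by
          have := congrArg (fun g : D.group F => (g : D.group F ⧸ (posU D F))) e
          simpa [QuotientGroup.mk_mul_of_mem _ u.2, QuotientGroup.mk_mul_of_mem _ v.2,
            QuotientGroup.out_eq'] using this
        subst hxy
        exact Prod.ext rfl (Subtype.ext (mul_left_cancel e))
      · intro g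
        obtain ⟨v, hv⟩ := QuotientGroup.mk_out_eq_mul (posU D F) g
        exact ⟨((g : D.group F ⧸ (posU D F)), v⁻¹), by simp [hv]⟩
    have h1 : ∑ g : D.group F, Φ g = (Nat.card (posU D F) : ℂ) * ∑ x : D.group F ⧸ (posU D F), Φ x.out := by
      rw [← (Equiv.ofBijective _ hb).sum_comp, Fintype.sum_prod_type, Finset.mul_sum]
      refine Finset.sum_congr rfl fun x _ => ?_
      simp only [Equiv.ofBijective_apply, fun u : (posU D F) => hΦ x.out u u.2, Finset.sum_const,
        Finset.card_univ, nsmul_eq_mul, Nat.card_eq_fintype_card]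
    have h2 := sum_cosetSum_mul_cosetSum (U := posU D F) χ ψ g₀
    refine mul_left_cancel₀ (b := ∑ x : D.group F ⧸ (posU D F), Φ x.out)
      (Nat.cast_ne_zero.2 (Nat.card_pos (α := (posU D F))).ne' : (Nat.card (posU D F) : ℂ) ≠ 0) (h1.symm.trans ?_)
    rw [h2]
    split_ifs
    · rw [mul_assoc, ← cast_div_mul ψ,
        mul_div_cancel_right₀ _ (CharTheory.apply_one_ne_zero_of_isIrr ψ.2)]
    · simp
  let cell : (posU D F) × diagT D F → D.group F ⧸ (posU D F) := fun a =>
    (((a.1 : D.group F) * (a.2 : D.group F) * n₀ : D.group F) : D.group F ⧸ (posU D F))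
  have hcell : Function.Injective cell := by
    rintro ⟨u, t⟩ ⟨u', t'⟩ e
    have e1 := QuotientGroup.eq.1 e
    obtain ⟨h1, h2⟩ := cell_unique h hn₀ htop u.2 u'.2 t.2 t'.2 e1 (mul_inv_cancel_left _ _)
    exact Prod.ext (Subtype.ext h1) (Subtype.ext h2)
  have hoff : ∀ x : D.group F ⧸ (posU D F), x ∉ Set.range cell → MemLocalIdeal M (Φ x.out) := by
    intro x hx
    refine memLocalIdeal_mul_right ?_ (memLocalRing_cosetSum ψ _)
    obtain ⟨u, hu, n, hn, v, hv, e⟩ := exists_unu h x.out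
    rw [e, cosetSum_mul_right hclχ hv, cosetSum_mul_left _ hu]
    rcases isTop_or_isLow h hn with hnt | hnl
    · obtain ⟨t, ht, rfl⟩ := hnt.exists_eq_mul h hn hn₀ htop
      refine absurd ⟨(⟨u, hu⟩, ⟨t, ht⟩), ?_⟩ hx
      show ((u * t * n₀ : D.group F) : D.group F ⧸ (posU D F)) = x
      rw [mul_assoc u, ← QuotientGroup.mk_mul_of_mem (u * (t * n₀)) hv, ← e, QuotientGroup.out_eq']
    · exact (nice_cosetSum h hU hM χ hχ).low n hn hnl
  have hinner : ∀ t : diagT D F, MemLocalIdeal M (∑ u : (posU D F),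
      cosetSum (posU D F) (ψ : D.group F → ℂ) (((u : D.group F) * (t : D.group F) * n₀)⁻¹ * g₀) - R) := by
    intro t
    have h1 := hR ((t : D.group F)⁻¹ * τ) (Subgroup.mul_mem _ (Subgroup.inv_mem _ t.2) hτ)
    let E : (posU D F) ≃ (posU D F) :=
      ⟨fun u => ⟨τ⁻¹ * (u : D.group F)⁻¹ * τ⁻¹⁻¹,
          diagT_conj_posU h (Subgroup.inv_mem _ hτ) (inv_mem u.2)⟩,
        fun u => ⟨τ * (u : D.group F)⁻¹ * τ⁻¹, diagT_conj_posU h hτ (inv_mem u.2)⟩,
        fun u => Subtype.ext (by group), fun u => Subtype.ext (by group)⟩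
    have he : ∑ u : (posU D F),
        cosetSum (posU D F) (ψ : D.group F → ℂ) (((u : D.group F) * (t : D.group F) * n₀)⁻¹ * g₀) =
        ∑ u : (posU D F), cosetSum (posU D F) (ψ : D.group F → ℂ)
          (n₀⁻¹ * ((t : D.group F)⁻¹ * τ) * (u : D.group F) * n₀) := by
      rw [← E.sum_comp fun u : (posU D F) => cosetSum (posU D F) (ψ : D.group F → ℂ)
          (n₀⁻¹ * ((t : D.group F)⁻¹ * τ) * (u : D.group F) * n₀)]
      refine Finset.sum_congr rfl fun u _ => ?_
      simp only [E, Equiv.coe_fn_mk, g₀]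
      congr 1
      group
    rwa [he]
  rw [← hexact]
  set A₀ := ∑ t : diagT D F, cosetSum (posU D F) (χ : D.group F → ℂ) ((t : D.group F) * n₀) with hA₀
  have hsplit := Finset.sum_sdiff (f := fun x : D.group F ⧸ (posU D F) => Φ x.out)
    (Finset.subset_univ (Finset.univ.map ⟨cell, hcell⟩))
  rw [← hsplit, Finset.sum_map]
  have h1 : MemLocalIdeal M (∑ x ∈ Finset.univ \ Finset.univ.map ⟨cell, hcell⟩, Φ x.out) :=
    memLocalIdeal_sum fun x hx => hoff x fun ⟨a, ha⟩ => (Finset.mem_sdiff.1 hx).2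
      (Finset.mem_map.2 ⟨a, Finset.mem_univ _, ha⟩)
  have h2 : MemLocalIdeal M ((∑ a : (posU D F) × diagT D F, Φ (cell a).out) - A₀ * R) := by
    have e : (∑ a : (posU D F) × diagT D F, Φ (cell a).out) =
        ∑ t : diagT D F, cosetSum (posU D F) (χ : D.group F → ℂ) ((t : D.group F) * n₀) *
          ∑ u : (posU D F), cosetSum (posU D F) (ψ : D.group F → ℂ)
            (((u : D.group F) * (t : D.group F) * n₀)⁻¹ * g₀) := by
      rw [Fintype.sum_prod_type, Finset.sum_comm]
      refine Finset.sum_congr rfl fun t _ => ?_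
      rw [Finset.mul_sum]
      refine Finset.sum_congr rfl fun u _ => ?_
      rw [show Φ (cell (u, t)).out = Φ ((u : D.group F) * t * n₀) from hΦout _]
      simp only [Φ]
      rw [mul_assoc (u : D.group F), cosetSum_mul_left _ u.2]
    rw [e, hA₀, Finset.sum_mul, ← Finset.sum_sub_distrib]
    refine memLocalIdeal_sum fun t _ => ?_
    rw [← mul_sub]
    exact memLocalIdeal_mul_left (memLocalRing_cosetSum χ _) (hinner t)
  have h3 := memLocalIdeal_add h1 h2
  simp only [Function.Embedding.coeFn_mk]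
  convert h3 using 1
  ring

/-- At most one irreducible character has defect zero. -/
theorem eq_of_full [Finite (D.group F)] (h : Full D A) (hU : IsPGroup p (posU D F))
    (hUi : ¬ p ∣ (posU D F).index)
    (hcardU : Nat.card (posU D F) = Fintype.card F ^ (D.nroots / 2))
    (hM : IsPModular p M) (χ ψ : IrrCharacter (D.group F))
    (hχ : ¬ p ∣ Nat.card (D.group F) / charDegree (χ : D.group F → ℂ))
    (hψ : ¬ p ∣ Nat.card (D.group F) / charDegree (ψ : D.group F → ℂ)) : χ = ψ := by
  classical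
  haveI := Fintype.ofFinite (D.group F)
  haveI := Fintype.ofFinite (posU D F)
  haveI := Fintype.ofFinite (diagT D F)
  obtain ⟨l, hl, htop, hall⟩ := exists_goodList_top h F
  set n₀ := wE h F l with hn₀def
  have hn₀ : (n₀ : GL D.Idx F) ∈ D.monomialSubgroup F := nW_mem_monomial h l
  obtain ⟨Rχ, hRχ⟩ := exists_const_mod h hM hcardU (nice_cosetSum h hU hM χ hχ) hl htop hall
  obtain ⟨Rψ, hRψ⟩ := exists_const_mod h hM hcardU (nice_cosetSum h hU hM ψ hψ) hl htop hall
  set a : IrrCharacter (D.group F) → ℂ := fun φ =>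
    ∑ t : diagT D F, cosetSum (posU D F) (φ : D.group F → ℂ) ((t : D.group F) * n₀) with ha
  have haR : ∀ φ, MemLocalRing M (a φ) := fun φ =>
    memLocalRing_sum fun t _ => memLocalRing_cosetSum φ _
  have ringR : ∀ (φ : IrrCharacter (D.group F)) (R : ℂ),
      (∀ z ∈ diagT D F, MemLocalIdeal M (∑ u : posU D F,
        cosetSum (posU D F) (φ : D.group F → ℂ) (n₀⁻¹ * z * (u : D.group F) * n₀) - R)) →
      MemLocalRing M R := by
    intro φ R hR
    have h1 := memLocalRing_of_memLocalIdeal (hR 1 (Subgroup.one_mem _))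
    have h2 : MemLocalRing M (∑ u : posU D F,
        cosetSum (posU D F) (φ : D.group F → ℂ) (n₀⁻¹ * 1 * (u : D.group F) * n₀)) :=
      memLocalRing_sum fun u _ => memLocalRing_cosetSum φ _
    have h3 := sub_mem (show _ ∈ locRing M from h2) (show _ ∈ locRing M from h1)
    rwa [sub_sub_cancel] at h3
  have unit : ∀ (φ : IrrCharacter (D.group F)) (R : ℂ),
      ¬ p ∣ Nat.card (D.group F) / charDegree (φ : D.group F → ℂ) →
      (∀ z ∈ diagT D F, MemLocalIdeal M (∑ u : posU D F,
        cosetSum (posU D F) (φ : D.group F → ℂ) (n₀⁻¹ * z * (u : D.group F) * n₀) - R)) →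
      ¬ MemLocalIdeal M (a φ * R) := by
    intro φ R hφ hR hmem
    obtain ⟨g, hg⟩ := exists_cosetSum_notMem (M := M) hU hUi hM φ hφ
    apply hg
    obtain ⟨u, hu, n, hn, v, hv, rfl⟩ := exists_unu h g
    rw [cosetSum_mul_right (CharTheory.IsIrrCharacter.isClassFunction φ.2) hv,
      cosetSum_mul_left _ hu]
    rcases isTop_or_isLow h hn with hnt | hnl
    · obtain ⟨τ, hτ, rfl⟩ := hnt.exists_eq_mul h hn hn₀ htop
      have hk := key_congruence h hU hM φ φ hφ hn₀ htop hR hτ
      rw [if_pos rfl] at hk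
      have h1 := memLocalIdeal_add hk hmem
      simp only [ha, sub_add_cancel] at h1
      exact ((memLocalIdeal_mul_iff (memLocalRing_natCast _) (memLocalRing_cosetSum φ _)).1
        h1).resolve_left fun h' => hφ ((memLocalIdeal_natCast_iff hM _).1 h')
    · exact (nice_cosetSum h hU hM φ hφ).low n hn hnl
  by_contra hne
  have h1 := unit χ Rχ hχ hRχ
  have h2 := unit ψ Rψ hψ hRψ
  rw [memLocalIdeal_mul_iff (haR χ) (ringR χ Rχ hRχ)] at h1
  rw [memLocalIdeal_mul_iff (haR ψ) (ringR ψ Rψ hRψ)] at h2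
  have hk := key_congruence h hU hM χ ψ hχ hn₀ htop hRψ (Subgroup.one_mem _)
  rw [if_neg hne, zero_sub] at hk
  have hk' := memLocalIdeal_neg hk
  rw [neg_neg, memLocalIdeal_mul_iff (haR χ) (ringR ψ Rψ hRψ)] at hk'
  tauto

end CfsgLib.ClassK.ChevCell
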