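import Cfsg.Agent.Lib.ClassK.ChevalleyCell

/-!
The rank-one operators modulo the characteristic, and the sum of a bi-invariant function over a
translate of the unipotent subgroup at the longest element.
-/

set_option autoImplicit false
set_option linter.style.haveILetI false
set_option linter.unusedSectionVars false

open Cfsg.Lie CfsgLib.Chevalley Cfsg CfsgLib.Blocks

namespace CfsgLib.ClassK.ChevCell

variable {D : ChevalleyDatum} {A : Aux} {F : Type*} [Field F]
variable {M : Ideal AlgInt}

/-- Functions bi-invariant under `U`, with values in the local ring, that vanish modulo `M` at the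
monomial elements off the open cell. -/
structure Nice (h : Full D A) (M : Ideal AlgInt) [M.IsPrime] (f : D.group F → ℂ) : Prop where
  left : ∀ u ∈ posU D F, ∀ g, f (u * g) = f g
  right : ∀ u ∈ posU D F, ∀ g, f (g * u) = f g
  ring : ∀ g, MemLocalRing M (f g)
  low : ∀ n : D.group F, (n : GL D.Idx F) ∈ D.monomialSubgroup F → IsLow h n →
    MemLocalIdeal M (f n)

variable [Fintype F] [DecidableEq F] [M.IsPrime]

/-- The rank-one operator. -/
noncomputable def heckeOp (h : Full D A) (i : Fin D.rank) (f : D.group F → ℂ) (g : D.group F) : ℂ :=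
  ∑ c : F, f (nE h (D.simple i) 1 * xE h (D.simple i) c * g)

theorem heckeOp_left (h : Full D A) (i : Fin D.rank) {f : D.group F → ℂ} (hf : Nice h M f)
    {u : D.group F} (hu : u ∈ posU D F) (g : D.group F) :
    heckeOp h i f (u * g) = heckeOp h i f g := by
  obtain ⟨a, ha, c₀, rfl⟩ := split_right_simple h i hu
  refine Fintype.sum_equiv (Equiv.addRight c₀) _ _ fun c => ?_
  simp only [Equiv.coe_addRight]
  set s := nE (F := F) h (D.simple i) 1
  set x := xE (F := F) h (D.simple i) c
  have hmem : s * (x * a * x⁻¹) * s⁻¹ ∈ posU D F :=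
    posButSimple_le D i (nE_conj_rest h i (simple_conj_rest h i c _ ha))
  have e : s * x * (a * xE h (D.simple i) c₀ * g) =
      s * (x * a * x⁻¹) * s⁻¹ * (s * xE h (D.simple i) (c + c₀) * g) := by
    simp only [x, ← xE_mul h (D.simple i) c c₀]
    group
  rw [e, hf.left _ hmem]

theorem heckeOp_right (h : Full D A) (i : Fin D.rank) {f : D.group F → ℂ} (hf : Nice h M f)
    {u : D.group F} (hu : u ∈ posU D F) (g : D.group F) :
    heckeOp h i f (g * u) = heckeOp h i f g :=
  Finset.sum_congr rfl fun c _ => by rw [← mul_assoc, hf.right u hu]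

theorem heckeOp_ring (h : Full D A) (i : Fin D.rank) {f : D.group F → ℂ} (hf : Nice h M f)
    (g : D.group F) : MemLocalRing M (heckeOp h i f g) :=
  memLocalRing_sum fun c _ => hf.ring _

/-- The parameters appearing in the rank-one identity run over all units. -/
theorem sum_erase_zero (h : Full D A) (i : Fin D.rank) [DecidableEq F] (φ : Fˣ → ℂ) (ψ : F → ℂ)
    (hψ : ∀ c : F, c ≠ 0 → ∀ d : Fˣ,
      (d : F) = -((etaAt A i (smp h.cert i) : F) * c)⁻¹ → ψ c = φ d) :
    ∑ c ∈ (Finset.univ : Finset F).erase 0, ψ c = ∑ d : Fˣ, φ d := by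
  have hη := (acts_nG_simple (F := F) h i one_ne_zero).ne_zero (smp h.cert i)
  simp only [_root_.one_zpow, mul_one] at hη
  refine Finset.sum_bij (fun c hc => Units.mk0 (-((etaAt A i (smp h.cert i) : F) * c)⁻¹)
    (neg_ne_zero.2 (inv_ne_zero (mul_ne_zero hη (Finset.ne_of_mem_erase hc))))) (fun c hc => Finset.mem_univ _)
    (fun a ha b hb e => ?_) (fun d _ => ?_) (fun c hc => hψ c (Finset.ne_of_mem_erase hc) _ rfl)
  · have := congrArg Units.val e
    simp only [Units.val_mk0, neg_inj, inv_inj] at this
    exact mul_left_cancel₀ hη this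
  · refine ⟨((etaAt A i (smp h.cert i) : F))⁻¹ * (-(d : F))⁻¹, Finset.mem_erase.2
      ⟨mul_ne_zero (inv_ne_zero hη) (inv_ne_zero (neg_ne_zero.2 d.ne_zero)), Finset.mem_univ _⟩,
      Units.ext ?_⟩
    rw [Units.val_mk0, mul_inv_cancel_left₀ hη, inv_inv, neg_neg]

theorem conj_simple_of_pos (h : Full D A) (i : Fin D.rank) {g : D.group F}
    {σ : Equiv.Perm (Fin D.nroots)} {η : Fin D.nroots → F}
    (hA : Acts h.cert (g : GL D.Idx F) σ η) (hp : D.IsPosRoot (σ.symm (smp h.cert i))) (c : F) :
    g⁻¹ * xE h (D.simple i) c * g ∈ posU D F := by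
  set r := σ.symm (smp h.cert i) with hr
  have e := hA.conj r ((η r)⁻¹ * c)
  rw [hr, Equiv.apply_symm_apply, ← hr, mul_inv_cancel_left₀ (hA.ne_zero r)] at e
  show (g : GL D.Idx F)⁻¹ * xG h.cert (D.simple i) c * (g : GL D.Idx F) ∈ D.posUnipotent F
  rw [show xG h.cert (D.simple i) c = xG h.cert (smp h.cert i) c from rfl, ← e,
    show (g : GL D.Idx F)⁻¹ * ((g : GL D.Idx F) * xG h.cert r ((η r)⁻¹ * c) * (g : GL D.Idx F)⁻¹) *
      (g : GL D.Idx F) = xG h.cert r ((η r)⁻¹ * c) by group]
  exact xG_mem_rootsU (S := {r | D.IsPosRoot r}) h.cert hp _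

/-- Values of the operator at an element moving the fundamental root out of `U`. -/
theorem heckeOp_of_neg (h : Full D A) (i : Fin D.rank) {f : D.group F → ℂ} (hf : Nice h M f)
    {n : D.group F} (hn : (n : GL D.Idx F) ∈ D.monomialSubgroup F)
    {σ : Equiv.Perm (Fin D.nroots)} {η : Fin D.nroots → F}
    (hA : Acts h.cert (n : GL D.Idx F) σ η) (hneg : D.IsNegRoot (σ.symm (smp h.cert i))) :
    MemLocalIdeal M (heckeOp h i f n - ∑ d : Fˣ, f (hE h i d * n)) := by
  set s := nE (F := F) h (D.simple i) 1
  have hS := acts_nG_simple (F := F) h i one_ne_zero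
  have hsn := hS.mul hA
  have hsnm : ((s * n : D.group F) : GL D.Idx F) ∈ D.monomialSubgroup F :=
    Subgroup.mul_mem _ (nG_simple_mem_monomial h i) hn
  set r := ngR h.cert (σ.symm (smp h.cert i)) with hr
  have hσr : (rfPerm h.cert i * σ) r = smp h.cert i := by
    rw [Equiv.Perm.mul_apply, hr, hA.neg, Equiv.apply_symm_apply, rfPerm_apply, rf_ngR, rf_smp,
      ngR_ngR]
  have hrp : D.IsPosRoot r := h.neg_isPos hneg
  have h0 : MemLocalIdeal M (f (s * xE h (D.simple i) 0 * n)) := by
    rw [xE_zero, mul_one]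
    refine hf.low _ hsnm ⟨_, _, hsn, r, hrp, ?_⟩
    rw [hσr]
    exact h.simple_pos i.isLt
  have hq : D.IsPosRoot ((rfPerm h.cert i * σ).symm (smp h.cert i)) := by
    rw [← hσr, Equiv.symm_apply_apply]
    exact hrp
  have h1 : ∑ c ∈ (Finset.univ : Finset F).erase 0, f (s * xE h (D.simple i) c * n) =
      ∑ d : Fˣ, f (hE h i (-d) * n) := by
    refine sum_erase_zero h i _ _ fun c hc d hd => ?_
    obtain ⟨d', a, b, hd', e⟩ := nE_xE h i hc
    obtain rfl : d' = d := Units.ext (hd'.trans hd.symm)
    have e2 : s * xE h (D.simple i) c * n = xE h (D.simple i) a *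
        (nE h (D.simple i) (d' : F) * s * n) * ((s * n)⁻¹ * xE h (D.simple i) b * (s * n)) := by
      rw [e]
      simp only [s]
      group
    rw [e2, hf.right _ (conj_simple_of_pos h i (g := s * n) hsn hq b),
      hf.left _ (xE_mem_posU h (h.simple_pos i.isLt) a), nE_mul_nE]
  have h2 : ∑ d : Fˣ, f (hE h i (-d) * n) = ∑ d : Fˣ, f (hE h i d * n) :=
    Fintype.sum_equiv (Equiv.neg Fˣ) _ _ fun d => rfl
  unfold heckeOp
  rw [← Finset.add_sum_erase _ _ (Finset.mem_univ (0 : F)), h1, h2, add_sub_cancel_right]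
  exact h0

theorem nice_heckeOp (h : Full D A)
    (i : Fin D.rank) {f : D.group F → ℂ} (hf : Nice h M f)
    (hcard : MemLocalIdeal M (Fintype.card F : ℂ)) : Nice h M (heckeOp h i f) := by
  refine ⟨fun u hu g => heckeOp_left h i hf hu g, fun u hu g => heckeOp_right h i hf hu g,
    heckeOp_ring h i hf, fun n hn hlow => ?_⟩
  have hlow' := hlow
  obtain ⟨σ, η, hA, -⟩ := hlow
  rcases h.pos.pos_or_neg (σ.symm (smp h.cert i)).isLt with hp | hneg
  · have e : ∀ c : F, f (nE h (D.simple i) 1 * xE h (D.simple i) c * n) =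
        f (nE h (D.simple i) 1 * n) := fun c => by
      rw [show nE h (D.simple i) 1 * xE h (D.simple i) c * n =
        nE h (D.simple i) 1 * n * (n⁻¹ * xE h (D.simple i) c * n) by group,
        hf.right _ (conj_simple_of_pos h i hA hp c)]
    unfold heckeOp
    rw [Finset.sum_congr rfl fun c _ => e c, Finset.sum_const, Finset.card_univ, nsmul_eq_mul]
    exact memLocalIdeal_mul_right hcard (hf.ring _)
  · have h1 := heckeOp_of_neg h i hf hn hA hneg
    have h2 : MemLocalIdeal M (∑ d : Fˣ, f (hE h i d * n)) :=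
      memLocalIdeal_sum fun d _ => hf.low _
        (Subgroup.mul_mem _ (diagonal_le_monomial (tHom_mem h _)) hn)
        (hlow'.diag_mul h (tHom_mem h _))
    simpa using memLocalIdeal_add h1 h2

theorem heckeOp_top (h : Full D A) (i : Fin D.rank) {f : D.group F → ℂ} (hf : Nice h M f)
    {n : D.group F} (hn : (n : GL D.Idx F) ∈ D.monomialSubgroup F) (htop : IsTop h n) :
    MemLocalIdeal M (heckeOp h i f n - ∑ d : Fˣ, f (hE h i d * n)) := by
  obtain ⟨σ, η, hA, hσ⟩ := htop
  refine heckeOp_of_neg h i hf hn hA ((h.pos.pos_or_neg (σ.symm (smp h.cert i)).isLt).resolve_left fun hp => ?_)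
  have := hσ _ hp
  rw [Equiv.apply_symm_apply] at this
  exact h.pos_not_neg (h.simple_pos i.isLt) this

/-- Invariance modulo `M` under a subgroup-like translation on the open cell. -/
def CellInv (h : Full D A) (M : Ideal AlgInt) [M.IsPrime] (n₀ : D.group F)
    (f : D.group F → ℂ) (s : D.group F) : Prop :=
  ∀ t ∈ diagT D F, MemLocalIdeal M (f (s * t * n₀) - f (t * n₀))

theorem cellInv_heckeOp (h : Full D A) (i : Fin D.rank) {f : D.group F → ℂ} (hf : Nice h M f)
    {n₀ : D.group F} (hn₀ : (n₀ : GL D.Idx F) ∈ D.monomialSubgroup F) (htop : IsTop h n₀)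
    {s : D.group F} (hs : s ∈ diagT D F)
    (hinv : (∃ c, s = hE h i c) ∨ CellInv h M n₀ f s) :
    CellInv h M n₀ (heckeOp h i f) s := by
  intro t ht
  have hst := Subgroup.mul_mem _ hs ht
  have k1 := heckeOp_top h i hf (n := s * t * n₀)
    (Subgroup.mul_mem _ (diagonal_le_monomial hst) hn₀) (htop.diag_mul h hst)
  have k2 := heckeOp_top h i hf (n := t * n₀)
    (Subgroup.mul_mem _ (diagonal_le_monomial ht) hn₀) (htop.diag_mul h ht)
  have k3 : MemLocalIdeal M
      (∑ d : Fˣ, f (hE h i d * (s * t * n₀)) - ∑ d : Fˣ, f (hE h i d * (t * n₀))) := by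
    rcases hinv with ⟨c, rfl⟩ | hinv
    · have e : ∑ d : Fˣ, f (hE h i d * (hE h i c * t * n₀)) = ∑ d : Fˣ, f (hE h i d * (t * n₀)) :=
        Fintype.sum_equiv (Equiv.mulRight c) _ _ fun d => by
          simp only [Equiv.coe_mulRight, ← mul_assoc, hE_mul]
      rw [e, sub_self]
      exact memLocalIdeal_zero
    · rw [← Finset.sum_sub_distrib]
      refine memLocalIdeal_sum fun d _ => ?_
      have e : hE h i d * (s * t * n₀) = s * (hE h i d * t) * n₀ := by
        rw [← mul_assoc, ← mul_assoc, diagT_comm h (show hE h i d ∈ diagT D F from tHom_mem h _) hs, mul_assoc s]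
      rw [e, ← mul_assoc (hE h i d) t n₀]
      exact hinv _ (Subgroup.mul_mem _ (tHom_mem h _) ht)
  have := memLocalIdeal_add (memLocalIdeal_add k1 (memLocalIdeal_neg k2)) k3
  rwa [show heckeOp h i f (s * t * n₀) - heckeOp h i f (t * n₀) =
    (heckeOp h i f (s * t * n₀) - ∑ d : Fˣ, f (hE h i d * (s * t * n₀))) +
      -(heckeOp h i f (t * n₀) - ∑ d : Fˣ, f (hE h i d * (t * n₀))) +
      (∑ d : Fˣ, f (hE h i d * (s * t * n₀)) - ∑ d : Fˣ, f (hE h i d * (t * n₀))) by ring]

/-- The word element. -/
noncomputable def wE (h : Full D A) (F : Type*) [Field F] (l : List (Fin D.rank)) : D.group F :=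
  ⟨nW h.cert F l, monomial_le_group h.cert (nW_mem_monomial h l)⟩

/-- Lists along which every step lengthens the element. -/
inductive GoodList (h : Full D A) : List (Fin D.rank) → Prop
  | nil : GoodList h []
  | snoc {l : List (Fin D.rank)} (i : Fin D.rank) :
      GoodList h l → D.IsPosRoot (wPerm h.cert l (smp h.cert i)) → GoodList h (l ++ [i])

theorem GoodList.length_le (h : Full D A) {l : List (Fin D.rank)} (hl : GoodList h l) :
    l.length ≤ D.nroots / 2 := by
  classical
  let inv : List (Fin D.rank) → Finset (Fin D.nroots) := fun l =>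
    Finset.univ.filter fun r : Fin D.nroots => D.IsPosRoot r ∧ D.IsNegRoot (wPerm h.cert l r)
  have hle : ∀ l, (inv l).card ≤ D.nroots / 2 := by
    intro l
    obtain ⟨-, hset, hlen⟩ := h.toStd.posList
    refine le_trans (le_of_le_of_eq ?_ (List.toFinset_card_of_nodup
      (h.toStd.posList.1.imp fun {a b} (e : a < b) => Nat.ne_of_lt e))) hlen.le
    exact Finset.card_le_card_of_injOn (fun r : Fin D.nroots => (r : ℕ))
      (fun r hr => List.mem_toFinset.2 ((Set.ext_iff.1 hset r).2 (Finset.mem_filter.1 hr).2.1))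
      Fin.val_injective.injOn
  refine le_trans ?_ (hle l)
  induction hl with
  | nil => simp
  | @snoc l k hl hp ih =>
    obtain ⟨η, hη⟩ := acts_nW (F := ℚ) h l
    have hsub : insert (smp h.cert k) ((inv l).image (rf h.cert k)) ⊆ inv (l ++ [k]) := by
      intro r hr
      rw [Finset.mem_insert, Finset.mem_image] at hr
      have hneg : D.IsNegRoot (wPerm h.cert l (ngR h.cert (smp h.cert k))) := by
        rw [hη.neg]
        exact h.neg_isNeg hp
      simp only [inv, Finset.mem_filter, Finset.mem_univ, true_and, wPerm_append, wPerm_cons,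
        wPerm_nil, mul_one, Equiv.Perm.mul_apply, rfPerm_apply]
      rcases hr with rfl | ⟨s, hs, rfl⟩
      · exact ⟨h.simple_pos k.isLt, by rwa [rf_smp]⟩
      · simp only [inv, Finset.mem_filter, Finset.mem_univ, true_and] at hs
        refine ⟨h.rf_ne_simple_pos k hs.1 fun e => h.pos_not_neg hp (e ▸ hs.2), by
          rw [rf_rf]; exact hs.2⟩
    have hnotin : smp h.cert k ∉ (inv l).image (rf h.cert k) := by
      simp only [Finset.mem_image, inv, Finset.mem_filter, Finset.mem_univ, true_and, not_exists,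
        not_and]
      rintro s ⟨hs, -⟩ e
      have : s = ngR h.cert (smp h.cert k) := by rw [← rf_smp, ← e, rf_rf]
      rw [this] at hs
      exact h.pos_not_neg hs (h.neg_isNeg (h.simple_pos k.isLt))
    have := Finset.card_le_card hsub
    rw [Finset.card_insert_of_notMem hnotin,
      Finset.card_image_of_injective _ (Function.Involutive.injective (rf_rf h.cert k))] at this
    simp only [List.length_append, List.length_singleton]
    omega

/-- A good list of a longest element; it involves every fundamental reflection. -/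
theorem exists_goodList_top (h : Full D A) (F : Type*) [Field F] :
    ∃ l, GoodList h l ∧ IsTop h (wE h F l) ∧ ∀ i, i ∈ l := by
  classical
  let S : Finset ℕ := (Finset.range (D.nroots / 2 + 1)).filter fun m =>
    ∃ l, GoodList h l ∧ l.length = m
  have hS : S.Nonempty := ⟨0, Finset.mem_filter.2
    ⟨Finset.mem_range.2 (Nat.succ_pos _), [], GoodList.nil, rfl⟩⟩
  obtain ⟨l, hl, hlen⟩ := (Finset.mem_filter.1 (S.max'_mem hS)).2
  obtain ⟨η, hη⟩ := acts_nW (F := F) h l
  have hneg : ∀ i : Fin D.rank, D.IsNegRoot (wPerm h.cert l (smp h.cert i)) := by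
    intro i
    refine (h.pos.pos_or_neg (wPerm h.cert l (smp h.cert i)).isLt).resolve_left fun hp => ?_
    have hl' := hl.snoc i hp
    have := S.le_max' _ (Finset.mem_filter.2
      ⟨Finset.mem_range.2 (Nat.lt_succ_of_le (hl'.length_le h)), _, hl', rfl⟩)
    simp only [List.length_append, List.length_singleton] at this
    omega
  have htop : ∀ r : Fin D.nroots, D.IsPosRoot r → D.IsNegRoot (wPerm h.cert l r) :=
    fun r hr => hη.isNeg_of_simple h hneg hr
  refine ⟨l, hl, ⟨_, η, hη, htop⟩, fun i => ?_⟩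
  by_contra hi
  have hfix : ∀ l : List (Fin D.rank), i ∉ l →
      ∀ s : Fin D.nroots, crd A i (wPerm h.cert l s) = crd A i s := by
    intro l
    induction l with
    | nil => intro _ s; rfl
    | cons a l ih =>
      intro ha s
      simp only [List.mem_cons, not_or] at ha
      rw [wPerm_cons, Equiv.Perm.mul_apply, rfPerm_apply, h.crd_rf a i.isLt,
        if_neg (fun e : (a : ℕ) = i => ha.1 (Fin.ext e.symm)), mul_zero, sub_zero, ih ha.2]
  have h1 := hfix l hi (smp h.cert i)
  have h2 := h.crd_nonpos (hneg i) i.isLt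
  rw [h1, show ((smp h.cert i : Fin D.nroots) : ℕ) = D.simple i from rfl,
    crd_simple h.cert i.isLt i.isLt, if_pos rfl] at h2
  omega

/-- Sum over a translate of `U`. -/
noncomputable def cellSum (h : Full D A) (l : List (Fin D.rank)) (f : D.group F → ℂ)
    (g : D.group F) : ℂ :=
  haveI : Finite (D.group F) := inferInstance
  haveI := Fintype.ofFinite (posU D F)
  ∑ u : posU D F, f (wE h F l * (u : D.group F) * g)

theorem cellSum_eq [Fintype (posU D F)] (h : Full D A) (l : List (Fin D.rank))
    (f : D.group F → ℂ) (g : D.group F) :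
    cellSum h l f g = ∑ u : posU D F, f (wE h F l * (u : D.group F) * g) := by
  unfold cellSum
  convert rfl

theorem cellSum_snoc (h : Full D A) {f : D.group F → ℂ} (hf : Nice h M f)
    {l : List (Fin D.rank)} (k : Fin D.rank)
    (hp : D.IsPosRoot (wPerm h.cert l (smp h.cert k))) (g : D.group F) :
    (Fintype.card F : ℂ) * cellSum h (l ++ [k]) f g = heckeOp h k (cellSum h l f) g := by
  classical
  haveI := Fintype.ofFinite (posU D F)
  obtain ⟨η, hη⟩ := acts_nW (F := F) h l
  let Q : Subgroup (D.group F) := (rootsU D F (posButSimple D k)).subgroupOf (D.group F)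
  haveI := Fintype.ofFinite Q
  set s := nE (F := F) h (D.simple k) 1 with hs
  have hQU : ∀ a ∈ Q, a ∈ posU D F := fun a ha => posButSimple_le D k ha
  let m : F × Q → posU D F := fun z => ⟨xE h (D.simple k) z.1 * (z.2 : D.group F),
    Subgroup.mul_mem _ (xE_mem_posU h (h.simple_pos k.isLt) z.1) (hQU _ z.2.2)⟩
  have hm : Function.Bijective m := by
    constructor
    · rintro ⟨c, ⟨a, ha⟩⟩ ⟨d, ⟨b, hb⟩⟩ e
      have e' : xE h (D.simple k) c * a = xE h (D.simple k) d * b := congrArg Subtype.val e
      have hcd : c = d := by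
        have h1 : (xE h (D.simple k) d)⁻¹ * xE h (D.simple k) c = b * a⁻¹ := by
          rw [eq_mul_inv_iff_mul_eq, mul_assoc, e', inv_mul_cancel_left]
        have h2 : xG h.cert (D.simple k) (-d + c) ∈ rootsU D F (posButSimple D k) := by
          rw [← xG_mul, ← xG_inv]
          have e2 : (xG h.cert (D.simple k) d)⁻¹ * xG h.cert (D.simple k) c =
              (b : GL D.Idx F) * (a : GL D.Idx F)⁻¹ := congrArg Subtype.val h1
          rw [e2]
          exact Subgroup.mul_mem _ hb (Subgroup.inv_mem _ ha)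
        have h3 := (acts_nG_simple (F := F) h k one_ne_zero).conj (smp h.cert k) (-d + c)
        rw [rfPerm_apply, rf_smp] at h3
        have h4 : xG h.cert (ngR h.cert (smp h.cert k))
            ((etaAt A k (smp h.cert k) : F) * (1 : F) ^ (-D.cartan k (smp h.cert k)) * (-d + c)) = 1 := by
          rw [← Subgroup.mem_bot, ← borel_inf_negUnipotent h]
          refine ⟨h3 ▸ Subgroup.mem_sup_left (posButSimple_le D k (nE_conj_rest h k h2)),
            xG_mem_rootsU (S := {r | D.IsNegRoot r}) h.cert (h.neg_isNeg (h.simple_pos k.isLt)) _⟩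
        have h5 := xG_injective h.cert (ngR h.cert (smp h.cert k)).isLt
          (h4.trans (xG_zero h.cert _).symm)
        rcases mul_eq_zero.1 h5 with h6 | h6
        · exact absurd h6 ((acts_nG_simple (F := F) h k one_ne_zero).ne_zero _)
        · exact (neg_add_eq_zero.1 h6).symm
      subst hcd
      exact Prod.ext rfl (Subtype.ext (mul_left_cancel e'))
    · rintro ⟨u, hu⟩
      obtain ⟨c, v, hv, e⟩ := exists_split_simple h k.isLt hu
      exact ⟨(c, ⟨⟨v, rootsU_le_group h.cert _ hv⟩, hv⟩), Subtype.ext (Subtype.ext e.symm)⟩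
  let m' : Q × F → posU D F := fun z => ⟨(z.1 : D.group F) * xE h (D.simple k) z.2,
    Subgroup.mul_mem _ (hQU _ z.1.2) (xE_mem_posU h (h.simple_pos k.isLt) z.2)⟩
  have hm' : Function.Bijective m' := by
    rw [Fintype.bijective_iff_surjective_and_card]
    refine ⟨?_, ?_⟩
    · rintro ⟨u, hu⟩
      obtain ⟨a, ha, c, e⟩ := split_right_simple h k hu
      exact ⟨(⟨a, ha⟩, c), Subtype.ext e.symm⟩
    · rw [Fintype.card_prod, mul_comm, ← Fintype.card_prod]
      exact Fintype.card_of_bijective hm
  let conjQ : Q → Q := fun a => ⟨s * (a : D.group F) * s⁻¹, nE_conj_rest h k a.2⟩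
  have hconjQ : Function.Bijective conjQ := Finite.injective_iff_bijective.1 fun a b e =>
    Subtype.ext (mul_left_cancel (mul_right_cancel (congrArg Subtype.val e :)))
  have hw : wE h F (l ++ [k]) = wE h F l * s := Subtype.ext (by
    show nW h.cert F (l ++ [k]) = nW h.cert F l * nG h.cert (D.simple k) 1
    rw [nW_append, nW_cons, nW_nil, mul_one])
  -- the sum over `U` at `l` collapses along the fundamental root
  have hA : ∀ x : D.group F,
      cellSum h l f x = (Fintype.card F : ℂ) * ∑ a : Q, f (wE h F l * (a : D.group F) * x) := by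
    intro x
    rw [cellSum_eq, ← (Equiv.ofBijective m hm).sum_comp, Fintype.sum_prod_type]
    have : ∀ (c : F) (a : Q), f (wE h F l * ((m (c, a) : posU D F) : D.group F) * x) =
        f (wE h F l * (a : D.group F) * x) := by
      intro c a
      rw [show wE h F l * (xE h (D.simple k) c * (a : D.group F)) * x =
        wE h F l * xE h (D.simple k) c * (wE h F l)⁻¹ * (wE h F l * (a : D.group F) * x) by group]
      refine hf.left _ ?_ _
      show nW h.cert F l * xG h.cert (smp h.cert k) c * (nW h.cert F l)⁻¹ ∈ D.posUnipotent F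
      rw [hη.conj]
      exact xG_mem_rootsU (S := {r | D.IsPosRoot r}) h.cert hp _
    simp only [Equiv.ofBijective_apply, this, Finset.sum_const, Finset.card_univ, nsmul_eq_mul]
  rw [cellSum_eq, ← (Equiv.ofBijective m' hm').sum_comp, Fintype.sum_prod_type, Finset.sum_comm]
  unfold heckeOp
  rw [Finset.mul_sum]
  refine Finset.sum_congr rfl fun c _ => ?_
  rw [hA]
  congr 1
  refine Fintype.sum_equiv (Equiv.ofBijective conjQ hconjQ) _ _ fun a => ?_
  simp only [Equiv.ofBijective_apply, m', conjQ, hw]
  rw [← hs]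
  congr 1
  group

theorem cellSum_nil (h : Full D A) {f : D.group F → ℂ} (hf : Nice h M f) (g : D.group F) :
    cellSum h [] f g = (Nat.card (posU D F) : ℂ) * f g := by
  classical
  haveI := Fintype.ofFinite (posU D F)
  rw [cellSum_eq]
  have : ∀ u : posU D F, f (wE h F [] * (u : D.group F) * g) = f g := fun u => by
    rw [show wE h F [] = (1 : D.group F) from Subtype.ext rfl, one_mul, hf.left _ u.2]
  rw [Finset.sum_congr rfl fun u _ => this u, Finset.sum_const, Finset.card_univ, nsmul_eq_mul,
    Nat.card_eq_fintype_card]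

/-- Iterated operators along a good list. -/
theorem exists_iterate (h : Full D A) (hcard : MemLocalIdeal M (Fintype.card F : ℂ))
    (hU : Nat.card (posU D F) = Fintype.card F ^ (D.nroots / 2))
    {f : D.group F → ℂ} (hf : Nice h M f) {n₀ : D.group F}
    (hn₀ : (n₀ : GL D.Idx F) ∈ D.monomialSubgroup F) (htop : IsTop h n₀)
    {l : List (Fin D.rank)} (hl : GoodList h l) :
    ∃ K : D.group F → ℂ, Nice h M K ∧
      (∀ g, cellSum h l f g = (Fintype.card F : ℂ) ^ (D.nroots / 2 - l.length) * K g) ∧
      ∀ i ∈ l, ∀ c, CellInv h M n₀ K (hE h i c) := by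
  induction hl with
  | nil =>
    refine ⟨f, hf, fun g => ?_, by simp⟩
    rw [cellSum_nil h hf, hU, List.length_nil, Nat.sub_zero, Nat.cast_pow]
  | @snoc l k hl hp ih =>
    obtain ⟨K, hK, hKe, hKi⟩ := ih
    refine ⟨heckeOp h k K, nice_heckeOp h k hK hcard, fun g => ?_, fun i hi c => ?_⟩
    · have hlen := (hl.snoc k hp).length_le h
      simp only [List.length_append, List.length_singleton] at hlen ⊢
      have e := cellSum_snoc h hf k hp g
      have e2 : heckeOp h k (cellSum h l f) g =
          (Fintype.card F : ℂ) ^ (D.nroots / 2 - l.length) * heckeOp h k K g := by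
        unfold heckeOp
        rw [Finset.mul_sum]
        exact Finset.sum_congr rfl fun c _ => hKe _
      rw [e2, show D.nroots / 2 - l.length = D.nroots / 2 - (l.length + 1) + 1 by omega, pow_succ',
        mul_assoc] at e
      exact mul_left_cancel₀ (Nat.cast_ne_zero.2 Fintype.card_ne_zero) e
    · refine cellInv_heckeOp h k hK hn₀ htop (tHom_mem h _) ?_
      rcases List.mem_append.1 hi with hi | hi
      · exact Or.inr (hKi i hi c)
      · exact Or.inl ⟨c, by rw [List.mem_singleton.1 hi]⟩

end CfsgLib.ClassK.ChevCell
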