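import Cfsg.Agent.Lib.ClassK.ChevalleyTopRoot
import Cfsg.Agent.Lib.ClassK.ChevalleyCell

/-!
The centralizer of an element of a dominant root subgroup: it normalizes the product of the root
subgroups of high level, and a `p`-regular element of it centralizing that product is trivial.
-/

set_option autoImplicit false
set_option linter.style.haveILetI false
set_option linter.unusedSectionVars false

namespace CfsgLib.ClassK.TopRoot

open Cfsg.Lie CfsgLib.Chevalley

variable {D : ChevalleyDatum} {A : Aux} {F : Type*} [Field F]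

/-- Positive root elements without commutator terms commute. -/
theorem commute_xG (h : Full D A) {r t : ℕ} (hr : D.IsPosRoot r) (ht : D.IsPosRoot t)
    (hc : D.commTerms r t = []) (a b : F) : Commute (xG h.cert r a) (xG h.cert t b) := by
  by_cases hne : t = r
  · subst hne
    show _ = _
    rw [xG_mul, xG_mul, add_comm]
  obtain ⟨W, hW, e⟩ := conj_xG h.toStd hr.1 ht.1 hne (h.toStd.ne_neg hr ht) (T := (∅ : Set ℕ))
    (fun c hc' => by rw [hc] at hc'; exact absurd hc' List.not_mem_nil) a b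
  have hW1 : W = 1 := by
    rw [← Subgroup.mem_bot]
    exact (rootsU_le_iff h.cert (K := ⊥)).2 (fun r hr => absurd hr (Set.notMem_empty r)) hW
  rw [hW1, mul_one, mul_inv_eq_iff_eq_mul] at e
  exact e

theorem crd_ne_zero_of_neg (h : Full D A) {u : ℕ} (hu : D.IsNegRoot u) :
    ∃ j < D.rank, crd A j u < 0 := by
  by_contra hno
  push Not at hno
  have h1 := h.pos.phi_neg hu
  have : phi D A u = 0 := List.sum_eq_zero fun z hz => by
    obtain ⟨i, hi, rfl⟩ := List.mem_map.1 hz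
    rw [le_antisymm (h.crd_nonpos hu (List.mem_range.1 hi)) (hno i (List.mem_range.1 hi)), mul_zero]
  omega

theorem wPerm_reverse (h : Full D A) : ∀ (q : List (Fin D.rank)) (u : Fin D.nroots),
    wPerm h.cert q.reverse (wPerm h.cert q u) = u := by
  intro q
  induction q with
  | nil => intro u; rfl
  | cons i q ih =>
    intro u
    rw [List.reverse_cons, wPerm_append, wPerm_cons, wPerm_cons, wPerm_nil, mul_one]
    simp only [Equiv.Perm.mul_apply, rfPerm_apply, rf_rf]
    exact ih u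

theorem exists_word (h : Full D A) {n : GL D.Idx F} (hn : n ∈ D.monomialSubgroup F) :
    ∃ q η, Acts h.cert n (wPerm h.cert q) η := by
  obtain ⟨q, t, ht, rfl⟩ := (mem_monomial_iff h).1 hn
  rw [diagonalSubgroup_eq_range h] at ht
  obtain ⟨c, rfl⟩ := ht
  obtain ⟨η, hη⟩ := acts_nW (F := F) h q
  have := hη.mul (acts_torus h.cert c)
  rw [mul_one] at this
  exact ⟨q, _, this⟩

variable {s : Fin D.nroots} {l k : ℕ}

theorem pos_of_level (h : Full D A) (P : Props h s l k) {r : ℕ} (hr : r < D.nroots)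
    (hl : (k : ℤ) ≤ crd A l r) : D.IsPosRoot r :=
  h.isPos_of_crd_pos hr P.hl (by have := P.hk; omega)

/-- Words fixing the dominant root keep the coordinate `l`. -/
theorem crd_word (h : Full D A) (P : Props h s l k) : ∀ q : List (Fin D.rank),
    wPerm h.cert q s = s → ∀ r : Fin D.nroots, crd A l (wPerm h.cert q r) = crd A l r := by
  intro q
  induction hn : q.length using Nat.strong_induction_on generalizing q with
  | _ m ih =>
    intro hq r
    obtain ⟨η, hη⟩ := acts_nW (F := ℚ) h q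
    by_cases hp : ∀ i : Fin D.rank, D.IsPosRoot (wPerm h.cert q (smp h.cert i))
    · rw [(nW_mem_diagonal (F := ℚ) h q hp).2]
      rfl
    push Not at hp
    obtain ⟨i, hi⟩ := hp
    have hneg := (h.pos.pos_or_neg (wPerm h.cert q (smp h.cert i)).isLt).resolve_left hi
    have hil : (i : ℕ) ≠ l := by
      intro e
      obtain ⟨j, hj, hjn⟩ := crd_ne_zero_of_neg h hneg
      have e1 := hη.crd_comb h (r := s) (s := smp h.cert i) (q := rf h.cert i s)
        (a := 1) (b := -D.cartan i s) (fun a ha => by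
          rw [h.crd_rf i ha, show ((smp h.cert i : Fin D.nroots) : ℕ) = D.simple i from rfl,
            crd_simple h.cert ha i.isLt]
          rw [if_congr (show (i : ℕ) = a ↔ a = (i : ℕ) from eq_comm) rfl rfl]
          ring) hj
      rw [hq, one_mul] at e1
      have h2 := (P.orbit (q ++ [i])).2 j hj
      rw [wPerm_append, wPerm_cons, wPerm_nil, mul_one, Equiv.Perm.mul_apply, rfPerm_apply, e1] at h2
      have h3 : 0 < D.cartan i s := by rw [e]; exact P.cart
      nlinarith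
    obtain ⟨q', hlen, hperm, -⟩ := deletion (F := ℚ) h i q hneg
    have hfix : wPerm h.cert q' s = s := by
      rw [← hperm, Equiv.Perm.mul_apply, rfPerm_apply, P.fix_root i hil, hq]
    have e2 : wPerm h.cert q r = wPerm h.cert q' (rf h.cert i r) := by
      rw [← hperm, Equiv.Perm.mul_apply, rfPerm_apply, rf_rf]
    rw [e2, ih q'.length (by omega) q' rfl hfix, h.crd_rf i P.hl, if_neg hil, mul_zero, sub_zero]

theorem commute_of_conj {g a b : GL D.Idx F} (e : Commute a b) :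
    Commute (g * a * g⁻¹) (g * b * g⁻¹) := e.map (MulAut.conj g).toMonoidHom

/-- A root set split at one root commuting with the rest. -/
theorem exists_split_at (h : Full D A) {S : Set ℕ} {m : ℕ}
    (hc : ∀ r ∈ S, m + 1 ≤ r → ∀ a b : F, Commute (xG h.cert m a) (xG h.cert r b))
    {g : GL D.Idx F} (hg : g ∈ rootsU D F (S ∩ Set.Ici m)) :
    ∃ a : F, ∃ w ∈ rootsU D F (S ∩ Set.Ici (m + 1)), g = xG h.cert m a * w := by
  have hcw : ∀ b : F, ∀ w ∈ rootsU D F (S ∩ Set.Ici (m + 1)), Commute (xG h.cert m b) w := by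
    intro b w hw
    have := (rootsU_le_iff h.cert (K := Subgroup.centralizer {xG h.cert m b})).2
      (fun r hr a => Subgroup.mem_centralizer_singleton_iff.2 (hc r hr.1 hr.2 b a).symm) hw
    exact (Subgroup.mem_centralizer_singleton_iff.1 this).symm
  induction hg using rootsU_induction h.cert with
  | h1 => exact ⟨0, 1, Subgroup.one_mem _, by rw [xG_zero, one_mul]⟩
  | hx r hr t =>
    rcases eq_or_lt_of_le (show m ≤ r from hr.2) with e | hlt
    · subst e
      exact ⟨t, 1, Subgroup.one_mem _, by rw [mul_one]⟩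
    · exact ⟨0, _, xG_mem_rootsU h.cert (show r ∈ S ∩ Set.Ici (m + 1) from ⟨hr.1, hlt⟩) t,
        by rw [xG_zero, one_mul]⟩
  | hmul x y _ _ hx hy =>
    obtain ⟨a, v, hv, rfl⟩ := hx
    obtain ⟨b, w, hw, rfl⟩ := hy
    refine ⟨a + b, _, Subgroup.mul_mem _ hv hw, ?_⟩
    rw [← xG_mul, mul_assoc, ← mul_assoc v, ← (hcw b v hv).eq]
    group

/-- A monomial element sending a conjugate of `x_s(c)` into `U` above `s` fixes `s`. -/
theorem fix_of_conj (h : Full D A) (P : Props h s l k) {c : F} (hc : c ≠ 0)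
    {n u v : GL D.Idx F} {q : List (Fin D.rank)} {η : Fin D.nroots → F}
    (hA : Acts h.cert n (wPerm h.cert q) η) (hu : u ∈ D.posUnipotent F) (hv : v ∈ D.posUnipotent F)
    (e : n * (v * xG h.cert s c * v⁻¹) * n⁻¹ = u⁻¹ * xG h.cert s c * u) :
    wPerm h.cert q s = s := by
  have hS := h.toStd
  by_contra hne
  set T : Set ℕ := {r | D.IsPosRoot r} ∩ Set.Ici (s : ℕ) with hTdef
  set T1 : Set ℕ := {r | D.IsPosRoot r} ∩ Set.Ici ((s : ℕ) + 1) with hT1def
  have hT1T : rootsU D F T1 ≤ rootsU D F T :=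
    rootsU_mono fun r hr => ⟨hr.1, le_trans (Nat.le_succ (s : ℕ)) hr.2⟩
  have hx : xG h.cert (s : ℕ) c ∈ rootsU D F T :=
    xG_mem_rootsU h.cert (show (s : ℕ) ∈ T from ⟨P.pos, Set.mem_Ici.2 le_rfl⟩) c
  have hcm : ∀ g ∈ D.posUnipotent F,
      g * xG h.cert (s : ℕ) c * g⁻¹ * (xG h.cert (s : ℕ) c)⁻¹ ∈ rootsU D F T1 := fun g hg =>
    commutator_mem hS hS.isClosed_pos hg hx
  have he : v * xG h.cert (s : ℕ) c * v⁻¹ ∈ rootsU D F T := by
    have := Subgroup.mul_mem _ (hT1T (hcm v hv)) hx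
    rwa [inv_mul_cancel_right] at this
  have hW := hcm u⁻¹ (Subgroup.inv_mem _ hu)
  rw [inv_inv] at hW
  have hq : u⁻¹ * xG h.cert (s : ℕ) c * u ∈ rootsU D F T := by
    have := Subgroup.mul_mem _ (hT1T hW) hx
    rwa [inv_mul_cancel_right] at this
  -- split according to the signs of the images
  set L := D.posRoots.filter fun r => decide ((s : ℕ) ≤ r) with hLdef
  have hLset : {r | r ∈ L} = T := by
    ext r
    simp only [hLdef, List.mem_filter, decide_eq_true_eq, Set.mem_setOf_eq, hTdef, Set.mem_inter_iff,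
      Set.mem_Ici]
    rw [show r ∈ D.posRoots ↔ D.IsPosRoot r from Set.ext_iff.1 hS.posList.2.1 r]
  obtain ⟨a, ha, b, hb, hab⟩ := split_partition hS (L := L) (hS.posList.1.filter _)
    (hLset ▸ hS.isClosed_pos.inter_Ici hS _)
    (P := {r | ∀ d : Fin D.nroots, (d : ℕ) = r → D.IsPosRoot (wPerm h.cert q d)})
    (Q := {r | ∀ d : Fin D.nroots, (d : ℕ) = r → D.IsNegRoot (wPerm h.cert q d)})
    (fun r hr => by
      have hrT : r ∈ T := hLset ▸ hr
      rcases h.pos.pos_or_neg (wPerm h.cert q ⟨r, hrT.1.1⟩).isLt with hp | hn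
      · exact Or.inl fun d hd => (show d = ⟨r, hrT.1.1⟩ from Fin.ext hd) ▸ hp
      · exact Or.inr fun d hd => (show d = ⟨r, hrT.1.1⟩ from Fin.ext hd) ▸ hn)
    (g := v * xG h.cert (s : ℕ) c * v⁻¹) (by rw [hLset]; exact he)
  rw [hLset] at ha hb
  set S' : Set ℕ := {r' | ∃ d : Fin D.nroots, (d : ℕ) ∈ T ∧
    D.IsPosRoot (wPerm h.cert q d) ∧ ((wPerm h.cert q d : Fin D.nroots) : ℕ) = r'} with hS'def
  have hS'pos : ∀ r ∈ S', D.IsPosRoot r := by
    rintro _ ⟨d, -, hd, rfl⟩
    exact hd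
  have ha' : n * a * n⁻¹ ∈ rootsU D F S' :=
    hA.conj_rootsU (T := S') (fun d hd => ⟨d, hd.1, hd.2 d rfl, rfl⟩) a ha
  have hb' : n * b * n⁻¹ ∈ D.negUnipotent F :=
    hA.conj_rootsU (T := {r | D.IsNegRoot r}) (fun d hd => hd.2 d rfl) b hb
  have hb1 : n * b * n⁻¹ = 1 := by
    rw [← Subgroup.mem_bot, ← borel_inf_negUnipotent h]
    refine ⟨Subgroup.mem_sup_left ?_, hb'⟩
    rw [show n * b * n⁻¹ = (n * a * n⁻¹)⁻¹ * (n * (a * b) * n⁻¹) by group, ← hab, e]
    exact Subgroup.mul_mem _ (Subgroup.inv_mem _ (rootsU_mono hS'pos ha'))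
      (Subgroup.mul_mem _ (Subgroup.mul_mem _ (Subgroup.inv_mem _ hu)
        (xG_mem_rootsU (S := {r | D.IsPosRoot r}) h.cert P.pos c)) hu)
  have hqS : u⁻¹ * xG h.cert (s : ℕ) c * u ∈ rootsU D F S' := by
    rw [← e, hab, show n * (a * b) * n⁻¹ = (n * a * n⁻¹) * (n * b * n⁻¹) by group, hb1, mul_one]
    exact ha'
  have hsS : (s : ℕ) ∉ S' := by
    rintro ⟨d, hdT, -, hd⟩
    have hds : wPerm h.cert q d = s := Fin.ext hd
    have h1 := (P.orbit q.reverse).1
    rw [show wPerm h.cert q.reverse s = d by rw [← hds, wPerm_reverse h]] at h1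
    exact hne ((show d = s from Fin.ext (le_antisymm h1 hdT.2)) ▸ hds)
  have hcomm : ∀ r ∈ S', ∀ r' ∈ S', ∀ x y : F, Commute (xG h.cert r x) (xG h.cert r' y) := by
    rintro _ ⟨d, hd, -, rfl⟩ _ ⟨d', hd', -, rfl⟩ x y
    have h1 := commute_of_conj (g := n) (commute_xG h hd.1 hd'.1
      (P.commTail d d.isLt d' d'.isLt hd.2 hd'.2) ((η d)⁻¹ * x) ((η d')⁻¹ * y))
    rwa [hA.conj, hA.conj, mul_inv_cancel_left₀ (hA.ne_zero d),
      mul_inv_cancel_left₀ (hA.ne_zero d')] at h1
  have key : ∀ m ≤ (s : ℕ), u⁻¹ * xG h.cert (s : ℕ) c * u ∈ rootsU D F (S' ∩ Set.Ici m) := by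
    intro m
    induction m with
    | zero => exact fun _ => rootsU_mono (T := S' ∩ Set.Ici 0) (fun r hr => ⟨hr, Nat.zero_le r⟩) hqS
    | succ m ih =>
      intro hm
      have hm' := ih (Nat.le_of_succ_le hm)
      by_cases hmS : m ∈ S'
      · obtain ⟨t, w, hw, ew⟩ :=
          exists_split_at h (fun r hr _ => hcomm m hmS r hr) hm'
        suffices ht : t = 0 by
          subst ht
          rw [ew, xG_zero, one_mul]
          exact hw
        refine eq_zero_of_xG_mem hS (S := {r | D.IsPosRoot r} ∩ Set.Ici (m + 1)) (hS'pos m hmS)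
          (fun r hr => ⟨hr.1, hr.2⟩) ?_
        rw [show xG h.cert m t = u⁻¹ * xG h.cert (s : ℕ) c * u * w⁻¹ by rw [ew, mul_inv_cancel_right]]
        exact Subgroup.mul_mem _ (rootsU_mono (S := T)
          (T := {r | D.IsPosRoot r} ∩ Set.Ici (m + 1)) (fun r hr => ⟨hr.1, le_trans hm hr.2⟩) hq)
          (Subgroup.inv_mem _ (rootsU_mono (fun r hr => (⟨hS'pos r hr.1, hr.2⟩ :
            r ∈ {r | D.IsPosRoot r} ∩ Set.Ici (m + 1))) hw))
      · exact rootsU_mono (T := S' ∩ Set.Ici (m + 1)) (fun r hr => ⟨hr.1,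
          Nat.succ_le_of_lt (lt_of_le_of_ne hr.2 fun e' => hmS (e' ▸ hr.1))⟩) hm'
  have hq1 : u⁻¹ * xG h.cert (s : ℕ) c * u ∈ rootsU D F T1 :=
    rootsU_mono (fun r hr => (⟨hS'pos r hr.1,
      Nat.succ_le_of_lt (lt_of_le_of_ne hr.2 fun e' => hsS (e' ▸ hr.1))⟩ : r ∈ T1)) (key s le_rfl)
  refine hc (eq_zero_of_xG_mem hS (S := T1) P.pos (fun r hr => ⟨hr.1, hr.2⟩) ?_)
  rw [show xG h.cert (s : ℕ) c = (u⁻¹ * xG h.cert (s : ℕ) c * u * (xG h.cert (s : ℕ) c)⁻¹)⁻¹ *
    (u⁻¹ * xG h.cert (s : ℕ) c * u) by group]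
  exact Subgroup.mul_mem _ (Subgroup.inv_mem _ hW) hq1

/-- The roots of level at least `k`. -/
def levelSet (D : ChevalleyDatum) (A : Aux) (l k : ℕ) : Set ℕ :=
  {r | r < D.nroots ∧ (k : ℤ) ≤ crd A l r}

theorem levelSet_le (h : Full D A) (P : Props h s l k) :
    rootsU D F (levelSet D A l k) ≤ D.posUnipotent F :=
  rootsU_mono (T := {r | D.IsPosRoot r}) fun _ hr => pos_of_level h P hr.1 hr.2

/-- The positive unipotent subgroup normalizes the level group. -/
theorem pos_normalize (h : Full D A) (P : Props h s l k) {u : GL D.Idx F}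
    (hu : u ∈ D.posUnipotent F) :
    ∀ v ∈ rootsU D F (levelSet D A l k), u * v * u⁻¹ ∈ rootsU D F (levelSet D A l k) := by
  induction hu using rootsU_induction h.cert with
  | h1 => simp
  | hx r hr t =>
    refine rootsU_conj_le h.cert fun d hd b => ?_
    by_cases hne : d = r
    · subst hne
      rw [xG_inv, xG_mul, xG_mul]
      exact xG_mem_rootsU h.cert hd _
    have hdp := pos_of_level h P hd.1 hd.2
    obtain ⟨W, hW, e⟩ := conj_xG h.toStd hr.1 hd.1 hne (h.toStd.ne_neg hr hdp)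
      (T := levelSet D A l k) (fun c hc => by
        obtain ⟨hlt, i, j, hi, hj, hij⟩ := h.commTerms_crd hr.1 hd.1 hc
        refine ⟨hlt, ?_⟩
        rw [hij l P.hl]
        have h1 := h.crd_nonneg hr P.hl
        have h2 := hd.2
        have h3 : (0 : ℤ) ≤ (k : ℤ) := Int.natCast_nonneg k
        nlinarith) t b
    rw [e]
    exact Subgroup.mul_mem _ (xG_mem_rootsU h.cert hd b) hW
  | hmul a b _ _ ha hb =>
    intro v hv
    rw [show a * b * v * (a * b)⁻¹ = a * (b * v * b⁻¹) * a⁻¹ by group]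
    exact ha _ (hb v hv)

theorem commute_level (h : Full D A) (P : Props h s l k) (c : F) :
    rootsU D F (levelSet D A l k) ≤ Subgroup.centralizer {xG h.cert (s : ℕ) c} :=
  (rootsU_le_iff h.cert).2 fun r hr a => Subgroup.mem_centralizer_singleton_iff.2
    (commute_xG h P.pos (pos_of_level h P hr.1 hr.2) (P.comm r hr.1 hr.2) c a).symm

/-- The Bruhat form of an element of the centralizer. -/
theorem exists_form (h : Full D A) (P : Props h s l k) {c : F} (hc : c ≠ 0) {g : GL D.Idx F}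
    (hg : g ∈ D.group F) (hgx : g * xG h.cert (s : ℕ) c = xG h.cert (s : ℕ) c * g) :
    ∃ u ∈ D.posUnipotent F, ∃ n ∈ D.monomialSubgroup F, ∃ v ∈ D.posUnipotent F, ∃ q η,
      g = u * n * v ∧ Acts h.cert n (wPerm h.cert q) η ∧
      ∀ r : Fin D.nroots, crd A l (wPerm h.cert q r) = crd A l r := by
  obtain ⟨u, hu, n, hn, v, hv, rfl⟩ := exists_bnu h hg
  obtain ⟨q, η, hA⟩ := exists_word h hn
  refine ⟨u, hu, n, hn, v, hv, q, η, rfl, hA, crd_word h P q (fix_of_conj h P hc hA hu hv ?_)⟩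
  have : u * (n * (v * xG h.cert (s : ℕ) c * v⁻¹) * n⁻¹) * u⁻¹ = xG h.cert (s : ℕ) c := by
    rw [show u * (n * (v * xG h.cert (s : ℕ) c * v⁻¹) * n⁻¹) * u⁻¹ =
      u * n * v * xG h.cert (s : ℕ) c * (u * n * v)⁻¹ by group, hgx, mul_inv_cancel_right]
  calc n * (v * xG h.cert (s : ℕ) c * v⁻¹) * n⁻¹
      = u⁻¹ * (u * (n * (v * xG h.cert (s : ℕ) c * v⁻¹) * n⁻¹) * u⁻¹) * u := by group
    _ = _ := by rw [this]

/-- The centralizer normalizes the level group. -/
theorem centralizer_normalize (h : Full D A) (P : Props h s l k) {c : F} (hc : c ≠ 0)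
    {g : GL D.Idx F} (hg : g ∈ D.group F)
    (hgx : g * xG h.cert (s : ℕ) c = xG h.cert (s : ℕ) c * g) :
    ∀ w ∈ rootsU D F (levelSet D A l k), g * w * g⁻¹ ∈ rootsU D F (levelSet D A l k) := by
  obtain ⟨u, hu, n, hn, v, hv, q, η, rfl, hA, hlev⟩ := exists_form h P hc hg hgx
  intro w hw
  rw [show u * n * v * w * (u * n * v)⁻¹ = u * (n * (v * w * v⁻¹) * n⁻¹) * u⁻¹ by group]
  refine pos_normalize h P hu _ (hA.conj_rootsU (fun d hd => ?_) _ (pos_normalize h P hv _ hw))
  exact ⟨(wPerm h.cert q d).isLt, by rw [hlev]; exact hd.2⟩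

/-- An element centralizing the root element and the level group is unipotent. -/
theorem mem_posUnipotent_of_centralize (h : Full D A) (P : Props h s l k) {c : F} (hc : c ≠ 0)
    {g : GL D.Idx F} (hg : g ∈ D.group F)
    (hgx : g * xG h.cert (s : ℕ) c = xG h.cert (s : ℕ) c * g)
    (hgR : ∀ w ∈ rootsU D F (levelSet D A l k), w * g = g * w) : g ∈ D.posUnipotent F := by
  have hS := h.toStd
  obtain ⟨u, hu, n, hn, v, hv, q, η, rfl, hA, hlev⟩ := exists_form h P hc hg hgx
  have key : ∀ r : Fin D.nroots, (k : ℤ) ≤ crd A l r → wPerm h.cert q r = r ∧ η r = 1 := by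
    intro r hr
    have hrp := pos_of_level h P r.isLt hr
    have hrp' : D.IsPosRoot (wPerm h.cert q r) :=
      pos_of_level h P (wPerm h.cert q r).isLt (by rw [hlev]; exact hr)
    have hrL : xG h.cert (r : ℕ) (1 : F) ∈ rootsU D F (levelSet D A l k) :=
      xG_mem_rootsU h.cert (show (r : ℕ) ∈ levelSet D A l k from ⟨r.isLt, hr⟩) 1
    have h1 := hgR _ (pos_normalize h P (Subgroup.inv_mem _ hv) _ hrL)
    rw [inv_inv] at h1
    have hn1 : n * xG h.cert (r : ℕ) (1 : F) * n⁻¹ =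
        (u⁻¹ * v⁻¹) * xG h.cert (r : ℕ) 1 * (u⁻¹ * v⁻¹)⁻¹ := by
      calc n * xG h.cert (r : ℕ) (1 : F) * n⁻¹
          = u⁻¹ * (u * n * v * (v⁻¹ * xG h.cert (r : ℕ) 1 * v)) * (u * n * v)⁻¹ * u := by group
        _ = u⁻¹ * ((v⁻¹ * xG h.cert (r : ℕ) 1 * v) * (u * n * v)) * (u * n * v)⁻¹ * u := by rw [h1]
        _ = _ := by group
    rw [hA.conj, mul_one] at hn1
    have hW := commutator_mem hS hS.isClosed_pos
      (Subgroup.mul_mem _ (Subgroup.inv_mem _ hu) (Subgroup.inv_mem _ hv))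
      (xG_mem_rootsU h.cert (show (r : ℕ) ∈ {r | D.IsPosRoot r} ∩ Set.Ici (r : ℕ) from ⟨hrp, Set.mem_Ici.2 le_rfl⟩)
        (1 : F))
    rw [← hn1] at hW
    set W := xG h.cert (wPerm h.cert q r : ℕ) (η r) * (xG h.cert (r : ℕ) (1 : F))⁻¹
    rcases lt_trichotomy ((wPerm h.cert q r : Fin D.nroots) : ℕ) r with hlt | heq | hgt
    · refine absurd (eq_zero_of_xG_mem hS
        (S := {r | D.IsPosRoot r} ∩ Set.Ici (((wPerm h.cert q r : Fin D.nroots) : ℕ) + 1)) hrp'
        (fun d hd => ⟨hd.1, hd.2⟩) ?_) (hA.ne_zero r)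
      rw [show xG h.cert (wPerm h.cert q r : ℕ) (η r) = W * xG h.cert (r : ℕ) 1 from
        (inv_mul_cancel_right _ _).symm]
      exact Subgroup.mul_mem _ (rootsU_mono (S := {r | D.IsPosRoot r} ∩ Set.Ici ((r : ℕ) + 1))
        (T := {r | D.IsPosRoot r} ∩ Set.Ici (((wPerm h.cert q r : Fin D.nroots) : ℕ) + 1))
        (fun d hd => ⟨hd.1, le_trans (Nat.succ_le_succ hlt.le) hd.2⟩) hW)
        (xG_mem_rootsU h.cert (show (r : ℕ) ∈ {r | D.IsPosRoot r} ∩
          Set.Ici (((wPerm h.cert q r : Fin D.nroots) : ℕ) + 1) from ⟨hrp, hlt⟩) 1)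
    · refine ⟨Fin.ext heq, ?_⟩
      have : xG h.cert (r : ℕ) (η r + -1) ∈
          rootsU D F ({r | D.IsPosRoot r} ∩ Set.Ici ((r : ℕ) + 1)) := by
        rw [← xG_mul, ← xG_inv]
        simpa [W, heq] using hW
      exact eq_of_sub_eq_zero (by
        rw [sub_eq_add_neg]
        exact eq_zero_of_xG_mem hS hrp (fun d hd => ⟨hd.1, hd.2⟩) this)
    · refine absurd (eq_zero_of_xG_mem hS (S := {r | D.IsPosRoot r} ∩ Set.Ici ((r : ℕ) + 1)) hrp
        (fun d hd => ⟨hd.1, hd.2⟩) ?_) (one_ne_zero (α := F))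
      rw [show xG h.cert (r : ℕ) (1 : F) = W⁻¹ * xG h.cert (wPerm h.cert q r : ℕ) (η r) by
        simp [W]]
      exact Subgroup.mul_mem _ (Subgroup.inv_mem _ hW)
        (xG_mem_rootsU h.cert (show ((wPerm h.cert q r : Fin D.nroots) : ℕ) ∈
          {r | D.IsPosRoot r} ∩ Set.Ici ((r : ℕ) + 1) from ⟨hrp', hgt⟩) _)
  -- the permutation keeps the fundamental roots positive
  have hpos : ∀ i : Fin D.rank, D.IsPosRoot (wPerm h.cert q (smp h.cert i)) := by
    intro i
    obtain ⟨r, hr, r', hr', hk, hk', e⟩ := P.span i i.isLt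
    have e1 := hA.crd_comb h (q := smp h.cert i) (r := ⟨r', hr'⟩) (s := ⟨r, hr⟩) (a := 1) (b := -1)
      (fun j hj => by
        rw [show ((smp h.cert i : Fin D.nroots) : ℕ) = D.simple i from rfl,
          crd_simple h.cert hj i.isLt, e j hj]
        by_cases hji : j = (i : ℕ)
        · subst hji; simp
        · simp [hji, Ne.symm hji]) i.isLt
    rw [(key ⟨r', hr'⟩ hk').1, (key ⟨r, hr⟩ hk).1] at e1
    refine h.isPos_of_crd_pos (wPerm h.cert q (smp h.cert i)).isLt i.isLt ?_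
    rw [e1, show ((⟨r', hr'⟩ : Fin D.nroots) : ℕ) = r' from rfl, e i i.isLt]
    simp
  have hnT := mem_diagonal_of_perm h hn hA hpos
  rw [diagonalSubgroup_eq_range h] at hnT
  obtain ⟨a, rfl⟩ := hnT
  have hT := acts_torus (F := F) h.cert a
  have hchi : ∀ r : Fin D.nroots, (k : ℤ) ≤ crd A l r → chi D r a = 1 := by
    intro r hr
    obtain ⟨hfix, hη⟩ := key r hr
    have h1 := hA.col (Sum.inr r) r
    rw [hT.col, Equiv.Perm.one_apply, if_pos rfl, hfix, if_pos rfl, hη] at h1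
    exact Units.ext h1
  have hsimple : ∀ i : Fin D.rank, chi D (D.simple i) a = 1 := by
    intro i
    obtain ⟨r, hr, r', hr', hk, hk', e⟩ := P.span i i.isLt
    have hcart : ∀ j : Fin D.rank, D.cartan j r' = D.cartan j r + D.cartan j (D.simple i) := by
      intro j
      have a1 := cartan_eq_sum h j ⟨r', hr'⟩
      have a2 := cartan_eq_sum h j ⟨r, hr⟩
      simp only at a1 a2
      rw [a1, a2]
      simp only [e _ (Fin.isLt _), add_mul, Finset.sum_add_distrib, ite_mul, one_mul, zero_mul,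
        Fin.val_inj, Finset.sum_ite_eq, Finset.mem_univ, if_true]
    have h1 : chi D r' a = chi D r a * chi D (D.simple i) a := by
      show ∏ j : Fin D.rank, a j ^ D.cartan j r' = (∏ j : Fin D.rank, a j ^ D.cartan j r) *
        ∏ j : Fin D.rank, a j ^ D.cartan j (D.simple i)
      rw [← Finset.prod_mul_distrib]
      exact Finset.prod_congr rfl fun j _ => by rw [hcart, _root_.zpow_add]
    have := hchi ⟨r', hr'⟩ hk'
    rw [show ((⟨r', hr'⟩ : Fin D.nroots) : ℕ) = r' from rfl, h1,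
      show chi D r a = 1 from hchi ⟨r, hr⟩ hk, one_mul] at this
    exact this
  have hall : ∀ r : Fin D.nroots, chi D r a = 1 := by
    refine fun r => h.root_induction (P := fun r => chi D r a = 1) hsimple (fun i r ih => ?_) r
    show ∏ j : Fin D.rank, a j ^ D.cartan j (D.reflectRoot i r) = 1
    have h2 : ∀ j : Fin D.rank, a j ^ D.cartan j (D.reflectRoot i r) =
        a j ^ D.cartan j r * (a j ^ D.cartan j (D.simple i)) ^ (-D.cartan i r) := by
      intro j
      rw [((refl_spec h.cert i.isLt r.isLt).2.2.2.2.2.2.2 j j.isLt).1, ← _root_.zpow_mul,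
        ← _root_.zpow_add]
      congr 1
      ring
    rw [Finset.prod_congr rfl fun j _ => h2 j, Finset.prod_mul_distrib, Finset.prod_zpow]
    show chi D r a * chi D (D.simple i) a ^ (-D.cartan i r) = 1
    rw [ih, hsimple, _root_.one_zpow, mul_one]
  have h1 : torusHom D F a = 1 := by
    refine Units.ext ?_
    rw [coe_torusHom, Units.val_one, ← Matrix.diagonal_one]
    congr 1
    funext b
    rcases b with j | r
    · rfl
    · simp [hall r]
  rw [h1, mul_one]
  exact Subgroup.mul_mem _ hu hv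

/-- Every element of a positive root subgroup is conjugate into a dominant one. -/
theorem exists_conj_top (h : Full D A) {tops : List ℕ} (hB : climbB D tops = true) :
    ∀ r : Fin D.nroots, D.IsPosRoot r → ∀ t : F, t ≠ 0 →
      ∃ g ∈ D.group F, ∃ s : Fin D.nroots, (s : ℕ) ∈ tops ∧ ∃ c : F, c ≠ 0 ∧
        g * xG h.cert r t * g⁻¹ = xG h.cert s c := by
  intro r
  induction hm : D.nroots - (r : ℕ) using Nat.strong_induction_on generalizing r with
  | _ m ih =>
    intro hr t ht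
    by_cases hrt : (r : ℕ) ∈ tops
    · exact ⟨1, Subgroup.one_mem _, r, hrt, t, ht, by simp⟩
    obtain ⟨i, hlt, hpos⟩ := climb_of_climbB h hB hr hrt
    have hS := acts_nG_simple (F := F) h i one_ne_zero
    have e := hS.conj r t
    obtain ⟨g, hg, s, hs, c, hc, hgc⟩ :=
      ih (D.nroots - (rf h.cert i r : ℕ)) (by have := (rf h.cert i r).isLt; omega)
        (rf h.cert i r) rfl hpos _ (mul_ne_zero (hS.ne_zero r) ht)
    refine ⟨g * nG h.cert (D.simple i) 1, Subgroup.mul_mem _ hg (nG_mem_group h.cert _ _), s, hs, c,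
      hc, ?_⟩
    rw [← hgc, ← rfPerm_apply, ← e]
    group

end CfsgLib.ClassK.TopRoot
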