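import Cfsg.Agent.Lib.Chevalley.ExtraData
import Cfsg.Agent.Lib.Chevalley.Weyl

/-!
Certificates for a dominant root `s`: the roots above it, its stabilizer among the words in the
fundamental reflections, and the roots of level at least `k` in the coordinate `l`.
-/

set_option autoImplicit false
set_option linter.unusedSectionVars false

namespace CfsgLib.ClassK.TopRoot

open Cfsg.Lie CfsgLib.Chevalley Sparse

/-- The roots whose coordinate `l` is at least `k`. -/
noncomputable def levelList (D : ChevalleyDatum) (A : Aux) (l k : ℕ) : List ℕ :=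
  (List.range D.nroots).filter fun r => decide ((k : ℤ) ≤ crd A l r)

/-- The roots from `s` on. -/
def tailList (D : ChevalleyDatum) (s : ℕ) : List ℕ :=
  (List.range D.nroots).filter fun r => Nat.ble s r

/-- The check at a dominant root. -/
noncomputable def topB (D : ChevalleyDatum) (A : Aux) (O : ℕ → Bool) (s l k : ℕ) : Bool :=
  (Nat.ble (D.nroots / 2) s && Nat.blt s D.nroots) && Nat.blt l D.rank && Nat.blt 0 k &&
  decide ((k : ℤ) ≤ crd A l s) && O s &&
  lall (fun r => (D.commTerms s r).isEmpty) (levelList D A l k) &&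
  lall (fun r => lall (fun t => (D.commTerms r t).isEmpty) (tailList D s)) (tailList D s) &&
  lall (fun i => (i == l) || (D.reflectRoot i s == s)) (List.range D.rank) &&
  decide (0 < D.cartan l s) &&
  lall (fun i => (levelList D A l k).any fun r => (levelList D A l k).any fun r' =>
    lall (fun j => crd A j r' == crd A j r + (if i = j then 1 else 0)) (List.range D.rank))
      (List.range D.rank) &&
  lall (fun u => !O u || lall (fun i => O (D.reflectRoot i u)) (List.range D.rank))
    (List.range D.nroots) &&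
  lall (fun u => !O u || (Nat.ble u s &&
    lall (fun j => decide (crd A j u ≤ crd A j s)) (List.range D.rank))) (List.range D.nroots)

/-- The properties of a dominant root. -/
structure Props {D : ChevalleyDatum} {A : Aux} (h : Full D A) (s : Fin D.nroots) (l k : ℕ) :
    Prop where
  /-- it is positive -/
  pos : D.IsPosRoot s
  /-- the coordinate exists -/
  hl : l < D.rank
  /-- the level is positive -/
  hk : 1 ≤ k
  /-- it belongs to its level set -/
  level : (k : ℤ) ≤ crd A l s
  /-- it commutes with the level set -/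
  comm : ∀ r < D.nroots, (k : ℤ) ≤ crd A l r → D.commTerms s r = []
  /-- the roots from it on commute -/
  commTail : ∀ r < D.nroots, ∀ t < D.nroots, (s : ℕ) ≤ r → (s : ℕ) ≤ t → D.commTerms r t = []
  /-- the other fundamental reflections fix it -/
  fix_root : ∀ i : Fin D.rank, (i : ℕ) ≠ l → rf h.cert i s = s
  /-- it pairs positively with the fundamental root `l` -/
  cart : 0 < D.cartan l s
  /-- the level set spans the lattice -/
  span : ∀ i < D.rank, ∃ r < D.nroots, ∃ r' < D.nroots, (k : ℤ) ≤ crd A l r ∧ (k : ℤ) ≤ crd A l r' ∧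
    ∀ j < D.rank, crd A j r' = crd A j r + (if i = j then 1 else 0)
  /-- it dominates its orbit -/
  orbit : ∀ q : List (Fin D.rank), ((wPerm h.cert q s : Fin D.nroots) : ℕ) ≤ s ∧
    ∀ j < D.rank, crd A j (wPerm h.cert q s) ≤ crd A j s

theorem props_of_topB {D : ChevalleyDatum} {A : Aux} (h : Full D A) {O : ℕ → Bool} {s l k : ℕ}
    (hB : topB D A O s l k = true) : ∃ hs : s < D.nroots, Props h ⟨s, hs⟩ l k := by
  simp only [topB, levelList, tailList, Bool.and_eq_true, Bool.or_eq_true, lall_eq, List.all_eq_true,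
    List.any_eq_true, List.mem_filter, List.mem_range, decide_eq_true_eq, List.isEmpty_iff,
    beq_iff_eq, Bool.not_eq_true', Nat.blt_eq, Nat.ble_eq, and_imp] at hB
  obtain ⟨⟨⟨⟨⟨⟨⟨⟨⟨⟨⟨⟨hs1, hs2⟩, hl⟩, hk⟩, hlev⟩, hOs⟩, hcomm⟩, htail⟩, hfix⟩, hcart⟩, hspan⟩, hclo⟩,
    hdom⟩ := hB
  refine ⟨hs2, h.pos.isPos_iff.2 ⟨hs1, hs2⟩, hl, hk, hlev, fun r hr hr' => hcomm r hr hr',
    fun r hr t ht h1 h2 => htail r hr h1 t ht h2, fun i hi => ?_, hcart, fun i hi => ?_, fun q => ?_⟩
  · exact Fin.ext ((hfix i i.isLt).resolve_left hi)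
  · obtain ⟨r, ⟨hr, hr1⟩, r', ⟨hr', hr'1⟩, e⟩ := hspan i hi
    exact ⟨r, hr, r', hr', hr1, hr'1, e⟩
  · have hO : O (wPerm h.cert q ⟨s, hs2⟩ : Fin D.nroots) = true := by
      induction q with
      | nil => simpa using hOs
      | cons i q ih =>
        rw [wPerm_cons, Equiv.Perm.mul_apply, rfPerm_apply]
        refine ((hclo _ (wPerm h.cert q ⟨s, hs2⟩).isLt).resolve_left ?_) i i.isLt
        rw [ih]
        exact Bool.noConfusion
    exact (hdom _ (wPerm h.cert q ⟨s, hs2⟩).isLt).resolve_left (by rw [hO]; exact Bool.noConfusion)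

/-- The check that every positive root climbs to one of the given ones. -/
noncomputable def climbB (D : ChevalleyDatum) (tops : List ℕ) : Bool :=
  lall (fun r => Nat.blt r (D.nroots / 2) || tops.elem r ||
    (List.range D.rank).any fun i => Nat.blt r (D.reflectRoot i r)) (List.range D.nroots)

theorem climb_of_climbB {D : ChevalleyDatum} {A : Aux} (h : Full D A) {tops : List ℕ}
    (hB : climbB D tops = true) {r : Fin D.nroots} (hr : D.IsPosRoot r) (hne : (r : ℕ) ∉ tops) :
    ∃ i : Fin D.rank, (r : ℕ) < rf h.cert i r ∧ D.IsPosRoot (rf h.cert i r) := by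
  simp only [climbB, lall_eq, List.all_eq_true, List.mem_range, Bool.or_eq_true, List.any_eq_true,
    Nat.blt_eq, List.elem_iff] at hB
  have h1 := (h.pos.isPos_iff.1 hr).1
  rcases hB r r.isLt with (h2 | h2) | ⟨i, hi, h2⟩
  · omega
  · exact absurd h2 hne
  · exact ⟨⟨i, hi⟩, h2, h.pos.isPos_iff.2 ⟨le_of_lt (lt_of_le_of_lt h1 h2), (rf h.cert ⟨i, hi⟩ r).isLt⟩⟩

/-- The roots conjugate to the highest short root of `G₂`. -/
def orbG2 (u : ℕ) : Bool := [2, 3, 4, 7, 8, 9].elem u

/-- The roots conjugate to the highest short root of `F₄`. -/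
def orbF4 (u : ℕ) : Bool :=
  [3, 7, 8, 9, 10, 11, 12, 13, 14, 18, 19, 20, 27, 28, 29, 33, 34, 35, 36, 37, 38, 39, 40, 44].elem u

set_option maxRecDepth 100000

theorem topG2short : topB chevG2 auxG2 orbG2 9 0 2 = true := by decide +kernel

theorem topG2long : topB chevG2 auxG2 (fun _ => true) 11 1 1 = true := by decide +kernel

theorem climbG2 : climbB chevG2 [9, 11] = true := by decide +kernel

theorem topF4short : topB chevF4 auxF4 orbF4 44 0 1 = true := by decide +kernel

theorem topF4long : topB chevF4 auxF4 (fun _ => true) 47 3 1 = true := by decide +kernel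

theorem climbF4 : climbB chevF4 [44, 47] = true := by decide +kernel

theorem topE8 : topB chevE8 auxE8 (fun _ => true) 239 7 1 = true := by decide +kernel

theorem climbE8 : climbB chevE8 [239] = true := by decide +kernel

/-- Every positive root climbs to a dominant root with all the properties. -/
def HasTops {D : ChevalleyDatum} {A : Aux} (h : Full D A) : Prop :=
  ∃ tops : List ℕ, climbB D tops = true ∧
    ∀ r : Fin D.nroots, (r : ℕ) ∈ tops → ∃ l k, Props h r l k

theorem exists_tops {D : ChevalleyDatum} (hD : D ∈ [chevG2, chevF4, chevE8]) :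
    ∃ A, ∃ h : Full D A, HasTops h := by
  simp only [List.mem_cons, List.not_mem_nil, or_false] at hD
  rcases hD with rfl | rfl | rfl
  · refine ⟨auxG2, ⟨⟨cert_G2, posG2, by simp⟩, extraG2⟩, [9, 11], climbG2, fun r hr => ?_⟩
    simp only [List.mem_cons, List.not_mem_nil, or_false] at hr
    rcases hr with e | e
    · obtain ⟨hs, hP⟩ := props_of_topB ⟨⟨cert_G2, posG2, by simp⟩, extraG2⟩ topG2short
      exact ⟨0, 2, (show r = ⟨9, hs⟩ from Fin.ext e) ▸ hP⟩
    · obtain ⟨hs, hP⟩ := props_of_topB ⟨⟨cert_G2, posG2, by simp⟩, extraG2⟩ topG2long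
      exact ⟨1, 1, (show r = ⟨11, hs⟩ from Fin.ext e) ▸ hP⟩
  · refine ⟨auxF4, ⟨⟨cert_F4, posF4, by simp⟩, extraF4⟩, [44, 47], climbF4, fun r hr => ?_⟩
    simp only [List.mem_cons, List.not_mem_nil, or_false] at hr
    rcases hr with e | e
    · obtain ⟨hs, hP⟩ := props_of_topB ⟨⟨cert_F4, posF4, by simp⟩, extraF4⟩ topF4short
      exact ⟨0, 1, (show r = ⟨44, hs⟩ from Fin.ext e) ▸ hP⟩
    · obtain ⟨hs, hP⟩ := props_of_topB ⟨⟨cert_F4, posF4, by simp⟩, extraF4⟩ topF4long
      exact ⟨3, 1, (show r = ⟨47, hs⟩ from Fin.ext e) ▸ hP⟩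
  · refine ⟨auxE8, ⟨⟨cert_E8, posE8, by simp⟩, extraE8⟩, [239], climbE8, fun r hr => ?_⟩
    simp only [List.mem_cons, List.not_mem_nil, or_false] at hr
    obtain ⟨hs, hP⟩ := props_of_topB ⟨⟨cert_E8, posE8, by simp⟩, extraE8⟩ topE8
    exact ⟨7, 1, (show r = ⟨239, hs⟩ from Fin.ext hr) ▸ hP⟩

end CfsgLib.ClassK.TopRoot
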