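import Cfsg.Agent.Lib.Jordan.SingleBlock
import Cfsg.Agent.Lib.Blocks.DefectZero

/-!
A block whose defect class centralizes a `p`-element with a single block in its centralizer is the
principal block; a count of two blocks.
-/

set_option autoImplicit false
set_option linter.style.haveILetI false
set_option linter.unusedSectionVars false

open Cfsg CfsgLib.CharTheory CfsgLib.Blocks

namespace CfsgLib.ClassK.TwoBlocks

variable {G : Type*} [Group G] [Finite G] {p : ℕ} [Fact p.Prime] {M : Ideal AlgInt} [M.IsPrime]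

/-- The centralizer of `x` has a normal `p`-subgroup centralized by no nontrivial `p`-regular
element of it. -/
def HasConstrainedCentralizer (p : ℕ) (x : G) : Prop :=
  ∃ R : Subgroup G, R ≤ Subgroup.centralizer ({x} : Set G) ∧
    Subgroup.centralizer ({x} : Set G) ≤ Subgroup.normalizer (R : Set G) ∧ IsPGroup p R ∧
    ∀ g ∈ Subgroup.centralizer ({x} : Set G), ¬ p ∣ orderOf g → (∀ r ∈ R, r * g = g * r) → g = 1

theorem not_dvd_index_centralizer_principal (hM : IsPModular p M) {g₀ : G}
    (hg₀ : IsDefectClass M (blockOf M ((trivIrr G : IrrCharacter G) : G → ℂ)) g₀) :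
    ¬ p ∣ (Subgroup.centralizer ({g₀} : Set G)).index := by
  intro h
  have h1 := factorization_index_le_of_centralChar_unit hM
    (hg₀.2.2 _ (mem_blockOf_self (M := M) (trivIrr G)))
  have hd : charDegree ((trivIrr G : IrrCharacter G) : G → ℂ) = 1 := by
    rw [charDegree, trivIrr_apply]
    simp
  rw [hd, Nat.factorization_one, Finsupp.zero_apply] at h1
  have := (Fact.out : p.Prime).factorization_pos_of_dvd Subgroup.index_ne_zero_of_finite h
  omega

/-- A defect class of the principal block commutes with a conjugate of every `p`-element. -/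
theorem exists_conj_commute (hM : IsPModular p M) {g₀ x : G}
    (hg₀ : IsDefectClass M (blockOf M ((trivIrr G : IrrCharacter G) : G → ℂ)) g₀)
    (hx : IsPGroup p (Subgroup.zpowers x)) :
    ∃ c : G, c * g₀ * c⁻¹ ∈ Subgroup.centralizer ({x} : Set G) := by
  have hfull := not_dvd_index_centralizer_principal hM hg₀
  obtain ⟨S⟩ := (inferInstance : Nonempty (Sylow p (Subgroup.centralizer ({g₀} : Set G))))
  have hcard : Nat.card ((S : Subgroup (Subgroup.centralizer ({g₀} : Set G))).map
      (Subgroup.centralizer ({g₀} : Set G)).subtype) = p ^ (Nat.card G).factorization p := by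
    rw [card_sylow_map, factorization_card_eq (p := p) g₀,
      Nat.factorization_eq_zero_of_not_dvd hfull, add_zero]
  obtain ⟨T, hT⟩ := hx.exists_le_sylow
  obtain ⟨c, hc⟩ := MulAction.exists_smul_eq G (Sylow.ofCard _ hcard) T
  refine ⟨c, ?_⟩
  have hxT : x ∈ ((c • Sylow.ofCard _ hcard : Sylow p G) : Subgroup G) :=
    hc.symm ▸ hT (Subgroup.mem_zpowers x)
  rw [Sylow.coe_subgroup_smul, Subgroup.mem_pointwise_smul_iff_inv_smul_mem,
    ← map_inv, MulAut.smul_def, MulAut.conj_apply, inv_inv] at hxT
  obtain ⟨s, -, hs⟩ := hxT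
  have h1 := Subgroup.mem_centralizer_singleton_iff.1 s.2
  rw [Subgroup.mem_centralizer_singleton_iff]
  change (s : G) = c⁻¹ * x * c at hs
  rw [hs] at h1
  calc c * g₀ * c⁻¹ * x = c * (g₀ * (c⁻¹ * x * c)) * c⁻¹ := by group
    _ = c * ((c⁻¹ * x * c) * g₀) * c⁻¹ := by rw [← h1]
    _ = x * (c * g₀ * c⁻¹) := by group

/-- A block with a defect class centralizing a constrained `p`-element is principal. -/
theorem eq_principal_of_centralized (hM : IsPModular p M) {B : Set (IrrCharacter G)}
    (hB : IsPBlock M B) {g x : G} (hg : IsDefectClass M B g)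
    (hgx : g ∈ Subgroup.centralizer ({x} : Set G)) (hx : IsPGroup p (Subgroup.zpowers x))
    (hcon : HasConstrainedCentralizer p x) :
    B = blockOf M ((trivIrr G : IrrCharacter G) : G → ℂ) := by
  classical
  haveI := charP_res hM
  set B0 := blockOf M ((trivIrr G : IrrCharacter G) : G → ℂ)
  have hB0 : IsPBlock M B0 := isPBlock_blockOf _
  by_contra hne
  have hdis : Disjoint B B0 := disjoint_of_isPBlock_ne hB hB0 hne
  have hmul : idemRes M B (memLocalRing_blockCoeff hB) *
      idemRes M B0 (memLocalRing_blockCoeff hB0) = 0 := by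
    rw [idemRes, idemRes, ← map_mul, ← map_zero (classMap (red M))]
    congr 1
    refine classAlgLoc_ext fun η => ?_
    rw [map_mul, map_zero]
    by_cases hη : η ∈ B
    · rw [omegaLoc_idemLoc_of_notMem _ (Set.disjoint_left.1 hdis hη), mul_zero]
    · rw [omegaLoc_idemLoc_of_notMem _ hη, zero_mul]
  obtain ⟨g₀, hg₀⟩ := exists_isDefectClass hM hB0
  obtain ⟨c, hc⟩ := exists_conj_commute hM hg₀ hx
  set P := Subgroup.zpowers x with hPdef
  set H := Subgroup.centralizer ({x} : Set G) with hHdef
  have hPC : Subgroup.centralizer (P : Set G) = H := by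
    ext y
    rw [hHdef, Subgroup.mem_centralizer_singleton_iff, Subgroup.mem_centralizer_iff]
    refine ⟨fun h => (h x (Subgroup.mem_zpowers x)).symm, fun h z hz => ?_⟩
    obtain ⟨i, rfl⟩ := Subgroup.mem_zpowers_iff.1 hz
    exact (show Commute x y from h.symm).zpow_left i
  have hCH : Subgroup.centralizer (P : Set G) ≤ H := hPC.le
  have hHN : H ≤ Subgroup.normalizer (P : Set G) :=
    hPC.ge.trans (centralizer_le_normalizer_coe P)
  obtain ⟨R, hRle, hRn, hRp, hRC⟩ := hcon
  haveI : (R.subgroupOf H).Normal := Subgroup.normal_subgroupOf_of_le_normalizer hRn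
  have hone : ∀ η η' : IrrCharacter H, SameBlock M (η : H → ℂ) (η' : H → ℂ) := by
    refine Jordan.sameBlock_of_centralizer_normal hM (R.subgroupOf H)
      (hRp.of_equiv (Subgroup.subgroupOfEquivOfLe hRle).symm) fun y hy hr => ?_
    refine Subtype.ext (hRC y y.2 (by rwa [Subgroup.orderOf_coe]) fun r hr' => ?_)
    exact congrArg Subtype.val (hr ⟨r, hRle hr'⟩ hr')
  have hne1 := truncHom_idemRes_ne_zero hB hx hCH hHN hg.2.1 (hPC.ge hgx)
  have hne2 := truncHom_idemRes_ne_zero hB0 hx hCH hHN
    (show ¬ MemLocalIdeal M (blockCoeff B0 (c * g₀ * c⁻¹)) by rw [blockCoeff_conj]; exact hg₀.2.1)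
    (hPC.ge hc)
  have e1 := Jordan.eq_one_of_idem hone (by rw [← map_mul, idemRes_mul_self]) hne1
  have e2 := Jordan.eq_one_of_idem hone (by rw [← map_mul, idemRes_mul_self]) hne2
  have := congrArg (truncHom hx hCH hHN) hmul
  rw [map_mul, map_zero, e1, e2, mul_one] at this
  exact hne1 (e1.trans this)

/-- Two blocks: one of defect zero and the principal one. -/
theorem card_blocks_eq_two (hM : IsPModular p M) (hp : p ∣ Nat.card G) (St : IrrCharacter G)
    (hSt : ¬ p ∣ Nat.card G / charDegree (St : G → ℂ))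
    (huniq : ∀ χ : IrrCharacter G, ¬ p ∣ Nat.card G / charDegree (χ : G → ℂ) → χ = St)
    (hwit : ∀ B : Set (IrrCharacter G), IsPBlock M B → ∀ D : Subgroup G,
      IsDefectGroup p M B D → D ≠ ⊥ → ∃ x ∈ D, HasConstrainedCentralizer p x) :
    Nat.card {B : Set (IrrCharacter G) // IsPBlock M B} = 2 := by
  classical
  set B0 := blockOf M ((trivIrr G : IrrCharacter G) : G → ℂ)
  have hcase : ∀ B : Set (IrrCharacter G), IsPBlock M B → B = {St} ∨ B = B0 := by
    intro B hB
    obtain ⟨χ, hχ⟩ := isPBlock_nonempty hB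
    by_cases hfull : ¬ p ∣ Nat.card G / charDegree (χ : G → ℂ)
    · left
      rw [eq_blockOf_of_mem hB hχ, blockOf_eq_singleton_of_full hM χ hfull, huniq χ hfull]
    right
    rw [not_not] at hfull
    obtain ⟨g, hg⟩ := exists_isDefectClass hM hB
    obtain ⟨S⟩ := (inferInstance : Nonempty (Sylow p (Subgroup.centralizer ({g} : Set G))))
    have hD := isDefectGroup_sylow_map hg S
    have hne : (S : Subgroup (Subgroup.centralizer ({g} : Set G))).map
        (Subgroup.centralizer ({g} : Set G)).subtype ≠ ⊥ := by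
      intro e
      have h0 : blockDefect p B = 0 := by
        have := card_isDefectGroup hM hB hD
        rw [e, Subgroup.card_bot] at this
        exact ((Nat.pow_eq_one.1 this.symm).resolve_left (Fact.out : p.Prime).ne_one)
      have hle : sInf ((fun ψ : IrrCharacter G => (charDegree (ψ : G → ℂ)).factorization p) '' B) ≤
          (charDegree (χ : G → ℂ)).factorization p := Nat.sInf_le ⟨χ, hχ, rfl⟩
      have hle' := (Nat.factorization_le_iff_dvd (charDegree_ne_zero' χ) Nat.card_pos.ne').2
        (charDegree_dvd_card χ) p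
      rw [blockDefect] at h0
      exact (not_dvd_card_div_charDegree_iff χ).2 (by omega) hfull
    obtain ⟨x, hxD, hcon⟩ := hwit B hB _ hD hne
    refine eq_principal_of_centralized hM hB hg ?_ ?_ hcon
    · exact Subgroup.mem_centralizer_singleton_iff.2
        (Subgroup.mem_centralizer_singleton_iff.1 (sylow_map_le S hxD)).symm
    · exact (isPGroup_sylow_map S).to_le (Subgroup.zpowers_le.2 hxD)
  have hneq : ({St} : Set (IrrCharacter G)) ≠ B0 := by
    intro e
    have h1 : trivIrr G = St := Set.mem_singleton_iff.1 (e ▸ mem_blockOf_self (M := M) (trivIrr G))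
    apply hSt
    have : charDegree ((trivIrr G : IrrCharacter G) : G → ℂ) = 1 := by
      simp [charDegree, trivIrr_apply]
    rw [← h1, this, Nat.div_one]
    exact hp
  have hb : IsPBlock M ({St} : Set (IrrCharacter G)) :=
    blockOf_eq_singleton_of_full hM St hSt ▸ isPBlock_blockOf St
  refine Nat.card_eq_two_iff.2 ⟨⟨{St}, hb⟩, ⟨B0, isPBlock_blockOf _⟩,
    fun e => hneq (congrArg Subtype.val e), Set.eq_univ_of_forall fun B => ?_⟩
  rcases hcase B.1 B.2 with e | e
  · exact Or.inl (Subtype.ext e)
  · exact Or.inr (Subtype.ext e)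

end CfsgLib.ClassK.TwoBlocks
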