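import Cfsg.Agent.Lib.ClassK.ChevalleyRootCentralizer
import Cfsg.Agent.Lib.ClassK.ChevalleyDefectZero
import Cfsg.Agent.Lib.ClassK.TwoBlocks
import Cfsg.Agent.Lib.BlockLocal.GreenIntersection
import Cfsg.Agent.Lib.InvCentralizers.ChevalleySteinberg

/-!
Two blocks in the defining characteristic for the Chevalley groups with trivial centre data.
-/

set_option autoImplicit false
set_option linter.style.haveILetI false
set_option linter.unusedSectionVars false

open Cfsg CfsgLib.Blocks Cfsg.Lie CfsgLib.Chevalley CfsgLib.InvCentralizers.ChevalleySteinberg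

namespace CfsgLib.ClassK.TopRoot

variable {D : ChevalleyDatum} {A : Aux} {F : Type*} [Field F] [Fintype F]
variable {p : ℕ} [Fact p.Prime] [CharP F p]

open ChevCell TwoBlocks

theorem hasConstrainedCentralizer_conj {G : Type*} [Group G] {x : G} (a : G)
    (hx : HasConstrainedCentralizer p x) : HasConstrainedCentralizer p (a * x * a⁻¹) := by
  obtain ⟨R, hR, hN, hp, hC⟩ := hx
  have hcen : ∀ g : G, g ∈ Subgroup.centralizer ({a * x * a⁻¹} : Set G) ↔
      a⁻¹ * g * a ∈ Subgroup.centralizer ({x} : Set G) := by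
    intro g
    rw [Subgroup.mem_centralizer_singleton_iff, Subgroup.mem_centralizer_singleton_iff]
    constructor <;> intro e
    · calc a⁻¹ * g * a * x = a⁻¹ * (g * (a * x * a⁻¹)) * a := by group
        _ = a⁻¹ * (a * x * a⁻¹ * g) * a := by rw [e]
        _ = x * (a⁻¹ * g * a) := by group
    · calc g * (a * x * a⁻¹) = a * (a⁻¹ * g * a * x) * a⁻¹ := by group
        _ = a * (x * (a⁻¹ * g * a)) * a⁻¹ := by rw [e]
        _ = a * x * a⁻¹ * g := by group
  refine ⟨R.map (MulAut.conj a).toMonoidHom, ?_, ?_, hp.map _, ?_⟩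
  · rintro _ ⟨r, hr, rfl⟩
    rw [hcen]
    simpa [MulAut.conj_apply, mul_assoc] using hR hr
  · intro g hg
    have h1 := hN ((hcen g).1 hg)
    rw [Subgroup.mem_normalizer_iff]
    intro y
    simp only [Subgroup.mem_map, MulEquiv.coe_toMonoidHom, MulAut.conj_apply]
    constructor
    · rintro ⟨r, hr, rfl⟩
      exact ⟨_, (Subgroup.mem_normalizer_iff.1 h1 r).1 hr, by group⟩
    · rintro ⟨r, hr, e⟩
      refine ⟨a⁻¹ * y * a, ?_, by group⟩
      refine (Subgroup.mem_normalizer_iff.1 h1 _).2 ?_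
      rwa [show a⁻¹ * g * a * (a⁻¹ * y * a) * (a⁻¹ * g * a)⁻¹ = r by
        rw [show a⁻¹ * g * a * (a⁻¹ * y * a) * (a⁻¹ * g * a)⁻¹ = a⁻¹ * (g * y * g⁻¹) * a by group,
          ← e]
        group]
  · intro g hg hreg hcomm
    have h1 : a⁻¹ * g * a = 1 := hC _ ((hcen g).1 hg) (by
      rwa [show a⁻¹ * g * a = MulAut.conj a⁻¹ g by simp, MulEquiv.orderOf_eq]) fun r hr => by
      have e := hcomm (a * r * a⁻¹) ⟨r, hr, rfl⟩
      calc r * (a⁻¹ * g * a) = a⁻¹ * (a * r * a⁻¹ * g) * a := by group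
        _ = a⁻¹ * (g * (a * r * a⁻¹)) * a := by rw [e]
        _ = a⁻¹ * g * a * r := by group
    calc g = a * (a⁻¹ * g * a) * a⁻¹ := by group
      _ = 1 := by rw [h1, mul_one, mul_inv_cancel]

theorem isPGroup_posU (h : Full D A) : IsPGroup p (posU D F) :=
  (isPGroup_U h).of_equiv (Subgroup.subgroupOfEquivOfLe ((le_sup_left :
    D.posUnipotent F ≤ D.borelSubgroup F).trans (borel_le_group h.cert))).symm

theorem card_posU (h : Full D A) :
    Nat.card (posU D F) = Fintype.card F ^ (D.nroots / 2) :=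
  (Nat.card_congr (Subgroup.subgroupOfEquivOfLe ((le_sup_left :
    D.posUnipotent F ≤ D.borelSubgroup F).trans (borel_le_group h.cert))).toEquiv).trans (card_U h)

theorem hasConstrainedCentralizer_top (h : Full D A) {s : Fin D.nroots} {l k : ℕ}
    (P : Props h s l k) {c : F} (hc : c ≠ 0) :
    HasConstrainedCentralizer p (xE h (s : ℕ) c) := by
  refine ⟨(rootsU D F (levelSet D A l k)).subgroupOf (D.group F), ?_, ?_, ?_, ?_⟩
  · intro w hw
    rw [Subgroup.mem_centralizer_singleton_iff]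
    exact Subtype.ext (Subgroup.mem_centralizer_singleton_iff.1 (commute_level h P c hw))
  · intro g hg
    rw [Subgroup.mem_centralizer_singleton_iff] at hg
    have hg' : (g : GL D.Idx F) * xG h.cert (s : ℕ) c = xG h.cert (s : ℕ) c * g :=
      congrArg Subtype.val hg
    have hginv : ((g⁻¹ : D.group F) : GL D.Idx F) * xG h.cert (s : ℕ) c =
        xG h.cert (s : ℕ) c * ((g⁻¹ : D.group F) : GL D.Idx F) := by
      rw [Subgroup.coe_inv, inv_mul_eq_iff_eq_mul, ← mul_assoc, hg', mul_inv_cancel_right]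
    rw [Subgroup.mem_normalizer_iff]
    intro y
    constructor
    · intro hy
      exact centralizer_normalize h P hc g.2 hg' _ hy
    · intro hy
      have h2 := centralizer_normalize h P hc (g⁻¹).2 hginv _ hy
      show (y : GL D.Idx F) ∈ rootsU D F (levelSet D A l k)
      simpa [mul_assoc] using h2
  · exact (isPGroup_posU h).to_le fun w hw => levelSet_le h P hw
  · intro g hg hreg hcomm
    rw [Subgroup.mem_centralizer_singleton_iff] at hg
    have hgU : g ∈ posU D F := mem_posUnipotent_of_centralize h P hc g.2 (congrArg Subtype.val hg)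
      fun w hw => congrArg Subtype.val (hcomm ⟨w, rootsU_le_group h.cert _ hw⟩ hw)
    obtain ⟨j, hj⟩ := IsPGroup.iff_orderOf.1 (isPGroup_posU (p := p) h) ⟨g, hgU⟩
    rw [Subgroup.orderOf_mk] at hj
    rcases j with _ | j
    · exact orderOf_eq_one_iff.1 (by simpa using hj)
    · exact absurd (hj ▸ dvd_pow_self p j.succ_ne_zero) hreg

theorem exists_witness [Finite (D.group F)] {M : Ideal AlgInt} [M.IsPrime] (h : Full D A)
    (htops : HasTops h) (hM : IsPModular p M) {B : Set (IrrCharacter (D.group F))}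
    (hB : IsPBlock M B) {Q : Subgroup (D.group F)} (hQ : IsDefectGroup p M B Q) (hne : Q ≠ ⊥) :
    ∃ x ∈ Q, HasConstrainedCentralizer p x := by
  obtain ⟨tops, hclimb, htop⟩ := htops
  obtain ⟨R, hQR⟩ := (isPGroup_of_isDefectGroup hQ).exists_le_sylow
  set U0 : Sylow p (D.group F) := (isPGroup_posU h).toSylow (not_dvd_index h) with hU0
  obtain ⟨c, hc⟩ := MulAction.exists_smul_eq (D.group F) U0 R
  obtain ⟨x₀, -, -, hinter⟩ := BlockLocal.exists_sylow_inter_eq hM hB hQ R hQR
  have hmemR : ∀ y : D.group F, y ∈ (R : Subgroup (D.group F)) ↔ c⁻¹ * y * c ∈ posU D F := by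
    intro y
    rw [← hc, Sylow.coe_subgroup_smul, Subgroup.mem_pointwise_smul_iff_inv_smul_mem]
    simp only [← map_inv, MulAut.smul_def, MulAut.conj_apply, inv_inv]
    rfl
  set g : D.group F := c⁻¹ * x₀ * c with hg
  have hmemQ : ∀ y : D.group F, c * y * c⁻¹ ∈ Q ↔ y ∈ posU D F ∧ g⁻¹ * y * g ∈ posU D F := by
    intro y
    rw [← hinter, Subgroup.mem_inf, hmemR]
    refine and_congr (by rw [show c⁻¹ * (c * y * c⁻¹) * c = y by group]) ?_
    constructor
    · rintro ⟨z, hz, e⟩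
      have hz' := (hmemR z).1 hz
      simp only [MulEquiv.coe_toMonoidHom, MulAut.conj_apply] at e
      rwa [show g⁻¹ * y * g = c⁻¹ * z * c by
        rw [hg, show (c⁻¹ * x₀ * c)⁻¹ * y * (c⁻¹ * x₀ * c) = c⁻¹ * (x₀⁻¹ * (c * y * c⁻¹) * x₀) * c
          by group, ← e]
        group]
    · intro hy
      refine ⟨c * (g⁻¹ * y * g) * c⁻¹, (hmemR _).2 (by
        rwa [show c⁻¹ * (c * (g⁻¹ * y * g) * c⁻¹) * c = g⁻¹ * y * g by group]), ?_⟩
      simp only [MulEquiv.coe_toMonoidHom, MulAut.conj_apply, hg]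
      group
  obtain ⟨u, hu, n, hn, v, hv, huv⟩ := exists_unu h g
  rcases isTop_or_isLow h hn with ⟨σ, η, hA, hσ⟩ | ⟨σ, η, hA, r, hr, hr'⟩
  · exfalso
    apply hne
    rw [eq_bot_iff]
    intro w hw
    have hy := (hmemQ (c⁻¹ * w * c)).1 (by
      rwa [show c * (c⁻¹ * w * c) * c⁻¹ = w by group])
    set y := c⁻¹ * w * c with hydef
    have hz : v * (g⁻¹ * y * g) * v⁻¹ ∈ posU D F :=
      Subgroup.mul_mem _ (Subgroup.mul_mem _ hv hy.2) (Subgroup.inv_mem _ hv)
    have h1 : u⁻¹ * y * u = 1 := by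
      refine Subtype.ext ?_
      show _ = (1 : GL D.Idx F)
      rw [← Subgroup.mem_bot, ← borel_inf_negUnipotent h]
      refine ⟨Subgroup.mem_sup_left (show u⁻¹ * y * u ∈ posU D F from
        Subgroup.mul_mem _ (Subgroup.mul_mem _ (Subgroup.inv_mem _ hu) hy.1) hu), ?_⟩
      rw [show u⁻¹ * y * u = n * (v * (g⁻¹ * y * g) * v⁻¹) * n⁻¹ by rw [huv]; group]
      exact hA.conj_rootsU (S := {r | D.IsPosRoot r}) (T := {r | D.IsNegRoot r})
        (fun d hd => hσ d hd) _ hz
    rw [Subgroup.mem_bot]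
    calc w = c * u * (u⁻¹ * y * u) * u⁻¹ * c⁻¹ := by rw [hydef]; group
      _ = 1 := by rw [h1]; group
  · -- a root element in the intersection
    obtain ⟨a, ha, s, hs, t, ht, hat⟩ :=
      exists_conj_top h hclimb (σ r) hr' (η r) (hA.ne_zero r)
    obtain ⟨l, k, hP⟩ := htop s hs
    set a' : D.group F := ⟨a, ha⟩
    have hnx : n * xE h (r : ℕ) 1 * n⁻¹ = xE h (σ r : ℕ) (η r) :=
      Subtype.ext (by
        show (n : GL D.Idx F) * xG h.cert (r : ℕ) 1 * (n : GL D.Idx F)⁻¹ = xG h.cert (σ r : ℕ) (η r)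
        rw [hA.conj, mul_one])
    refine ⟨c * (u * xE h (σ r : ℕ) (η r) * u⁻¹) * c⁻¹, (hmemQ _).2 ⟨?_, ?_⟩, ?_⟩
    · exact Subgroup.mul_mem _ (Subgroup.mul_mem _ hu (xE_mem_posU h hr' _)) (Subgroup.inv_mem _ hu)
    · rw [show g⁻¹ * (u * xE h (σ r : ℕ) (η r) * u⁻¹) * g = v⁻¹ * xE h (r : ℕ) 1 * v by
        rw [huv, ← hnx]; group]
      exact Subgroup.mul_mem _ (Subgroup.mul_mem _ (Subgroup.inv_mem _ hv) (xE_mem_posU h hr _)) hv
    · have e : a' * xE h (σ r : ℕ) (η r) * a'⁻¹ = xE h (s : ℕ) t := Subtype.ext hat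
      rw [show c * (u * xE h (σ r : ℕ) (η r) * u⁻¹) * c⁻¹ =
        (c * u * a'⁻¹) * xE h (s : ℕ) t * (c * u * a'⁻¹)⁻¹ by rw [← e]; group]
      exact hasConstrainedCentralizer_conj _ (hasConstrainedCentralizer_top h hP ht)

/-- Exactly two blocks. -/
theorem card_blocks (hD : D ∈ [chevG2, chevF4, chevE8]) {M : Ideal AlgInt}
    (hM : IsPModular p M) :
    Nat.card {B : Set (IrrCharacter (D.group F)) // IsPBlock M B} = 2 := by
  classical
  haveI := isPrime_of_isPModular hM
  haveI : Finite (GL D.Idx F) := inferInstance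
  letI := Fintype.ofFinite ↥(D.group F)
  obtain ⟨A, h, htops⟩ := exists_tops hD
  have hst : Cfsg.IsIrrCharacter ↥(D.group F) (D.steinbergCharacter F) := by
    rw [steinberg_eq h]
    exact InvCentralizers.SteinbergChar.steinberg_isIrr (coe_sFinset h) (longest_inter h)
  have hU := isPGroup_posU (F := F) (p := p) h
  have hUi : ¬ p ∣ (posU D F).index := not_dvd_index h
  have hcardU := card_posU (F := F) h
  have hfullS : ¬ p ∣ Nat.card ↥(D.group F) / charDegree (D.steinbergCharacter F) := by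
    have e : charDegree (D.steinbergCharacter F) = Fintype.card F ^ (D.nroots / 2) := by
      have := charDegree_cast (⟨_, hst⟩ : IrrCharacter ↥(D.group F))
      rw [show ((⟨_, hst⟩ : IrrCharacter ↥(D.group F)) : ↥(D.group F) → ℂ) 1 = _ from
        steinbergCharacter_one h] at this
      exact_mod_cast this
    rw [e, ← hcardU, ← Subgroup.card_mul_index (posU D F),
      Nat.mul_div_cancel_left _ Nat.card_pos]
    exact hUi
  refine card_blocks_eq_two hM ?_ ⟨_, hst⟩ hfullS
    (fun χ hχ => eq_of_full h hU hUi hcardU hM χ ⟨_, hst⟩ hχ hfullS)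
    (fun B hB Q hQ hne => exists_witness h htops hM hB hQ hne)
  obtain ⟨e, -, he⟩ := FiniteField.card F p
  refine dvd_trans ?_ (Subgroup.card_subgroup_dvd_card (posU D F))
  rw [hcardU, he, ← pow_mul]
  exact dvd_pow_self p (Nat.mul_ne_zero e.2.ne' h.pos.half_pos.ne')

end CfsgLib.ClassK.TopRoot
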