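import Cfsg.Agent.Lib.ClassK.ChevalleyWeightVectors

/-!
An explicit weight vector of each type: a function on the group supported on `U n₀ W_K T U`.
-/

set_option autoImplicit false
set_option linter.style.haveILetI false
set_option linter.unusedSectionVars false

open Cfsg.Lie CfsgLib.Chevalley
open scoped Classical

namespace CfsgLib.ClassK.Weights

open CfsgLib.ClassK.ChevCell

variable {D : ChevalleyDatum} {A : Aux} {F : Type*} [Field F]

/-- A word in the fundamental monomial elements. -/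
noncomputable def wE (h : Full D A) (F : Type*) [Field F] (l : List (Fin D.rank)) : D.group F :=
  (l.map fun i => nS h i).prod

theorem wE_cons (h : Full D A) (i : Fin D.rank) (l : List (Fin D.rank)) :
    wE h F (i :: l) = nS h i * wE h F l := by simp [wE]

theorem wE_append (h : Full D A) (l l' : List (Fin D.rank)) :
    wE h F (l ++ l') = wE h F l * wE h F l' := by simp [wE]

theorem isMono_wE (h : Full D A) : ∀ l : List (Fin D.rank), IsMono (wE h F l) := by
  intro l
  induction l with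
  | nil => exact Subgroup.one_mem _
  | cons i l ih => rw [wE_cons]; exact (isMono_nS h i).mul ih

theorem acts_wE (h : Full D A) : ∀ l : List (Fin D.rank),
    ∃ η, Acts h.cert (wE h F l : GL D.Idx F) (wPerm h.cert l) η := by
  intro l
  induction l with
  | nil => exact ⟨_, by rw [wPerm_nil]; exact acts_one h.cert⟩
  | cons i l ih =>
    obtain ⟨η, hη⟩ := ih
    obtain ⟨θ, hθ⟩ := acts_nS (F := F) h i
    exact ⟨_, by rw [wE_cons, wPerm_cons]; exact hθ.mul hη⟩

theorem acts_diag (h : Full D A) {t : D.group F} (ht : t ∈ diagT D F) :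
    ∃ η, Acts h.cert (t : GL D.Idx F) 1 η := by
  obtain ⟨c, rfl⟩ := (mem_diagT_iff h).1 ht
  exact ⟨_, acts_torus h.cert c⟩

/-- The torus of the coordinates in `K`. -/
noncomputable def ZK (h : Full D A) (F : Type*) [Field F] (K : Finset (Fin D.rank)) : Subgroup (D.group F) :=
  Subgroup.map (tHom h F)
    { carrier := {c | ∀ i ∉ K, c i = 1}
      mul_mem' := fun {a b} ha hb i hi => by
        show a i * b i = 1
        rw [ha i hi, hb i hi, one_mul]
      one_mem' := fun i _ => rfl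
      inv_mem' := fun {a} ha i hi => by
        show (a i)⁻¹ = 1
        rw [ha i hi, inv_one] }

theorem mem_ZK {h : Full D A} {K : Finset (Fin D.rank)} {g : D.group F} :
    g ∈ ZK h F K ↔ ∃ c : Fin D.rank → Fˣ, (∀ i ∉ K, c i = 1) ∧ tHom h F c = g := Iff.rfl

theorem ZK_le_diagT (h : Full D A) (K : Finset (Fin D.rank)) : ZK h F K ≤ diagT D F := by
  rintro g hg
  obtain ⟨c, -, rfl⟩ := mem_ZK.1 hg
  exact tHom_mem h c

theorem hE_mem_ZK (h : Full D A) {K : Finset (Fin D.rank)} {i : Fin D.rank} (hi : i ∈ K)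
    (a : Fˣ) : ChevCell.hE h i a ∈ ZK h F K :=
  mem_ZK.2 ⟨_, fun j hj => Pi.mulSingle_eq_of_ne (fun e : j = i => hj (e ▸ hi)) _, rfl⟩

theorem nS_conj_tHom (h : Full D A) (i : Fin D.rank) (c : Fin D.rank → Fˣ) :
    nS h i * tHom h F c * (nS h i)⁻¹ = tHom h F (reflTorus D i c) :=
  Subtype.ext (nG_simple_mul_torus h i 1 one_ne_zero c)

theorem inv_nS_conj_tHom (h : Full D A) (i : Fin D.rank) (c : Fin D.rank → Fˣ) :
    (nS h i)⁻¹ * tHom h F c * nS h i = tHom h F (reflTorus D i c) := by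
  conv_lhs => arg 2; rw [← inv_inv (nS h i)]
  rw [nS, nE_inv]
  exact Subtype.ext (nG_simple_mul_torus h i (-1) (neg_ne_zero.2 one_ne_zero) c)

theorem nS_conj_ZK (h : Full D A) {K : Finset (Fin D.rank)} {i : Fin D.rank} (hi : i ∈ K)
    {z : D.group F} (hz : z ∈ ZK h F K) : nS h i * z * (nS h i)⁻¹ ∈ ZK h F K := by
  obtain ⟨c, hc, rfl⟩ := mem_ZK.1 hz
  rw [nS_conj_tHom]
  refine mem_ZK.2 ⟨_, fun j hj => ?_, rfl⟩
  rw [reflTorus, Pi.mul_apply, Pi.mulSingle_eq_of_ne (fun e : j = i => hj (e ▸ hi)), mul_one, hc j hj]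

theorem wE_conj_ZK (h : Full D A) {K : Finset (Fin D.rank)} : ∀ l : List (Fin D.rank),
    (∀ x ∈ l, x ∈ K) → ∀ z ∈ ZK h F K, wE h F l * z * (wE h F l)⁻¹ ∈ ZK h F K := by
  intro l
  induction l with
  | nil => intro _ z hz; simpa [wE] using hz
  | cons i l ih =>
    intro hl z hz
    rw [wE_cons, show nS h i * wE h F l * z * (nS h i * wE h F l)⁻¹ =
      nS h i * (wE h F l * z * (wE h F l)⁻¹) * (nS h i)⁻¹ by group]
    exact nS_conj_ZK h (hl i List.mem_cons_self) (ih (fun x hx => hl x (List.mem_cons_of_mem _ hx)) z hz)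

theorem exists_suffix (h : Full D A) (a : Fin D.rank) : ∀ l : List (Fin D.rank),
    D.IsNegRoot (wPerm h.cert l (smp h.cert a)) →
    ∃ p b s, l = p ++ b :: s ∧ wPerm h.cert s (smp h.cert a) = smp h.cert b := by
  intro l
  induction l with
  | nil => intro hn; exact absurd hn (h.pos_not_neg (h.simple_pos a.isLt))
  | cons b s ih =>
    intro hn
    rw [wPerm_cons, Equiv.Perm.mul_apply, rfPerm_apply] at hn
    rcases h.pos.pos_or_neg (wPerm h.cert s (smp h.cert a)).isLt with hp | hneg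
    · exact ⟨[], b, s, rfl, by_contra fun hne => h.pos_not_neg (h.rf_ne_simple_pos b hp hne) hn⟩
    · obtain ⟨p, b', s', e, e'⟩ := ih hneg
      exact ⟨b :: p, b', s', by rw [e]; rfl, e'⟩

/-- A word in `K` inducing the identity lies in the torus of `K`. -/
theorem wE_mem_ZK (h : Full D A) {K : Finset (Fin D.rank)} : ∀ l : List (Fin D.rank),
    (∀ x ∈ l, x ∈ K) → wPerm h.cert l = 1 → wE h F l ∈ ZK h F K := by
  intro l
  induction hn : l.length using Nat.strong_induction_on generalizing l with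
  | _ m ih =>
    rcases l with _ | ⟨a, l'⟩
    · intro _ _; exact Subgroup.one_mem _
    intro hl hperm
    have hl' : wPerm h.cert l' = rfPerm h.cert a := by
      rw [wPerm_cons] at hperm
      rw [← one_mul (wPerm h.cert l'), ← rfPerm_mul_self h.cert a, mul_assoc, hperm, mul_one]
    obtain ⟨p, b, s, rfl, hb⟩ := exists_suffix h a l' (by
      rw [hl', rfPerm_apply, rf_smp]; exact h.neg_isNeg (h.simple_pos a.isLt))
    have haK : a ∈ K := hl a List.mem_cons_self
    obtain ⟨η, hη⟩ := acts_wE (F := F) h s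
    have hc := hη.conj_nG (smp h.cert a) ((η (smp h.cert a))⁻¹ * 1)
    rw [hb, mul_inv_cancel_left₀ (hη.ne_zero _)] at hc
    have he : (η (smp h.cert a))⁻¹ * 1 ≠ 0 := by simpa using hη.ne_zero (smp h.cert a)
    set e := Units.mk0 _ he
    have hc0 : wE h F s * nE h (D.simple a) (e : F) * (wE h F s)⁻¹ = nS h b := Subtype.ext hc
    have hc' : nS h b * wE h F s = wE h F s * nE h (D.simple a) (e : F) := by
      rw [← hc0, inv_mul_cancel_right]
    -- the shorter word
    have hps : wPerm h.cert (p ++ s) = 1 := by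
      have hs1 : rfPerm h.cert b * wPerm h.cert s = wPerm h.cert s * rfPerm h.cert a := by
        obtain ⟨θ, hθ⟩ := acts_nS (F := F) h b
        have h1 := hθ.mul hη
        have h2 := hη.mul (acts_nG_simple (F := F) h a e.ne_zero)
        rw [← Subgroup.coe_mul, hc', Subgroup.coe_mul] at h1
        exact h1.perm_eq h2
      rw [wPerm_append, wPerm_cons, hs1, ← mul_assoc, ← wPerm_append] at hl'
      exact mul_eq_right.1 hl'
    have hsub : ∀ x ∈ p ++ s, x ∈ K := fun x hx => hl x (List.mem_cons_of_mem _ (by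
      rcases List.mem_append.1 hx with hx | hx
      · exact List.mem_append_left _ hx
      · exact List.mem_append_right _ (List.mem_cons_of_mem _ hx)))
    have hX := ih (p ++ s).length (by simp only [List.length_cons, List.length_append] at hn ⊢; omega)
      (p ++ s) rfl hsub hps
    rw [wE_cons, wE_append, wE_cons, hc', show nS h a * (wE h F p * (wE h F s * nE h (D.simple a) (e : F))) =
      (nS h a * (wE h F p * wE h F s) * (nS h a)⁻¹) *
        (nS h a * (nE h (D.simple a) (e : F) * nS h a) * (nS h a)⁻¹) by group, nE_mul_nE,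
      nS_conj_hE, ← wE_append]
    exact Subgroup.mul_mem _ (nS_conj_ZK h haK hX) (hE_mem_ZK h haK _)

theorem wE_inv (h : Full D A) {K : Finset (Fin D.rank)} : ∀ l : List (Fin D.rank),
    (∀ x ∈ l, x ∈ K) → ∃ z ∈ ZK h F K, (wE h F l)⁻¹ = wE h F l.reverse * z := by
  intro l
  induction l with
  | nil => intro _; exact ⟨1, Subgroup.one_mem _, by simp [wE]⟩
  | cons i l ih =>
    intro hl
    have hl' : ∀ x ∈ l, x ∈ K := fun x hx => hl x (List.mem_cons_of_mem _ hx)
    obtain ⟨z, hz, e⟩ := ih hl'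
    have hi := hl i List.mem_cons_self
    refine ⟨(nS h i)⁻¹ * z * nS h i * (ChevCell.hE h i (-1))⁻¹, ?_, ?_⟩
    · refine Subgroup.mul_mem _ ?_ (Subgroup.inv_mem _ (hE_mem_ZK h hi _))
      obtain ⟨c, hc, rfl⟩ := mem_ZK.1 hz
      rw [inv_nS_conj_tHom]
      refine mem_ZK.2 ⟨_, fun j hj => ?_, rfl⟩
      rw [reflTorus, Pi.mul_apply, Pi.mulSingle_eq_of_ne (fun e : j = i => hj (e ▸ hi)), mul_one,
        hc j hj]
    · rw [List.reverse_cons, wE_append, wE_cons, wE_cons, mul_inv_rev, e, nS_inv,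
        show wE h F [] = 1 from rfl, mul_one, ← nS_mul_self]
      group

/-- Two words in `K` differing by a torus element differ by the torus of `K`. -/
theorem mem_ZK_of_eq (h : Full D A) {K : Finset (Fin D.rank)} {l l' : List (Fin D.rank)}
    (hl : ∀ x ∈ l, x ∈ K) (hl' : ∀ x ∈ l', x ∈ K) {t : D.group F} (ht : t ∈ diagT D F)
    (e : wE h F l * t = wE h F l') : t ∈ ZK h F K := by
  obtain ⟨z, hz, ez⟩ := wE_inv (F := F) h l hl
  set L := l.reverse ++ l'
  have hL : ∀ x ∈ L, x ∈ K := fun x hx => (List.mem_append.1 hx).elim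
    (fun hx => hl x (List.mem_reverse.1 hx)) (hl' x)
  have e1 : t = wE h F L * ((wE h F l')⁻¹ * z * wE h F l') := by
    rw [show t = (wE h F l)⁻¹ * wE h F l' by rw [← e]; group, ez, wE_append]
    group
  have hz' : (wE h F l')⁻¹ * z * wE h F l' ∈ ZK h F K := by
    obtain ⟨w, hw, ew⟩ := wE_inv (F := F) h l' hl'
    have h1 := wE_conj_ZK h l'.reverse (fun x hx => hl' x (List.mem_reverse.1 hx)) _
      (Subgroup.mul_mem _ (Subgroup.mul_mem _ hw hz) (Subgroup.inv_mem _ hw))
    rw [show (wE h F l')⁻¹ * z * wE h F l' = (wE h F l')⁻¹ * z * ((wE h F l')⁻¹)⁻¹ by group, ew]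
    convert h1 using 1
    group
  have e2 : wE h F L = t * ((wE h F l')⁻¹ * z * wE h F l')⁻¹ := by rw [e1]; group
  obtain ⟨η, hη⟩ := acts_wE (F := F) h L
  obtain ⟨θ, hθ⟩ := acts_diag h (Subgroup.mul_mem _ ht (Subgroup.inv_mem _ (ZK_le_diagT h K hz')))
  rw [e2] at hη
  rw [e1]
  exact Subgroup.mul_mem _ (wE_mem_ZK h L hL (hη.perm_eq hθ)) hz'

/-- Words in `K` keep the coordinates outside `K`. -/
theorem crd_wPerm (h : Full D A) {K : Finset (Fin D.rank)} : ∀ l : List (Fin D.rank),
    (∀ x ∈ l, x ∈ K) → ∀ i : Fin D.rank, i ∉ K → ∀ r : Fin D.nroots,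
      crd A i (wPerm h.cert l r) = crd A i r := by
  intro l
  induction l with
  | nil => intro _ i _ r; rfl
  | cons a l ih =>
    intro hl i hi r
    rw [wPerm_cons, Equiv.Perm.mul_apply, rfPerm_apply, h.crd_rf a i.isLt,
      if_neg (fun e : (a : ℕ) = i => hi (Fin.ext e ▸ hl a List.mem_cons_self)), mul_zero, sub_zero,
      ih (fun x hx => hl x (List.mem_cons_of_mem _ hx)) i hi]

variable [Fintype F]

/-- The monomial part of an element is unique, not only modulo the torus. -/
theorem diag_eq_one (h : Full D A) {n d u u' : D.group F} (hd : d ∈ diagT D F)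
    (hu : u ∈ posU D F) (hu' : u' ∈ posU D F) (e : u * n * u' = n * d) : d = 1 := by
  obtain ⟨p, hpC⟩ := CharP.exists F
  haveI : Fact p.Prime := ⟨CharP.char_is_prime F p⟩
  have hP : IsPGroup p (posU D F) :=
    (CfsgLib.InvCentralizers.ChevalleySteinberg.isPGroup_U h).of_equiv
      (Subgroup.subgroupOfEquivOfLe ((le_sup_left :
        D.posUnipotent F ≤ D.borelSubgroup F).trans (borel_le_group h.cert))).symm
  obtain ⟨k, hk⟩ := hP ⟨u, hu⟩
  have hk' : u ^ p ^ k = 1 := congrArg Subtype.val hk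
  have hpow : ∀ m : ℕ, ∃ v ∈ posU D F, (d * u'⁻¹) ^ m = d ^ m * v := by
    intro m
    induction m with
    | zero => exact ⟨1, Subgroup.one_mem _, by simp⟩
    | succ m ih =>
      obtain ⟨v, hv, ev⟩ := ih
      refine ⟨d⁻¹ * v * d * u'⁻¹, Subgroup.mul_mem _ ?_ (Subgroup.inv_mem _ hu'), ?_⟩
      · have := diagT_conj_posU h (Subgroup.inv_mem _ hd) hv
        rwa [inv_inv] at this
      · rw [pow_succ, ev, pow_succ]; group
  obtain ⟨v, hv, ev⟩ := hpow (p ^ k)
  have h1 : (d * u'⁻¹) ^ p ^ k = 1 := by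
    have e1 : d * u'⁻¹ = n⁻¹ * u * n := by
      calc d * u'⁻¹ = n⁻¹ * (n * d) * u'⁻¹ := by group
        _ = _ := by rw [← e]; group
    rw [e1, show n⁻¹ * u * n = MulAut.conj n⁻¹ u by simp, ← map_pow, hk', map_one]
  have hdk : d ^ p ^ k = 1 := by
    have hv' : d ^ p ^ k = v⁻¹ := eq_inv_of_mul_eq_one_left (ev ▸ h1)
    have hmem : d ^ p ^ k ∈ posU D F := hv' ▸ Subgroup.inv_mem _ hv
    exact Subtype.ext (eq_one_of_mem_pos_diagonal h hmem (Subgroup.pow_mem _ hd _))
  obtain ⟨c, rfl⟩ := (mem_diagT_iff h).1 hd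
  have hdq : tHom h F c ^ (Fintype.card F - 1) = 1 := by
    rw [← map_pow, ← Fintype.card_units,
      show c ^ Fintype.card Fˣ = 1 from funext fun i => pow_card_eq_one, map_one]
  have hcop : Nat.Coprime (p ^ k) (Fintype.card F - 1) := by
    refine Nat.Coprime.pow_left k ((Nat.Prime.coprime_iff_not_dvd Fact.out).2 fun hdvd => ?_)
    obtain ⟨n, -, hn⟩ := FiniteField.card F p
    have h2 : p ∣ Fintype.card F := hn ▸ dvd_pow_self p n.ne_zero
    have := Fintype.card_pos (α := F)
    have h3 := Nat.dvd_sub h2 hdvd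
    rw [show Fintype.card F - (Fintype.card F - 1) = 1 by omega] at h3
    exact (Fact.out : p.Prime).one_lt.ne' (Nat.dvd_one.1 h3)
  have := pow_gcd_eq_one.2 ⟨hdk, hdq⟩
  rwa [hcop, pow_one] at this

/-! ### The function -/

variable {K : Finset (Fin D.rank)} {χ : TorChar D F} {n₀ : D.group F}

/-- The element has torus parameter `c` relative to `K`. -/
def Rep (h : Full D A) (K : Finset (Fin D.rank)) (n₀ g : D.group F) (c : Fin D.rank → Fˣ) : Prop :=
  ∃ u ∈ posU D F, ∃ l : List (Fin D.rank), (∀ x ∈ l, x ∈ K) ∧ ∃ u' ∈ posU D F,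
    g = u * (n₀ * wE h F l * tHom h F c) * u'

/-- The model vector. -/
noncomputable def modelVec (h : Full D A) (K : Finset (Fin D.rank)) (χ : TorChar D F)
    (n₀ : D.group F) (g : D.group F) : F :=
  if hg : ∃ c, Rep h K n₀ g c then (χ (Classical.choose hg) : F) else 0

theorem mono_eq_of_mem (h : Full D A) {n m u u' : D.group F} (hn : IsMono n) (hm : IsMono m)
    (hu : u ∈ posU D F) (hu' : u' ∈ posU D F) (e : u * n * u' = m) : n = m := by
  have key : n⁻¹ * m ∈ diagT D F := monomial_unique h hn hm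
    (Subgroup.mem_sup_left hu) (Subgroup.mem_sup_left hu')
    (congrArg Subtype.val e)
  have := diag_eq_one h key hu hu' (e.trans (mul_inv_cancel_left n m).symm)
  rwa [inv_mul_eq_one] at this

theorem char_eq_one (hK : ∀ i ∈ K, TrivAt χ i) {c : Fin D.rank → Fˣ} (hc : ∀ i ∉ K, c i = 1) :
    χ c = 1 := by
  rw [← Finset.univ_prod_mulSingle c, map_prod]
  refine Finset.prod_eq_one fun i _ => ?_
  by_cases hi : i ∈ K
  · exact hK i hi _
  · rw [hc i hi, Pi.mulSingle_one, map_one]

theorem modelVec_eq (h : Full D A) (hinj : Function.Injective (tHom h F))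
    (hK : ∀ i ∈ K, TrivAt χ i) (hn₀ : IsMono n₀) {g : D.group F} {c : Fin D.rank → Fˣ}
    (hc : Rep h K n₀ g c) : modelVec h K χ n₀ g = (χ c : F) := by
  have hex : ∃ c, Rep h K n₀ g c := ⟨c, hc⟩
  rw [modelVec, dif_pos hex]
  obtain ⟨u, hu, l, hl, v, hv, e⟩ := hc
  have hspec := Classical.choose_spec hex
  generalize Classical.choose hex = c' at hspec ⊢
  obtain ⟨u', hu', l', hl', v', hv', e'⟩ := hspec
  have hmono : ∀ (l : List (Fin D.rank)) (c : Fin D.rank → Fˣ),
      IsMono (n₀ * wE h F l * tHom h F c) := fun l c =>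
    (hn₀.mul (isMono_wE h l)).mul (isMono_of_diag (tHom_mem h c))
  have heq := mono_eq_of_mem h (hmono l c) (hmono l' c')
    (Subgroup.mul_mem _ (Subgroup.inv_mem _ hu') hu) (Subgroup.mul_mem _ hv (Subgroup.inv_mem _ hv'))
    (by
      calc u'⁻¹ * u * (n₀ * wE h F l * tHom h F c) * (v * v'⁻¹)
          = u'⁻¹ * (u * (n₀ * wE h F l * tHom h F c) * v) * v'⁻¹ := by group
        _ = u'⁻¹ * g * v'⁻¹ := by rw [← e]
        _ = n₀ * wE h F l' * tHom h F c' := by rw [e']; group)
  have h2 : wE h F l * tHom h F (c * c'⁻¹) = wE h F l' := by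
    rw [map_mul, map_inv]
    rw [mul_assoc, mul_assoc, mul_right_inj] at heq
    rw [← mul_assoc, heq, mul_inv_cancel_right]
  obtain ⟨d, hd, ed⟩ := mem_ZK.1 (mem_ZK_of_eq h hl hl' (tHom_mem h _) h2)
  have h3 := char_eq_one hK (hinj ed ▸ hd : ∀ i ∉ K, (c * c'⁻¹) i = 1)
  rw [map_mul, map_inv, mul_inv_eq_one] at h3
  rw [h3]

theorem modelVec_zero (h : Full D A) {g : D.group F} (hg : ¬∃ c, Rep h K n₀ g c) :
    modelVec h K χ n₀ g = 0 := dif_neg hg

section Props

variable (h : Full D A) (hinj : Function.Injective (tHom h F)) (hK : ∀ i ∈ K, TrivAt χ i)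
  (hn₀ : IsMono n₀)
include hinj hK hn₀

theorem modelVec_mul_tHom (g : D.group F) (a : Fin D.rank → Fˣ) :
    modelVec h K χ n₀ (g * tHom h F a) = (χ a : F) * modelVec h K χ n₀ g := by
  have key : ∀ (g : D.group F) (a c : Fin D.rank → Fˣ), Rep h K n₀ g c →
      Rep h K n₀ (g * tHom h F a) (c * a) := by
    rintro g a c ⟨u, hu, l, hl, v, hv, e⟩
    refine ⟨u, hu, l, hl, (tHom h F a)⁻¹ * v * tHom h F a, ?_, ?_⟩
    · have := diagT_conj_posU h (Subgroup.inv_mem _ (tHom_mem h a)) hv
      rwa [inv_inv] at this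
    · rw [e, map_mul]; group
  by_cases hg : ∃ c, Rep h K n₀ g c
  · obtain ⟨c, hc⟩ := hg
    rw [modelVec_eq h hinj hK hn₀ hc,
      modelVec_eq h hinj hK hn₀ (key g a c hc), map_mul, Units.val_mul, mul_comm]
  · rw [modelVec_zero h hg, mul_zero, modelVec_zero h]
    rintro ⟨c, hc⟩
    refine hg ⟨c * a⁻¹, ?_⟩
    have := key _ a⁻¹ c hc
    rwa [mul_assoc, ← map_mul, mul_inv_cancel, map_one, mul_one] at this

theorem modelVec_mul_posU (g : D.group F) {u v : D.group F} (hu : u ∈ posU D F)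
    (hv : v ∈ posU D F) : modelVec h K χ n₀ (u * g * v) = modelVec h K χ n₀ g := by
  have key : ∀ (g u v : D.group F), u ∈ posU D F → v ∈ posU D F → ∀ c, Rep h K n₀ g c →
      Rep h K n₀ (u * g * v) c := by
    rintro g u v hu hv c ⟨a, ha, l, hl, b, hb, e⟩
    exact ⟨u * a, Subgroup.mul_mem _ hu ha, l, hl, b * v, Subgroup.mul_mem _ hb hv, by
      rw [e]; group⟩
  by_cases hg : ∃ c, Rep h K n₀ g c
  · obtain ⟨c, hc⟩ := hg
    rw [modelVec_eq h hinj hK hn₀ hc,
      modelVec_eq h hinj hK hn₀ (key g u v hu hv c hc)]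
  · rw [modelVec_zero h hg, modelVec_zero h]
    rintro ⟨c, hc⟩
    refine hg ⟨c, ?_⟩
    have := key _ u⁻¹ v⁻¹ (Subgroup.inv_mem _ hu) (Subgroup.inv_mem _ hv) c hc
    rwa [show u⁻¹ * (u * g * v) * v⁻¹ = g by group] at this

theorem modelVec_mul_nS {i : Fin D.rank} (hi : i ∈ K) (g : D.group F) (hg : IsMono g) :
    modelVec h K χ n₀ (g * nS h i) = modelVec h K χ n₀ g := by
  have fwd : ∀ n : D.group F, IsMono n → ∀ c, Rep h K n₀ n c →
      ∃ c', χ c' = χ c ∧ Rep h K n₀ (n * nS h i) c' := by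
    rintro n hn c ⟨u, hu, l, hl, v, hv, e⟩
    have e0 := mono_eq_of_mem h
      ((hn₀.mul (isMono_wE h l)).mul (isMono_of_diag (tHom_mem h c))) hn hu hv e.symm
    refine ⟨reflTorus D i c, ?_, 1, Subgroup.one_mem _, l ++ [i], fun x hx => ?_, 1,
      Subgroup.one_mem _, ?_⟩
    · rw [reflTorus, map_mul, hK i hi, mul_one]
    · rcases List.mem_append.1 hx with hx | hx
      · exact hl x hx
      · rw [List.mem_singleton] at hx; exact hx ▸ hi
    · rw [← e0, wE_append, wE_cons, show wE h F [] = 1 from rfl, mul_one, ← inv_nS_conj_tHom]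
      group
  have step : ∀ n : D.group F, IsMono n → (∃ c, Rep h K n₀ n c) →
      modelVec h K χ n₀ (n * nS h i) = modelVec h K χ n₀ n := by
    rintro n hn ⟨c, hc⟩
    obtain ⟨c', hc1, hc2⟩ := fwd n hn c hc
    rw [modelVec_eq h hinj hK hn₀ hc, modelVec_eq h hinj hK hn₀ hc2, hc1]
  by_cases hrep : ∃ c, Rep h K n₀ g c
  · exact step g hg hrep
  rw [modelVec_zero h hrep]
  by_contra hne
  have hrep' : ∃ c, Rep h K n₀ (g * nS h i) c := by_contra fun hno => hne (modelVec_zero h hno)
  have h1 := step _ (hg.mul (isMono_nS h i)) hrep'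
  rw [mul_assoc, nS_mul_self, show ChevCell.hE h i (-1 : Fˣ) = tHom h F (Pi.mulSingle i (-1)) from rfl,
    modelVec_mul_tHom h hinj hK hn₀, hK i hi, Units.val_one, one_mul, modelVec_zero h hrep]
    at h1
  exact hne h1.symm

theorem modelVec_eq_zero_of_pos (htop : IsTop h n₀) {i : Fin D.rank} (hi : i ∉ K) {n : D.group F}
    (hn : IsMono n) {σ : Equiv.Perm (Fin D.nroots)} {η : Fin D.nroots → F}
    (hA : Acts h.cert (n : GL D.Idx F) σ η) (hp : D.IsPosRoot (σ (smp h.cert i))) :
    modelVec h K χ n₀ n = 0 := by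
  refine modelVec_zero h ?_
  rintro ⟨c, u, hu, l, hl, v, hv, e⟩
  have e0 := mono_eq_of_mem h
    ((hn₀.mul (isMono_wE h l)).mul (isMono_of_diag (tHom_mem h c))) hn hu hv e.symm
  obtain ⟨σ₀, η₀, hA₀, hσ₀⟩ := htop
  obtain ⟨θ, hθ⟩ := acts_wE (F := F) h l
  have hB := (hA₀.mul hθ).mul (acts_torus h.cert c)
  rw [← coe_tHom h c, ← Subgroup.coe_mul, ← Subgroup.coe_mul, e0] at hB
  rw [hA.perm_eq hB, mul_one, Equiv.Perm.mul_apply] at hp
  have hpos : D.IsPosRoot (wPerm h.cert l (smp h.cert i)) :=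
    h.isPos_of_crd_pos (wPerm h.cert l (smp h.cert i)).isLt i.isLt (by
      rw [crd_wPerm h l hl i hi, show ((smp h.cert i : Fin D.nroots) : ℕ) = D.simple i from rfl,
        crd_simple h.cert i.isLt i.isLt, if_pos rfl]
      exact one_pos)
  exact h.pos_not_neg hp (hσ₀ _ hpos)

end Props

/-- Right translation on functions. -/
def rightRep (D : ChevalleyDatum) (F : Type*) [Field F] :
    Representation F (D.group F) (D.group F → F) where
  toFun g :=
    { toFun := fun f x => f (x * g)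
      map_add' := fun _ _ => rfl
      map_smul' := fun _ _ => rfl }
  map_one' := by ext f x; simp
  map_mul' a b := by ext f x; simp [mul_assoc]

theorem rightRep_apply (g : D.group F) (f : D.group F → F) (x : D.group F) :
    rightRep D F g f x = f (x * g) := rfl

/-- Each type of weight vector occurs. -/
theorem isHW_model (h : Full D A) (hinj : Function.Injective (tHom h F)) (χ : TorChar D F)
    (J : Finset (Fin D.rank)) (hJ : ∀ i ∈ J, TrivAt χ i) (hn₀ : IsMono n₀) (htop : IsTop h n₀) :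
    IsHW h (rightRep D F) χ J
      (modelVec h (Finset.univ.filter fun i => TrivAt χ i ∧ i ∉ J) χ n₀) := by
  set K := Finset.univ.filter fun i => TrivAt χ i ∧ i ∉ J with hKdef
  have hK : ∀ i ∈ K, TrivAt χ i := fun i hi => (Finset.mem_filter.1 hi).2.1
  set y := modelVec h K χ n₀ with hy
  have hUU := fun g {u v} hu hv => modelVec_mul_posU h hinj hK hn₀ g (u := u) (v := v) hu hv
  have hfix : IsFix (rightRep D F) y := fun u hu => funext fun x => by
    rw [rightRep_apply]
    have := hUU x (Subgroup.one_mem _) hu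
    rwa [one_mul] at this
  have hwt : IsWeight h (rightRep D F) χ y := fun c => funext fun x =>
    modelVec_mul_tHom h hinj hK hn₀ x c
  refine ⟨fun e => ?_, hfix, hwt, fun i => ?_⟩
  · have h1 : y n₀ = 1 := by
      rw [hy, modelVec_eq h hinj hK hn₀ (c := 1)
        ⟨1, Subgroup.one_mem _, [], fun x hx => absurd hx List.not_mem_nil, 1, Subgroup.one_mem _,
          by simp [wE]⟩, map_one, Units.val_one]
    rw [e] at h1
    exact zero_ne_one h1
  set a : F := if i ∈ J then (-1 : F) else 0 with hadef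
  have hfix' : IsFix (rightRep D F) (opS (rightRep D F) h i y) := by
    have h2 := opS_opT h hfix (n := 1) (Subgroup.one_mem _) (τ := 1) (θ := fun _ => 1)
      (by rw [inv_one]; exact acts_one h.cert) i (h.simple_pos i.isLt)
    rw [opT_one hfix] at h2
    rw [h2]
    exact isFix_opT hfix _
  have happ : ∀ x, opS (rightRep D F) h i y x =
      ∑ c : F, y (x * (xE h (D.simple i) c * nS h i)) := fun x => by
    rw [opS, Finset.sum_apply]
    rfl
  funext g
  obtain ⟨u, hu, n, hn, v, hv, rfl⟩ := exists_unu h g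
  have hL : opS (rightRep D F) h i y (u * n * v) = opS (rightRep D F) h i y n := by
    rw [show opS (rightRep D F) h i y (u * n * v) = opS (rightRep D F) h i y (u * n) from
      congrFun (hfix' v hv) (u * n), happ, happ]
    refine Finset.sum_congr rfl fun c _ => ?_
    have := hUU (n * (xE h (D.simple i) c * nS h i)) hu (Subgroup.one_mem _)
    rwa [mul_one, ← mul_assoc] at this
  rw [hL, Pi.smul_apply, smul_eq_mul, show y (u * n * v) = y n from hUU n hu hv, happ, sum_field_eq]
  obtain ⟨σ, η, hA⟩ := exists_acts h hn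
  rcases h.pos.pos_or_neg (σ (smp h.cert i)).isLt with hp | hp
  · have hc : ∀ c : F, y (n * (xE h (D.simple i) c * nS h i)) = y (n * nS h i) := fun c => by
      rw [show n * (xE h (D.simple i) c * nS h i) =
        (n * xE h (D.simple i) c * n⁻¹) * (n * nS h i) * 1 by group]
      exact hUU _ (conj_posU_of_pos h hA i hp c) (Subgroup.one_mem _)
    rw [← sum_field_eq (fun c => y (n * (xE h (D.simple i) c * nS h i))),
      Finset.sum_congr rfl fun c _ => hc c, Finset.sum_const, Finset.card_univ,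
      nsmul_eq_mul, card_cast_eq_zero, zero_mul]
    by_cases hiK : i ∈ K
    · rw [hadef, if_neg (Finset.mem_filter.1 hiK).2.2, zero_mul]
    · rw [hy, modelVec_eq_zero_of_pos h hinj hK hn₀ htop hiK hn hA hp, mul_zero]
  have hc : ∀ c : Fˣ, y (n * (xE h (D.simple i) (c : F) * nS h i)) =
      (χ (Pi.mulSingle i (-c)) : F) * y n := fun c => by
    rw [xE_mul_nS, show n * (yS h i ((c : F)⁻¹) * (xE h (D.simple i) (-(c : F)) *
        ChevCell.hE h i (-c))) = (n * yS h i ((c : F)⁻¹) * n⁻¹) * (n * ChevCell.hE h i (-c)) *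
        ((ChevCell.hE h i (-c))⁻¹ * xE h (D.simple i) (-(c : F)) * ChevCell.hE h i (-c)) by group]
    rw [show y _ = y (n * ChevCell.hE h i (-c)) from hUU _ (conj_posU_of_neg h hA i hp _) (by
      have := diagT_conj_posU h (Subgroup.inv_mem _ (tHom_mem h (Pi.mulSingle i (-c))))
        (xE_mem_posU h (h.simple_pos i.isLt) (-(c : F)))
      rwa [inv_inv] at this)]
    exact modelVec_mul_tHom h hinj hK hn₀ n _
  rw [Finset.sum_congr rfl fun c _ => hc c, ← Finset.sum_mul, ← lam, xE_zero, one_mul, lam_eq]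
  by_cases hiK : i ∈ K
  · obtain ⟨-, ht, hiJ⟩ := Finset.mem_filter.1 hiK
    rw [hy, modelVec_mul_nS h hinj hK hn₀ hiK n hn, if_pos ht, hadef, if_neg hiJ]
    ring
  · obtain ⟨θ, hB⟩ := acts_nS (F := F) h i
    rw [hy, modelVec_eq_zero_of_pos h hinj hK hn₀ htop hiK (IsMono.mul hn (isMono_nS h i))
      (hA.mul hB) (by
        rw [Equiv.Perm.mul_apply, rfPerm_apply, rf_smp, hA.neg]
        exact h.neg_isPos hp), zero_add, hadef]
    by_cases hiJ : i ∈ J
    · rw [if_pos (hJ i hiJ), if_pos hiJ]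
    · rw [if_neg hiJ, if_neg]
      exact fun ht => hiK (Finset.mem_filter.2 ⟨Finset.mem_univ _, ht, hiJ⟩)

end CfsgLib.ClassK.Weights
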