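import Cfsg.Agent.Lib.ClassK.ChevalleyCosetOps
import Cfsg.Agent.Lib.InvCentralizers.ChevalleySteinberg

/-!
Weight vectors of Curtis and Richen in representations of a Chevalley group over its own field:
their existence, and generation by the translates at the longest element.
-/

set_option autoImplicit false
set_option linter.style.haveILetI false
set_option linter.unusedSectionVars false

open Cfsg.Lie CfsgLib.Chevalley
open scoped Classical

namespace CfsgLib.ClassK.Weights

open CfsgLib.ClassK.ChevCell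

variable {D : ChevalleyDatum} {A : Aux} {F : Type*} [Field F] [Fintype F]
variable {V : Type*} [AddCommGroup V] [Module F V]

/-- Characters of the torus of parameters. -/
abbrev TorChar (D : ChevalleyDatum) (F : Type*) [Field F] : Type _ := (Fin D.rank → Fˣ) →* Fˣ

/-- The character is trivial on the `i`-th coordinate. -/
def TrivAt (χ : TorChar D F) (i : Fin D.rank) : Prop := ∀ a : Fˣ, χ (Pi.mulSingle i a) = 1

/-- The torus acts on `v` through `χ`. -/
def IsWeight (h : Full D A) (ρ : Representation F (D.group F) V) (χ : TorChar D F) (v : V) : Prop :=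
  ∀ c, ρ (tHom h F c) v = (χ c : F) • v

/-- A weight vector of type `(χ, J)`. -/
structure IsHW (h : Full D A) (ρ : Representation F (D.group F) V) (χ : TorChar D F)
    (J : Finset (Fin D.rank)) (v : V) : Prop where
  /-- not zero -/
  ne : v ≠ 0
  /-- fixed by `U` -/
  fix : IsFix ρ v
  /-- weight -/
  weight : IsWeight h ρ χ v
  /-- eigenvalues of the rank-one operators -/
  op : ∀ i, opS ρ h i v = (if i ∈ J then (-1 : F) else 0) • v

theorem sum_field_eq {M : Type*} [AddCommMonoid M] (f : F → M) :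
    ∑ c : F, f c = f 0 + ∑ u : Fˣ, f (u : F) := by
  classical
  rw [← Finset.add_sum_erase _ f (Finset.mem_univ 0)]
  congr 1
  symm
  refine Finset.sum_bij (fun u _ => (u : F)) (fun u _ => Finset.mem_erase.2 ⟨u.ne_zero, Finset.mem_univ _⟩)
    (fun u _ w _ e => Units.ext e) (fun c hc => ?_) (fun u _ => rfl)
  exact ⟨Units.mk0 c (Finset.ne_of_mem_erase hc), Finset.mem_univ _, rfl⟩

/-- The eigenvalue attached to a coordinate. -/
noncomputable def lam (χ : TorChar D F) (i : Fin D.rank) : F :=
  ∑ c : Fˣ, (χ (Pi.mulSingle i (-c)) : F)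

theorem lam_eq (χ : TorChar D F) (i : Fin D.rank) :
    lam χ i = if TrivAt χ i then -1 else 0 := by
  classical
  have e : lam χ i = ∑ c : Fˣ, (χ (Pi.mulSingle i c) : F) :=
    Fintype.sum_equiv (Equiv.neg Fˣ) _ _ fun c => rfl
  split_ifs with ht
  · rw [e, Finset.sum_congr rfl fun c _ => by rw [ht c, Units.val_one]]
    rw [Finset.sum_const, Finset.card_univ, Fintype.card_units, nsmul_eq_mul, mul_one,
      Nat.cast_sub Fintype.card_pos, card_cast_eq_zero, Nat.cast_one, zero_sub]
  · obtain ⟨a, ha⟩ := not_forall.1 ht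
    have h1 : (χ (Pi.mulSingle i a) : F) * lam χ i = lam χ i := by
      rw [e, Finset.mul_sum]
      exact Fintype.sum_equiv (Equiv.mulLeft a) _ _ fun c => by
        rw [← Units.val_mul, ← map_mul, ← Pi.mulSingle_mul]; rfl
    by_contra hne
    exact ha (Units.ext (by simpa using mul_right_cancel₀ hne (h1.trans (one_mul _).symm)))

variable {ρ : Representation F (D.group F) V} {v : V} {χ : TorChar D F}

theorem IsWeight.diag (h : Full D A) (hw : IsWeight h ρ χ v) {t : D.group F}
    (ht : t ∈ diagT D F) : ∃ a : F, a ≠ 0 ∧ ρ t v = a • v := by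
  obtain ⟨c, rfl⟩ := (mem_diagT_iff h).1 ht
  exact ⟨_, (χ c).ne_zero, hw c⟩

theorem IsWeight.hE (h : Full D A) (hw : IsWeight h ρ χ v) (i : Fin D.rank) (a : Fˣ) :
    ρ (ChevCell.hE h i a) v = (χ (Pi.mulSingle i a) : F) • v :=
  hw _

/-- The rank-one operator on a weight vector. -/
theorem opS_eq (h : Full D A) (hv : IsFix ρ v) (hw : IsWeight h ρ χ v) (i : Fin D.rank) :
    opS ρ h i v = ρ (nS h i) v +
      ∑ c : Fˣ, (χ (Pi.mulSingle i (-c)) : F) • ρ (yS h i ((c : F)⁻¹)) v := by
  rw [opS, sum_field_eq]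
  congr 1
  · rw [xE_zero, one_mul]
  · refine Finset.sum_congr rfl fun c _ => ?_
    rw [xE_mul_nS, map_mul, map_mul, Module.End.mul_apply, Module.End.mul_apply, hw.hE,
      map_smul, hv _ (xE_mem_posU h (h.simple_pos i.isLt) _), map_smul]

theorem opS_smul (h : Full D A) (i : Fin D.rank) (a : F) (w : V) :
    opS ρ h i (a • w) = a • opS ρ h i w := by
  simp only [opS, map_smul, Finset.smul_sum]

/-- The square of the rank-one operator on a weight vector. -/
theorem opS_opS (h : Full D A) (hv : IsFix ρ v) (hw : IsWeight h ρ χ v) (i : Fin D.rank) :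
    opS ρ h i (opS ρ h i v) = lam χ i • opS ρ h i v := by
  conv_lhs => rw [opS, opS_eq h hv hw i]
  simp only [map_add, map_sum, map_smul]
  rw [Finset.sum_add_distrib]
  have h1 : ∑ c : F, ρ (xE h (D.simple i) c * nS h i) (ρ (nS h i) v) = 0 := by
    have hx : ∀ c : F, ρ (xE h (D.simple i) c * nS h i) (ρ (nS h i) v) =
        (χ (Pi.mulSingle i (-1)) : F) • v := fun c => by
      rw [← Module.End.mul_apply, ← map_mul, mul_assoc, nS_mul_self, map_mul, Module.End.mul_apply,
        hw.hE, map_smul, hv _ (xE_mem_posU h (h.simple_pos i.isLt) _)]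
    rw [Finset.sum_congr rfl fun c _ => hx c, Finset.sum_const, Finset.card_univ,
      ← Nat.cast_smul_eq_nsmul F, card_cast_eq_zero, zero_smul]
  rw [h1, zero_add, Finset.sum_comm, lam, Finset.sum_smul]
  refine Finset.sum_congr rfl fun d _ => ?_
  rw [← Finset.smul_sum]
  congr 1
  -- the negative element turns into a shift of the parameter
  obtain ⟨η, hA⟩ := acts_nS (F := F) h i
  have hconj := hA.conj (ngR h.cert (smp h.cert i)) ((d : F)⁻¹)
  rw [rfPerm_apply, rf_ngR, rf_smp, ngR_ngR] at hconj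
  set e := η (ngR h.cert (smp h.cert i)) * (d : F)⁻¹
  have e1 : nS h i * yS h i ((d : F)⁻¹) = xE h (D.simple i) e * nS h i :=
    mul_inv_eq_iff_eq_mul.1 (Subtype.ext hconj)
  rw [opS]
  refine Fintype.sum_equiv (Equiv.addRight e) _ _ fun c => ?_
  rw [Equiv.coe_addRight, ← Module.End.mul_apply, ← map_mul, mul_assoc, e1, ← mul_assoc, xE_mul]

/-- The number of positive roots kept positive. -/
noncomputable def keep (D : ChevalleyDatum) (σ : Equiv.Perm (Fin D.nroots)) : ℕ :=
  (Finset.univ.filter fun r : Fin D.nroots => D.IsPosRoot r ∧ D.IsPosRoot (σ r)).card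

theorem keep_mul_rf (h : Full D A) {g : GL D.Idx F} {σ : Equiv.Perm (Fin D.nroots)}
    {η : Fin D.nroots → F} (hA : Acts h.cert g σ η) (i : Fin D.rank)
    (hp : D.IsPosRoot (σ (smp h.cert i))) :
    keep D (σ * rfPerm h.cert i) < keep D σ := by
  classical
  have hnot : ∀ r : Fin D.nroots, D.IsPosRoot r → D.IsPosRoot (σ (rf h.cert i r)) →
      r ≠ smp h.cert i := by
    rintro r - h2 rfl
    rw [rf_smp, hA.neg] at h2
    exact h.pos_not_neg h2 (h.neg_isNeg hp)
  set S := Finset.univ.filter fun r : Fin D.nroots => D.IsPosRoot r ∧ D.IsPosRoot (σ r) with hS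
  refine lt_of_le_of_lt (Finset.card_le_card_of_injOn (rf h.cert i)
    (t := S.erase (smp h.cert i)) ?_ ?_) (Finset.card_erase_lt_of_mem ?_)
  · intro r hr
    replace hr := (Finset.mem_filter.1 (Finset.mem_coe.1 hr)).2
    simp only [Equiv.Perm.mul_apply, rfPerm_apply] at hr
    have hne := hnot r hr.1 hr.2
    rw [Finset.mem_coe, Finset.mem_erase, hS, Finset.mem_filter]
    refine ⟨fun e => ?_, Finset.mem_univ _, h.rf_ne_simple_pos i hr.1 hne, hr.2⟩
    have e' := congrArg (rf h.cert i) e
    rw [rf_rf, rf_smp] at e'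
    have h1 := hr.1
    rw [e'] at h1
    exact h.pos_not_neg h1 (h.neg_isNeg (h.simple_pos i.isLt))
  · exact fun a _ b _ e => by simpa [rf_rf] using congrArg (rf h.cert i) e
  · rw [hS, Finset.mem_filter]
    exact ⟨Finset.mem_univ _, h.simple_pos i.isLt, hp⟩

/-- The span of the translates by `U n₀`. -/
theorem mem_span_top (h : Full D A) {J : Finset (Fin D.rank)} (hv : IsHW h ρ χ J v)
    {n₀ : D.group F} (hn₀ : IsMono n₀) (htop : IsTop h n₀) (g : D.group F) :
    ρ g v ∈ Submodule.span F {w : V | ∃ u ∈ posU D F, w = ρ (u * n₀) v} := by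
  classical
  set S := Submodule.span F {w : V | ∃ u ∈ posU D F, w = ρ (u * n₀) v} with hS
  have hU : ∀ u ∈ posU D F, ∀ w ∈ S, ρ u w ∈ S := by
    intro u hu w hw
    induction hw using Submodule.span_induction with
    | mem w hw =>
      obtain ⟨u', hu', rfl⟩ := hw
      exact Submodule.subset_span ⟨u * u', Subgroup.mul_mem _ hu hu', by
        rw [← Module.End.mul_apply, ← map_mul, mul_assoc]⟩
    | zero => rw [map_zero]; exact S.zero_mem
    | add a b _ _ ha hb => rw [map_add]; exact S.add_mem ha hb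
    | smul c a _ ha => rw [map_smul]; exact S.smul_mem c ha
  have hmono : ∀ m : ℕ, ∀ n : D.group F, IsMono n → ∀ σ η, Acts h.cert (n : GL D.Idx F) σ η →
      keep D σ = m → ρ n v ∈ S := by
    intro m
    induction m using Nat.strong_induction_on with
    | _ m ih =>
      intro n hn σ η hA hm
      by_cases hneg : ∀ i : Fin D.rank, D.IsNegRoot (σ (smp h.cert i))
      · obtain ⟨t, ht, rfl⟩ := IsTop.exists_eq_mul h hn hn₀
          ⟨σ, η, hA, fun r hr => hA.isNeg_of_simple h hneg hr⟩ htop
        obtain ⟨a, -, ha⟩ := hv.weight.diag h (hn₀.conj_diagT' h ht)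
        rw [show t * n₀ = n₀ * (n₀⁻¹ * t * n₀) by group, map_mul, Module.End.mul_apply, ha, map_smul]
        exact S.smul_mem a (Submodule.subset_span ⟨1, Subgroup.one_mem _, by rw [one_mul]⟩)
      push Not at hneg
      obtain ⟨i, hi⟩ := hneg
      have hp := (h.pos.pos_or_neg (σ (smp h.cert i)).isLt).resolve_right hi
      obtain ⟨θ, hB⟩ := acts_nS (F := F) h i
      have hlow : ρ (n * nS h i) v ∈ S :=
        ih _ (hm ▸ keep_mul_rf h hA i hp) _ (hn.mul (isMono_nS h i)) _ _ (hA.mul hB) rfl
      have hall : ∀ c : F, ρ n (ρ (xE h (D.simple i) c * nS h i) v) ∈ S := fun c => by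
        rw [← Module.End.mul_apply, ← map_mul, show n * (xE h (D.simple i) c * nS h i) =
          (n * xE h (D.simple i) c * n⁻¹) * (n * nS h i) by group, map_mul, Module.End.mul_apply]
        exact hU _ (conj_posU_of_pos h hA i hp c) _ hlow
      suffices hv' : v ∈ Submodule.span F
          (Set.range fun c : F => ρ (xE h (D.simple i) c * nS h i) v) by
        refine (Submodule.span_le.2 ?_) (Submodule.mem_map_of_mem (f := ρ n) hv' |> fun hh => by
          rwa [Submodule.map_span] at hh)
        rintro _ ⟨_, ⟨c, rfl⟩, rfl⟩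
        exact hall c
      set W := Submodule.span F (Set.range fun c : F => ρ (xE h (D.simple i) c * nS h i) v)
      have hgen : ∀ c : F, ρ (xE h (D.simple i) c * nS h i) v ∈ W := fun c =>
        Submodule.subset_span ⟨c, rfl⟩
      have hop := hv.op i
      by_cases hiJ : i ∈ J
      · rw [if_pos hiJ, neg_one_smul] at hop
        rw [show v = -opS ρ h i v by rw [hop, neg_neg], opS]
        exact W.neg_mem (W.sum_mem fun c _ => hgen c)
      rw [if_neg hiJ, zero_smul, opS_eq h hv.fix hv.weight i, add_eq_zero_iff_eq_neg] at hop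
      obtain ⟨a, ha, hinv⟩ : ∃ a : F, a ≠ 0 ∧ ρ (nS h i)⁻¹ v = a • ρ (nS h i) v := by
        obtain ⟨a, ha, e⟩ := hv.weight.diag h (Subgroup.inv_mem _ (tHom_mem h (Pi.mulSingle i (-1 : Fˣ))))
        refine ⟨a, ha, ?_⟩
        rw [nS_inv, map_mul, Module.End.mul_apply, ← map_smul, ← e]
        rfl
      have e2 := congrArg (ρ (nS h i)⁻¹) hop
      rw [← Module.End.mul_apply, ← map_mul, inv_mul_cancel, map_one, Module.End.one_apply] at e2
      rw [e2, map_neg, map_sum]
      refine W.neg_mem (W.sum_mem fun c _ => ?_)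
      rw [map_smul]
      refine W.smul_mem _ ?_
      obtain ⟨e', he'⟩ := nS_conj_xE h i ((c : F)⁻¹)
      rw [← Module.End.mul_apply, ← map_mul, ← he', ← mul_assoc, ← mul_assoc, inv_mul_cancel,
        one_mul, map_mul, Module.End.mul_apply, hinv, map_smul, ← Module.End.mul_apply, ← map_mul]
      exact W.smul_mem _ (hgen e')
  obtain ⟨u, hu, n, hn, u', hu', rfl⟩ := exists_unu h g
  obtain ⟨σ, η, hA⟩ := exists_acts h hn
  rw [map_mul, map_mul, Module.End.mul_apply, Module.End.mul_apply, hv.fix u' hu']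
  exact hU u hu _ (hmono _ n hn σ η hA rfl)

variable [FiniteDimensional F V]

theorem exists_fixed {p : ℕ} [Fact p.Prime] [CharP F p] (h : Full D A) [Nontrivial V] :
    ∃ v : V, v ≠ 0 ∧ IsFix ρ v := by
  haveI : Finite V := Module.finite_of_finite F
  letI : MulAction (posU D F) V :=
    { smul := fun u w => ρ (u : D.group F) w
      one_smul := fun w => by show ρ ((1 : posU D F) : D.group F) w = w; simp
      mul_smul := fun a b w => by
        show ρ ((a * b : posU D F) : D.group F) w = ρ (a : D.group F) (ρ (b : D.group F) w)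
        simp [map_mul] }
  have hP : IsPGroup p (posU D F) :=
    (CfsgLib.InvCentralizers.ChevalleySteinberg.isPGroup_U h).of_equiv
      (Subgroup.subgroupOfEquivOfLe ((le_sup_left :
        D.posUnipotent F ≤ D.borelSubgroup F).trans (borel_le_group h.cert))).symm
  have hdvd : p ∣ Nat.card V := by
    obtain ⟨n, -, hn⟩ := FiniteField.card F p
    rw [Module.natCard_eq_pow_finrank (K := F) (V := V), Nat.card_eq_fintype_card, hn, ← pow_mul]
    exact dvd_pow_self p (Nat.mul_ne_zero n.ne_zero (Module.finrank_pos).ne')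
  obtain ⟨b, hb, hb0⟩ := hP.exists_fixed_point_of_prime_dvd_card_of_fixed_point V hdvd
    (a := 0) (fun u => map_zero (ρ (u : D.group F)))
  exact ⟨b, fun e => hb0 e.symm, fun u hu => hb ⟨u, hu⟩⟩

theorem exists_eigen (r : Fˣ →* Module.End F V) (W : Submodule F V)
    (hW : ∀ c, ∀ w ∈ W, r c w ∈ W) {w : V} (hw : w ∈ W) (hw0 : w ≠ 0) :
    ∃ (ψ : Fˣ →* Fˣ) (u : V), u ∈ W ∧ u ≠ 0 ∧ ∀ c, r c u = (ψ c : F) • u := by
  classical
  set m := Fintype.card F - 1 with hm
  have hpow : ∀ b : Fˣ, b ^ m = 1 := fun b => by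
    rw [hm, ← Fintype.card_units]; exact pow_card_eq_one
  let vec : ℕ → V := fun j => ∑ b : Fˣ, (((b : F)⁻¹) ^ j) • r b w
  have hsum : ∑ j ∈ Finset.range m, vec j = -w := by
    rw [Finset.sum_comm]
    simp only [← Finset.sum_smul]
    rw [Finset.sum_eq_single 1]
    · simp only [Units.val_one, inv_one, one_pow, Finset.sum_const, Finset.card_range,
        nsmul_eq_mul, mul_one, map_one, Module.End.one_apply]
      rw [hm, Nat.cast_sub Fintype.card_pos, card_cast_eq_zero, Nat.cast_one, zero_sub, neg_one_smul]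
    · intro b _ hb
      have hne : ((b : F)⁻¹) ≠ 1 := fun e => hb (Units.ext (by simpa using e))
      rw [geom_sum_eq hne, show ((b : F)⁻¹) ^ m = 1 by
        rw [inv_pow, ← Units.val_pow_eq_pow_val, hpow, Units.val_one, inv_one], sub_self, zero_div,
        zero_smul]
    · simp
  obtain ⟨j, -, hj⟩ := Finset.exists_ne_zero_of_sum_ne_zero (hsum ▸ neg_ne_zero.2 hw0)
  refine ⟨powMonoidHom j, vec j, W.sum_mem fun b _ => W.smul_mem _ (hW b w hw), hj, fun c => ?_⟩
  simp only [vec, map_sum, map_smul, Finset.smul_sum, powMonoidHom_apply, Units.val_pow_eq_pow_val]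
  refine Fintype.sum_equiv (Equiv.mulLeft c) _ _ fun b => ?_
  rw [Equiv.coe_mulLeft, smul_smul, ← Module.End.mul_apply, ← map_mul]
  congr 1
  rw [Units.val_mul, ← mul_pow, mul_inv, ← mul_assoc, mul_inv_cancel₀ c.ne_zero, one_mul]

theorem exists_weight (h : Full D A) {w : V} (hw : IsFix ρ w) (hw0 : w ≠ 0) :
    ∃ (χ : TorChar D F) (u : V), u ≠ 0 ∧ IsFix ρ u ∧ IsWeight h ρ χ u := by
  classical
  suffices key : ∀ s : Finset (Fin D.rank), ∃ (ψ : Fin D.rank → Fˣ →* Fˣ) (u : V), u ≠ 0 ∧
      IsFix ρ u ∧ ∀ i ∈ s, ∀ a : Fˣ, ρ (ChevCell.hE h i a) u = (ψ i a : F) • u by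
    obtain ⟨ψ, u, hu0, hu, hs⟩ := key Finset.univ
    refine ⟨∏ i, (ψ i).comp (Pi.evalMonoidHom _ i), u, hu0, hu, fun c => ?_⟩
    rw [MonoidHom.finsetProd_apply]
    conv_lhs => rw [← Finset.univ_prod_mulSingle c]
    suffices h2 : ∀ s : Finset (Fin D.rank), ρ (tHom h F (∏ i ∈ s, Pi.mulSingle i (c i))) u =
        ((∏ i ∈ s, (ψ i).comp (Pi.evalMonoidHom _ i) c : Fˣ) : F) • u from h2 _
    intro s
    induction s using Finset.induction_on with
    | empty => simp
    | insert i s hi ih =>
      rw [Finset.prod_insert hi, Finset.prod_insert hi, map_mul, map_mul, Module.End.mul_apply, ih,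
        map_smul, show tHom h F (Pi.mulSingle i (c i)) = ChevCell.hE h i (c i) from rfl,
        hs i (Finset.mem_univ i), smul_smul, Units.val_mul, mul_comm]
      rfl
  intro s
  induction s using Finset.induction_on with
  | empty => exact ⟨fun _ => 1, w, hw0, hw, fun i hi => absurd hi (Finset.notMem_empty i)⟩
  | insert i s hi ih =>
    obtain ⟨ψ, u, hu0, hu, hs⟩ := ih
    let W : Submodule F V :=
      { carrier := {x | IsFix ρ x ∧ ∀ k ∈ s, ∀ a : Fˣ, ρ (ChevCell.hE h k a) x = (ψ k a : F) • x}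
        add_mem' := fun {a b} ha hb => ⟨fun g hg => by rw [map_add, ha.1 g hg, hb.1 g hg],
          fun k hk c => by rw [map_add, ha.2 k hk c, hb.2 k hk c, smul_add]⟩
        zero_mem' := ⟨fun g _ => map_zero _, fun k _ c => by rw [map_zero, smul_zero]⟩
        smul_mem' := fun r x hx => ⟨fun g hg => by rw [map_smul, hx.1 g hg],
          fun k hk c => by rw [map_smul, hx.2 k hk c, smul_comm]⟩ }
    let r : Fˣ →* Module.End F V :=
      (ρ.comp (tHom h F)).comp (MonoidHom.mulSingle (fun _ : Fin D.rank => Fˣ) i)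
    have hW : ∀ c, ∀ x ∈ W, r c x ∈ W := by
      intro c x hx
      change IsFix ρ (ρ (ChevCell.hE h i c) x) ∧ ∀ k ∈ s, ∀ a : Fˣ,
        ρ (ChevCell.hE h k a) (ρ (ChevCell.hE h i c) x) = (ψ k a : F) • ρ (ChevCell.hE h i c) x
      refine ⟨fun g hg => ?_, fun k hk a => ?_⟩
      · have h1 := diagT_conj_posU h (Subgroup.inv_mem _ (tHom_mem h (Pi.mulSingle i c))) hg
        rw [inv_inv] at h1
        rw [← Module.End.mul_apply, ← map_mul, show g * ChevCell.hE h i c =
          ChevCell.hE h i c * ((ChevCell.hE h i c)⁻¹ * g * ChevCell.hE h i c) by group, map_mul,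
          Module.End.mul_apply]
        congr 1
        exact hx.1 _ h1
      · rw [← Module.End.mul_apply, ← map_mul, show ChevCell.hE h k a * ChevCell.hE h i c =
            ChevCell.hE h i c * ChevCell.hE h k a from diagT_comm h (tHom_mem h _) (tHom_mem h _), map_mul,
          Module.End.mul_apply, hx.2 k hk a, map_smul]
    obtain ⟨φ, x, hx, hx0, hxe⟩ := exists_eigen r W hW (show u ∈ W from ⟨hu, hs⟩) hu0
    refine ⟨Function.update ψ i φ, x, hx0, hx.1, fun k hk a => ?_⟩
    rcases Finset.mem_insert.1 hk with rfl | hk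
    · rw [Function.update_self]; exact hxe a
    · rw [Function.update_of_ne (fun e : k = i => hi (e ▸ hk))]
      exact hx.2 k hk a

theorem isHW_exists {p : ℕ} [Fact p.Prime] [CharP F p] (h : Full D A) [Nontrivial V] :
    ∃ (χ : TorChar D F) (J : Finset (Fin D.rank)) (v : V),
      (∀ i ∈ J, TrivAt χ i) ∧ IsHW h ρ χ J v := by
  classical
  obtain ⟨w, hw0, hw⟩ := exists_fixed (ρ := ρ) (p := p) h
  obtain ⟨χ₀, v, hv0, hv, hvw⟩ := exists_weight (ρ := ρ) h hw hw0
  let P : ℕ → Prop := fun m => ∃ n : D.group F, IsMono n ∧ opT ρ n v ≠ 0 ∧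
    ∃ τ θ, Acts h.cert ((n⁻¹ : D.group F) : GL D.Idx F) τ θ ∧ keep D τ = m
  have hex : ∃ m, P m := ⟨_, 1, Subgroup.one_mem _, by rwa [opT_one hv], 1, _,
    by rw [inv_one]; exact acts_one h.cert, rfl⟩
  obtain ⟨n, hn, hne, τ, θ, hA, hkeep⟩ := Nat.find_spec hex
  set u := opT ρ n v
  have hu : IsFix ρ u := isFix_opT hv n
  -- a vector produced by an operator is again a weight vector
  have hweight : ∀ {m : D.group F}, IsMono m → opT ρ m v ≠ 0 →
      ∃ χ : TorChar D F, IsWeight h ρ χ (opT ρ m v) := by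
    intro m hm hm0
    have ha : ∀ c, ∃ a : Fˣ, ρ (tHom h F c) (opT ρ m v) = (a : F) • opT ρ m v := fun c => by
      obtain ⟨a, ha0, ha⟩ := hvw.diag h (hm.conj_diagT' h (tHom_mem h c))
      exact ⟨Units.mk0 a ha0, opT_weight h hv hm (tHom_mem h c) ha⟩
    choose f hf using ha
    have huniq : ∀ {a b : Fˣ}, (a : F) • opT ρ m v = (b : F) • opT ρ m v → a = b :=
      fun e => Units.ext (smul_left_injective F hm0 e)
    refine ⟨{ toFun := f, map_one' := huniq ?_, map_mul' := fun c d => huniq ?_ }, hf⟩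
    · rw [← hf, map_one, map_one, Module.End.one_apply, Units.val_one, one_smul]
    · rw [← hf, map_mul, map_mul, Module.End.mul_apply, hf, map_smul, hf, smul_smul, Units.val_mul,
        mul_comm]
  obtain ⟨χ, hχ⟩ := hweight hn hne
  have hop : ∀ i, opS ρ h i u = 0 ∨ (TrivAt χ i ∧ opS ρ h i u = -u) := by
    intro i
    have hB := acts_nG_simple (F := F) h i (neg_ne_zero.2 one_ne_zero : (-1 : F) ≠ 0)
    rcases h.pos.pos_or_neg (τ (smp h.cert i)).isLt with hp | hp
    · refine Or.inl ?_
      rw [opS_opT h hv hn hA i hp]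
      by_contra hne'
      have hAB : ∃ θ', Acts h.cert (((nS h i * n)⁻¹ : D.group F) : GL D.Idx F)
          (τ * rfPerm h.cert i) θ' := ⟨_, by
        rw [mul_inv_rev, nS, nE_inv]
        exact hA.mul hB⟩
      obtain ⟨θ', hAB⟩ := hAB
      exact Nat.find_min hex (m := keep D (τ * rfPerm h.cert i))
        (by rw [← hkeep]; exact keep_mul_rf h hA i hp)
        ⟨nS h i * n, (isMono_nS h i).mul hn, hne', τ * rfPerm h.cert i, θ', hAB, rfl⟩
    · have hm : IsMono ((nS h i)⁻¹ * n) := (isMono_nS h i).inv.mul hn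
      have hAm := hA.mul (acts_nS (F := F) h i).choose_spec
      have hpm : D.IsPosRoot ((τ * rfPerm h.cert i) (smp h.cert i)) := by
        rw [Equiv.Perm.mul_apply, rfPerm_apply, rf_smp, hA.neg]
        exact h.neg_isPos hp
      have hu_eq : opS ρ h i (opT ρ ((nS h i)⁻¹ * n) v) = u := by
        rw [opS_opT h hv hm (τ := τ * rfPerm h.cert i) (by
          rw [mul_inv_rev, inv_inv]; exact hAm) i hpm, mul_inv_cancel_left]
      set w := opT ρ ((nS h i)⁻¹ * n) v
      have hw0 : w ≠ 0 := fun e => hne (by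
        rw [← hu_eq, e, opS]; simp)
      have hwf : IsFix ρ w := isFix_opT hv _
      obtain ⟨ψ, hψ⟩ := hweight hm hw0
      have hsq : opS ρ h i u = lam ψ i • u := by
        conv_lhs => rw [← hu_eq]
        rw [opS_opS h hwf hψ i, hu_eq]
      by_cases htr : TrivAt ψ i
      · rw [lam_eq, if_pos htr, neg_one_smul] at hsq
        refine Or.inr ⟨fun a => ?_, hsq⟩
        have h1 : opT ρ (nS h i) w = u := by
          have h2 := opS_opT h hwf (n := 1) (Subgroup.one_mem _) (τ := 1) (θ := fun _ => 1)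
            (by rw [inv_one]; exact acts_one h.cert) i (h.simple_pos i.isLt)
          rw [opT_one hwf, mul_one, hu_eq] at h2
          exact h2.symm
        have h3 := opT_weight h hwf (isMono_nS h i) (tHom_mem h (Pi.mulSingle i a)) (a := 1) (by
          rw [show tHom h F (Pi.mulSingle i a) = ChevCell.hE h i a from rfl,
            show a = a⁻¹⁻¹ from (inv_inv a).symm, ← nS_conj_hE,
            show (nS h i)⁻¹ * (nS h i * ChevCell.hE h i a⁻¹ * (nS h i)⁻¹) * nS h i =
              ChevCell.hE h i a⁻¹ by group, hψ.hE, htr a⁻¹, Units.val_one])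
        rw [h1, hχ, one_smul] at h3
        exact Units.ext (by simpa using smul_left_injective F hne (h3.trans (one_smul F u).symm))
      · exact Or.inl (by rw [hsq, lam_eq, if_neg htr, zero_smul])
  refine ⟨χ, Finset.univ.filter fun i => TrivAt χ i ∧ opS ρ h i u = -u, u,
    fun i hi => (Finset.mem_filter.1 hi).2.1, hne, hu, hχ, fun i => ?_⟩
  simp only [Finset.mem_filter, Finset.mem_univ, true_and]
  split_ifs with hc
  · rw [neg_one_smul]; exact hc.2
  · rw [zero_smul]
    exact (hop i).resolve_right hc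

end CfsgLib.ClassK.Weights
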