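import Cfsg.Prelude.Def_LinearParabolics

/-!
# Block labels of compositions and the double cosets of Young subgroups
-/

set_option autoImplicit false

open Cfsg

namespace CfsgLib.ClassK.Comp

variable {n : ℕ}

theorem compLabel_mono (μ : Fin n → ℕ) : Monotone (compLabel μ) := fun i j h =>
  Finset.card_le_card fun x hx => by
    simp only [Finset.mem_filter, Finset.mem_univ, true_and] at hx ⊢
    exact hx.trans (Fin.le_def.1 h)

/-- The blocks are consecutive runs. -/
theorem compLabel_eq_iff (μ : Fin n → ℕ) (i k : Fin n) : compLabel μ i = k.val ↔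
    (∑ x ∈ Finset.univ.filter (fun x : Fin n => x < k), μ x) ≤ i.val ∧
      i.val < (∑ x ∈ Finset.univ.filter (fun x : Fin n => x < k), μ x) + μ k := by
  classical
  set S : Fin n → ℕ := fun j => ∑ x ∈ Finset.univ.filter (fun x : Fin n => x ≤ j), μ x with hS
  have hmono : ∀ a b : Fin n, a ≤ b → S a ≤ S b := fun a b hab =>
    Finset.sum_le_sum_of_subset fun x hx => by
      simp only [Finset.mem_filter, Finset.mem_univ, true_and] at hx ⊢
      exact hx.trans hab
  set A := Finset.univ.filter fun j : Fin n => S j ≤ i.val with hA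
  have hlabA : compLabel μ i = A.card := rfl
  have hcl : ∀ a b : Fin n, a ≤ b → b ∈ A → a ∈ A := fun a b hab hb => by
    simp only [hA, Finset.mem_filter, Finset.mem_univ, true_and] at hb ⊢
    exact (hmono a b hab).trans hb
  have hiff : ∀ j : Fin n, S j ≤ i.val ↔ j.val < A.card := by
    intro j
    constructor
    · intro hj
      have hsub : Finset.Iic j ⊆ A :=
        fun x hx => hcl x j (Finset.mem_Iic.1 hx) (by simp [hA, hj])
      have := Finset.card_le_card hsub
      rw [Fin.card_Iic] at this
      omega
    · intro hj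
      by_contra hn
      have hsub : A ⊆ Finset.Iio j := fun x hx => Finset.mem_Iio.2 (by
        by_contra hx'
        exact hn ((hmono j x (not_lt.1 hx')).trans (Finset.mem_filter.1 hx).2))
      have := Finset.card_le_card hsub
      rw [Fin.card_Iio] at this
      omega
  have hstep : S k = (∑ x ∈ Finset.univ.filter (fun x : Fin n => x < k), μ x) + μ k := by
    simp only [hS]
    rw [← Finset.sum_erase_add _ _ (show k ∈ Finset.univ.filter (fun x : Fin n => x ≤ k) by simp)]
    congr 1
    refine Finset.sum_congr ?_ fun _ _ => rfl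
    ext x
    simp [lt_iff_le_and_ne, and_comm]
  have hprev : ∀ h0 : 0 < k.val, S ⟨k.val - 1, by omega⟩ =
      ∑ x ∈ Finset.univ.filter (fun x : Fin n => x < k), μ x := by
    intro h0
    simp only [hS]
    refine Finset.sum_congr ?_ fun _ _ => rfl
    ext x
    simp only [Finset.mem_filter, Finset.mem_univ, true_and, Fin.lt_def, Fin.le_def]
    omega
  rw [hlabA, ← hstep]
  constructor
  · intro hk
    refine ⟨?_, ?_⟩
    · rcases Nat.eq_zero_or_pos k.val with h0 | h0
      · rw [Finset.filter_false_of_mem (fun x _ => by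
          simp only [Fin.lt_def, h0]; exact Nat.not_lt_zero _)]
        simp
      · rw [← hprev h0]
        exact (hiff _).2 (by rw [hk]; simp; omega)
    · by_contra hc
      have := (hiff k).1 (not_lt.1 hc)
      omega
  · rintro ⟨h1, h2⟩
    have hk1 : ¬ k.val < A.card := fun h => by have := (hiff k).2 h; omega
    rcases Nat.eq_zero_or_pos k.val with h0 | h0
    · omega
    · have h3 := (hiff ⟨k.val - 1, by omega⟩).1 (by rw [hprev h0]; exact h1)
      simp only at h3
      omega

variable {μ : Fin n → ℕ} (hμ : ∑ i, μ i = n)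
include hμ

theorem compLabel_lt (i : Fin n) : compLabel μ i < n := by
  have hn : 0 < n := i.pos
  have hcard : (Finset.univ.filter fun j : Fin n =>
      (∑ k ∈ Finset.univ.filter (fun k : Fin n => k ≤ j), μ k) ≤ i.val).card <
      (Finset.univ : Finset (Fin n)).card := by
    refine Finset.card_lt_card (Finset.ssubset_iff_of_subset (Finset.filter_subset _ _) |>.2
      ⟨⟨n - 1, by omega⟩, Finset.mem_univ _, ?_⟩)
    simp only [Finset.mem_filter, Finset.mem_univ, true_and, not_le]
    rw [Finset.filter_true_of_mem (fun x _ => by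
      rw [Fin.le_def]; have := x.isLt; simp only; omega), hμ]
    exact i.isLt
  simpa [compLabel] using hcard

theorem card_compLabel_fiber (k : Fin n) :
    (Finset.univ.filter fun i : Fin n => compLabel μ i = k.val).card = μ k := by
  classical
  set a := ∑ x ∈ Finset.univ.filter (fun x : Fin n => x < k), μ x with ha
  have hak : a + μ k ≤ n := by
    have hnot : k ∉ Finset.univ.filter (fun x : Fin n => x < k) := by simp
    calc a + μ k = ∑ x ∈ insert k (Finset.univ.filter (fun x : Fin n => x < k)), μ x := by
          rw [Finset.sum_insert hnot, add_comm]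
      _ ≤ ∑ x, μ x := Finset.sum_le_sum_of_subset (Finset.subset_univ _)
      _ = n := hμ
  rw [← Fintype.card_fin (μ k), ← Fintype.card_subtype]
  refine Fintype.card_congr
    { toFun := fun i => ⟨i.1.val - a, by have := (compLabel_eq_iff μ i.1 k).1 i.2; omega⟩
      invFun := fun j => ⟨⟨a + j.val, by omega⟩,
        (compLabel_eq_iff μ _ k).2 ⟨by simp; omega, by simp; omega⟩⟩
      left_inv := fun i => by
        have := (compLabel_eq_iff μ i.1 k).1 i.2
        exact Subtype.ext (Fin.ext (show a + (i.1.val - a) = i.1.val by omega))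
      right_inv := fun j => Fin.ext (by simp) }

omit hμ

/-- Functions with equal fibre sizes differ by a permutation of the source. -/
theorem exists_perm_of_card_fiber {α β : Type*} [Fintype α] [DecidableEq β] (f g : α → β)
    (h : ∀ b, (Finset.univ.filter fun a => f a = b).card =
      (Finset.univ.filter fun a => g a = b).card) :
    ∃ e : α ≃ α, ∀ a, f (e a) = g a := by
  have h' : ∀ b, Nonempty ({a // g a = b} ≃ {a // f a = b}) := fun b =>
    ⟨Fintype.equivOfCardEq (by rw [Fintype.card_subtype, Fintype.card_subtype, h b])⟩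
  let e : ∀ b, {a // g a = b} ≃ {a // f a = b} := fun b => (h' b).some
  refine ⟨(Equiv.sigmaFiberEquiv g).symm.trans ((Equiv.sigmaCongrRight e).trans
    (Equiv.sigmaFiberEquiv f)), fun a => ?_⟩
  exact (e (g a) ⟨a, rfl⟩).2

/-- The block intersection numbers of a permutation. -/
noncomputable def cnt (a b : Fin n → ℕ) (σ : Equiv.Perm (Fin n)) (x y : ℕ) : ℕ :=
  (Finset.univ.filter fun j : Fin n => compLabel a (σ j) = x ∧ compLabel b j = y).card

/-- The intersection numbers classify the double cosets of Young subgroups. -/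
theorem cnt_eq_iff (a b : Fin n → ℕ) (σ τ : Equiv.Perm (Fin n)) :
    cnt a b σ = cnt a b τ ↔ ∃ h ∈ youngSubgroup a, ∃ k ∈ youngSubgroup b, τ = h * σ * k := by
  classical
  constructor
  · intro hc
    obtain ⟨e, he⟩ := exists_perm_of_card_fiber
      (fun j => (compLabel a (σ j), compLabel b j)) (fun j => (compLabel a (τ j), compLabel b j))
      (fun p => by
        have := congrFun (congrFun hc p.1) p.2
        simpa [cnt, Prod.ext_iff] using this)
    have he1 : ∀ j, compLabel a (σ (e j)) = compLabel a (τ j) := fun j => (Prod.ext_iff.1 (he j)).1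
    have he2 : ∀ j, compLabel b (e j) = compLabel b j := fun j => (Prod.ext_iff.1 (he j)).2
    refine ⟨τ * e⁻¹ * σ⁻¹, fun i => ?_, e, he2, by group⟩
    have := he1 (e⁻¹ (σ⁻¹ i))
    simpa using this.symm
  · rintro ⟨h, hh, k, hk, rfl⟩
    funext x y
    refine (Finset.card_equiv k fun j => ?_).symm
    have h1 : compLabel a (h (σ (k j))) = compLabel a (σ (k j)) := hh (σ (k j))
    have h2 : compLabel b (k j) = compLabel b j := hk j
    simp [Finset.mem_filter, Equiv.Perm.mul_apply, h2]
    rw [← h1]
    exact ⟨fun hj => (Finset.mem_filter.1 hj).2,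
      fun hj => Finset.mem_filter.2 ⟨Finset.mem_univ _, hj⟩⟩

theorem cnt_eq_zero {a b : Fin n → ℕ} (ha : ∑ i, a i = n) (hb : ∑ i, b i = n)
    (σ : Equiv.Perm (Fin n)) {x y : ℕ} (h : n ≤ x ∨ n ≤ y) : cnt a b σ x y = 0 := by
  refine Finset.card_eq_zero.2 (Finset.filter_false_of_mem fun j _ hj => ?_)
  rcases h with h | h
  · have := compLabel_lt ha (σ j); omega
  · have := compLabel_lt hb j; omega

/-- The intersection numbers as a matrix with the given margins. -/
theorem cnt_margins {a b : Fin n → ℕ} (ha : ∑ i, a i = n) (hb : ∑ i, b i = n)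
    (σ : Equiv.Perm (Fin n)) :
    (∀ x : Fin n, ∑ y : Fin n, cnt a b σ x y = a x) ∧
      ∀ y : Fin n, ∑ x : Fin n, cnt a b σ x y = b y := by
  classical
  constructor
  · intro x
    rw [← card_compLabel_fiber ha x, ← Finset.card_equiv σ (s := Finset.univ.filter
      fun j : Fin n => compLabel a (σ j) = x) (by simp),
      Finset.card_eq_sum_card_fiberwise (f := fun j => (⟨compLabel b j, compLabel_lt hb j⟩ : Fin n))
        (t := Finset.univ) (fun _ _ => Finset.mem_univ _)]
    refine Finset.sum_congr rfl fun y _ => ?_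
    rw [cnt, Finset.filter_filter]
    simp [Fin.ext_iff]
  · intro y
    rw [← card_compLabel_fiber hb y,
      Finset.card_eq_sum_card_fiberwise
        (f := fun j => (⟨compLabel a (σ j), compLabel_lt ha _⟩ : Fin n))
        (t := Finset.univ) (fun _ _ => Finset.mem_univ _)]
    refine Finset.sum_congr rfl fun x _ => ?_
    rw [cnt, Finset.filter_filter]
    simp [Fin.ext_iff, and_comm]

/-- Every matrix with the given margins is realised. -/
theorem exists_cnt_eq {a b : Fin n → ℕ} (ha : ∑ i, a i = n) (hb : ∑ i, b i = n)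
    (A : Fin n → Fin n → ℕ) (hr : ∀ x, ∑ y, A x y = a x) (hc : ∀ y, ∑ x, A x y = b y) :
    ∃ σ : Equiv.Perm (Fin n), ∀ x y : Fin n, cnt a b σ x y = A x y := by
  classical
  have hcard : Fintype.card (Σ p : Fin n × Fin n, Fin (A p.1 p.2)) = Fintype.card (Fin n) := by
    rw [Fintype.card_sigma, Fintype.card_fin, Fintype.sum_prod_type]
    simp [hr, ha]
  let e0 : Fin n ≃ Σ p : Fin n × Fin n, Fin (A p.1 p.2) := (Fintype.equivOfCardEq hcard).symm
  let φ : Fin n → Fin n × Fin n := fun j => (e0 j).1
  have hφ : ∀ p, (Finset.univ.filter fun j => φ j = p).card = A p.1 p.2 := by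
    intro p
    rw [← Fintype.card_subtype]
    refine (Fintype.card_congr ?_).trans (Fintype.card_fin _)
    exact (e0.subtypeEquiv (q := fun t => t.1 = p) fun j => Iff.rfl).trans (Equiv.sigmaSubtype p)
  have hsnd : ∀ y, (Finset.univ.filter fun j => (φ j).2 = y).card = b y := by
    intro y
    rw [← hc y, Finset.card_eq_sum_card_fiberwise (f := fun j => (φ j).1) (t := Finset.univ)
      (fun _ _ => Finset.mem_univ _)]
    refine Finset.sum_congr rfl fun x _ => ?_
    rw [← hφ (x, y), Finset.filter_filter]
    simp [Prod.ext_iff, and_comm]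
  let lb : Fin n → Fin n := fun j => ⟨compLabel b j, compLabel_lt hb j⟩
  let la : Fin n → Fin n := fun j => ⟨compLabel a j, compLabel_lt ha j⟩
  obtain ⟨e1, he1⟩ := exists_perm_of_card_fiber (fun j => (φ j).2) lb (fun y => by
    rw [hsnd, ← card_compLabel_fiber hb y]
    simp [lb, Fin.ext_iff])
  have hfst : ∀ x, (Finset.univ.filter fun j => (φ (e1 j)).1 = x).card = a x := by
    intro x
    rw [Finset.card_equiv e1 (t := Finset.univ.filter fun j => (φ j).1 = x) (by simp), ← hr x,
      Finset.card_eq_sum_card_fiberwise (f := fun j => (φ j).2) (t := Finset.univ)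
      (fun _ _ => Finset.mem_univ _)]
    refine Finset.sum_congr rfl fun y _ => ?_
    rw [← hφ (x, y), Finset.filter_filter]
    simp [Prod.ext_iff]
  obtain ⟨σ, hσ⟩ := exists_perm_of_card_fiber la (fun j => (φ (e1 j)).1) (fun x => by
    rw [hfst, ← card_compLabel_fiber ha x]
    simp [la, Fin.ext_iff])
  refine ⟨σ, fun x y => ?_⟩
  rw [← hφ (x, y), cnt]
  refine Finset.card_equiv e1 fun j => ?_
  have h1 := congrArg Fin.val (hσ j)
  have h2 := congrArg Fin.val (he1 j)
  simp only [la, lb] at h1 h2
  simp [Prod.ext_iff, Fin.ext_iff, h1, h2]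

end CfsgLib.ClassK.Comp
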