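import Mathlib

/-!
# The determinantal orthogonality of the Young permutation characters (combinatorial form)
-/

set_option autoImplicit false

open Finset Matrix

namespace CfsgLib.ClassK.Frobenius

variable {n : ℕ}

/-- The number of natural matrices with given row and column sums. -/
noncomputable def marginCount (a b : Fin n → ℕ) : ℕ :=
  Nat.card {A : Fin n → Fin n → ℕ // (∀ i, ∑ j, A i j = a i) ∧ ∀ j, ∑ i, A i j = b j}

section Cauchy

open Polynomial

variable {R : Type*} [CommRing R]

/-- `∏_{k ∈ s} (1 - X y_k)`. -/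
noncomputable def recipProd (y : Fin n → R) (s : Finset (Fin n)) : R[X] :=
  ∏ k ∈ s, (1 - Polynomial.X * Polynomial.C (y k))

theorem natDegree_recipProd_le (y : Fin n → R) (s : Finset (Fin n)) :
    (recipProd y s).natDegree ≤ s.card := by
  refine (Polynomial.natDegree_prod_le _ _).trans ?_
  refine (Finset.sum_le_card_nsmul _ _ 1 fun k _ => ?_).trans (by simp)
  refine (Polynomial.natDegree_sub_le _ _).trans (max_le (by simp) ?_)
  exact Polynomial.natDegree_mul_le.trans (by
    rw [Polynomial.natDegree_C, add_zero]; exact Polynomial.natDegree_X_le)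

theorem sum_coeff_recipProd (y : Fin n → R) (a : R) : ∀ s : Finset (Fin n),
    ∑ l ∈ range (s.card + 1), a ^ (s.card - l) * (recipProd y s).coeff l = ∏ k ∈ s, (a - y k) := by
  intro s
  induction s using Finset.induction with
  | empty => simp [recipProd]
  | @insert k s hk ih =>
    have hc0 : (recipProd y s).coeff (s.card + 1) = 0 :=
      Polynomial.coeff_eq_zero_of_natDegree_lt
        (Nat.lt_succ_of_le (natDegree_recipProd_le y s))
    have hins : recipProd y (insert k s) =
        recipProd y s - Polynomial.C (y k) * (Polynomial.X * recipProd y s) := by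
      simp only [recipProd]
      rw [Finset.prod_insert hk]
      ring
    rw [Finset.card_insert_of_notMem hk, Finset.prod_insert hk, ← ih, hins]
    simp only [Polynomial.coeff_sub, Polynomial.coeff_C_mul, mul_sub, Finset.sum_sub_distrib,
      sub_mul]
    congr 1
    · rw [Finset.sum_range_succ, hc0, mul_zero, add_zero, Finset.mul_sum]
      refine Finset.sum_congr rfl fun l hl => ?_
      rw [Nat.succ_sub (Nat.lt_succ_iff.1 (Finset.mem_range.1 hl)), pow_succ]
      ring
    · rw [Finset.sum_range_succ']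
      rw [Polynomial.coeff_X_mul_zero, mul_zero, mul_zero, add_zero, Finset.mul_sum]
      refine Finset.sum_congr rfl fun l _ => ?_
      rw [Polynomial.coeff_X_mul, Nat.succ_sub_succ]
      ring

/-- The Cauchy determinant, up to a universal sign. -/
theorem exists_cauchy_det [IsDomain R] (y : Fin n → R) (hy : Function.Injective y) (x : Fin n → R) :
    ∃ ε : R, ε * ε = 1 ∧
      (Matrix.of fun i j => ∏ k ∈ univ.erase j, (1 - x i * y k)).det =
        ε * ((vandermonde x).det * (vandermonde y).det) := by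
  classical
  let C : Matrix (Fin n) (Fin n) R := Matrix.of fun l j =>
    (recipProd y (univ.erase j)).coeff (l : ℕ)
  have hcard : ∀ j : Fin n, (univ.erase j).card + 1 = n := fun j => by
    rw [Finset.card_erase_of_mem (Finset.mem_univ j), Finset.card_univ, Fintype.card_fin]
    have := j.isLt
    omega
  have hM : (Matrix.of fun i j => ∏ k ∈ univ.erase j, (1 - x i * y k)) = vandermonde x * C := by
    ext i j
    rw [Matrix.of_apply, Matrix.mul_apply]
    simp only [vandermonde_apply, C, Matrix.of_apply]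
    have hlt : (recipProd y (univ.erase j)).natDegree < n :=
      lt_of_lt_of_le (Nat.lt_succ_of_le (natDegree_recipProd_le y _)) (hcard j).le
    have he2 : (recipProd y (univ.erase j)).eval (x i) =
        ∏ k ∈ univ.erase j, (1 - x i * y k) := by
      rw [recipProd, Polynomial.eval_prod]
      exact Finset.prod_congr rfl fun k _ => by
        rw [Polynomial.eval_sub, Polynomial.eval_one, Polynomial.eval_mul, Polynomial.eval_X,
          Polynomial.eval_C]
    rw [← he2, Polynomial.eval_eq_sum_range' hlt (x i), ← Fin.sum_univ_eq_sum_range (fun l => (recipProd y (univ.erase j)).coeff l * x i ^ l)]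
    exact Finset.sum_congr rfl fun l _ => mul_comm _ _
  let W : Matrix (Fin n) (Fin n) R := (vandermonde y).submatrix id Fin.revPerm
  have hWC : W * C = Matrix.diagonal fun i => ∏ k ∈ univ.erase i, (y i - y k) := by
    ext i j
    rw [Matrix.mul_apply]
    have hsum := sum_coeff_recipProd y (y i) (univ.erase j)
    rw [hcard j, ← Fin.sum_univ_eq_sum_range (fun l => y i ^ ((univ.erase j).card - l) *
      (recipProd y (univ.erase j)).coeff l)] at hsum
    rw [Matrix.diagonal_apply]
    simp only [W, C, Matrix.submatrix_apply, vandermonde_apply, Matrix.of_apply, id_eq,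
      Fin.revPerm_apply]
    rw [show ∑ l : Fin n, y i ^ ((Fin.rev l : Fin n) : ℕ) * (recipProd y (univ.erase j)).coeff l =
      ∏ k ∈ univ.erase j, (y i - y k) by
        rw [← hsum]
        refine Finset.sum_congr rfl fun l _ => ?_
        have := hcard j
        rw [Fin.val_rev]
        congr 2
        omega]
    split_ifs with h
    · rw [h]
    · exact Finset.prod_eq_zero (Finset.mem_erase.2 ⟨h, Finset.mem_univ i⟩) (sub_self _)
  -- the product of all differences is a signed square
  have hsq : ∀ m : Fin n → R, ∃ e : R, e * e = 1 ∧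
      ∏ i, ∏ k ∈ univ.erase i, (m i - m k) = e * ((vandermonde m).det * (vandermonde m).det) := by
    intro m
    refine ⟨∏ i : Fin n, ∏ _j ∈ Ioi i, (-1 : R), ?_, ?_⟩
    · rw [← Finset.prod_mul_distrib]
      refine Finset.prod_eq_one fun i _ => ?_
      rw [← Finset.prod_mul_distrib]
      exact Finset.prod_eq_one fun k _ => by rw [neg_mul_neg, one_mul]
    · have hsplit : ∀ i : Fin n, ∏ k ∈ univ.erase i, (m i - m k) =
          (∏ k ∈ Ioi i, (m i - m k)) * ∏ k ∈ Iio i, (m i - m k) := by
        intro i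
        rw [← Finset.prod_union]
        · refine Finset.prod_congr ?_ fun _ _ => rfl
          ext k
          simp only [Finset.mem_erase, Finset.mem_univ, and_true, Finset.mem_union, Finset.mem_Ioi,
            Finset.mem_Iio]
          exact ⟨fun h => (lt_or_gt_of_ne h).symm, fun h => h.elim (fun h => h.ne') (fun h => h.ne)⟩
        · exact Finset.disjoint_left.2 fun k h h' =>
            lt_asymm (Finset.mem_Ioi.1 h) (Finset.mem_Iio.1 h')
      have hswap : ∏ i : Fin n, ∏ k ∈ Iio i, (m i - m k) = ∏ i : Fin n, ∏ k ∈ Ioi i, (m k - m i) := by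
        refine Finset.prod_comm' fun a b => ?_
        simp
      have hdet := det_vandermonde m
      rw [Finset.prod_congr rfl fun i _ => hsplit i, Finset.prod_mul_distrib, hswap, ← hdet,
        ← mul_assoc]
      congr 1
      rw [hdet, ← Finset.prod_mul_distrib]
      refine Finset.prod_congr rfl fun i _ => ?_
      rw [← Finset.prod_mul_distrib]
      exact Finset.prod_congr rfl fun k _ => by ring
  obtain ⟨e, he, hprod⟩ := hsq y
  have hdet := congrArg Matrix.det hWC
  rw [det_mul, det_diagonal, hprod, Matrix.det_permute'] at hdet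
  set s : R := ((Equiv.Perm.sign (Fin.revPerm : Equiv.Perm (Fin n)) : ℤ) : R) with hs
  have hs2 : s * s = 1 := by
    rw [hs]
    rcases Int.units_eq_one_or (Equiv.Perm.sign (Fin.revPerm : Equiv.Perm (Fin n))) with h | h <;>
      simp [h]
  have hV : (vandermonde y).det ≠ 0 := det_vandermonde_ne_zero_iff.2 hy
  refine ⟨s * e, by rw [show s * e * (s * e) = (s * s) * (e * e) by ring, hs2, he, one_mul], ?_⟩
  rw [hM, det_mul]
  have hC : C.det = s * e * (vandermonde y).det := by
    refine mul_left_cancel₀ hV ?_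
    linear_combination s * hdet - (vandermonde y).det * C.det * hs2
  rw [hC]
  ring

end Cauchy

section Series

open MvPowerSeries

variable {V : Type*} {ι : Type*}

/-- The series with coefficient one exactly at the multiples of `w`. -/
noncomputable def geom (w : V →₀ ℕ) : MvPowerSeries V ℤ := by
  classical exact fun d => if ∃ k : ℕ, d = k • w then 1 else 0

theorem one_sub_mul_geom (w : V →₀ ℕ) (hw : w ≠ 0) :
    (1 - MvPowerSeries.monomial w (1 : ℤ)) * geom w = 1 := by
  classical
  obtain ⟨v, hv⟩ : ∃ v, w v ≠ 0 := by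
    by_contra h
    push Not at h
    exact hw (Finsupp.ext h)
  ext d
  rw [sub_mul, one_mul, map_sub, coeff_monomial_mul, coeff_one]
  have hg : ∀ e : V →₀ ℕ, coeff e (geom w) = if ∃ k : ℕ, e = k • w then (1 : ℤ) else 0 :=
    fun e => rfl
  rw [hg, one_mul]
  by_cases hd : ∃ k : ℕ, d = k • w
  · obtain ⟨k, rfl⟩ := hd
    rw [if_pos ⟨k, rfl⟩]
    rcases k with _ | k
    · rw [if_neg, if_pos (zero_smul ℕ w), sub_zero]
      intro h
      rw [zero_smul] at h
      exact hv (Nat.le_zero.1 (h v))
    · rw [if_pos, if_neg, hg, if_pos, sub_self]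
      · exact ⟨k, by rw [succ_nsmul, add_tsub_cancel_right]⟩
      · intro h
        have := congrArg (fun f : V →₀ ℕ => f v) h
        simp [hv] at this
      · rw [succ_nsmul]; exact le_add_self
  · rw [if_neg hd, if_neg (c := d = 0) (fun h => hd ⟨0, by rw [h, zero_smul]⟩)]
    split_ifs with hle
    · rw [hg, if_neg, sub_self]
      rintro ⟨k, hk⟩
      refine hd ⟨k + 1, ?_⟩
      rw [succ_nsmul, ← hk, tsub_add_cancel_of_le hle]
    · simp

variable [Fintype ι]

theorem coeff_prod_geom (w : ι → V →₀ ℕ) (hw : ∀ e, w e ≠ 0) (d : V →₀ ℕ) :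
    coeff d (∏ e, geom (w e)) = (Nat.card {A : ι → ℕ // ∑ e, A e • w e = d} : ℤ) := by
  classical
  rw [MvPowerSeries.coeff_prod]
  have hg : ∀ (e : ι) (l : V →₀ ℕ),
      coeff l (geom (w e)) = if ∃ k : ℕ, l = k • w e then (1 : ℤ) else 0 := fun e l => rfl
  simp only [hg]
  have hprod : ∀ l : ι →₀ V →₀ ℕ, (∏ e, if ∃ k : ℕ, l e = k • w e then (1 : ℤ) else 0) =
      if ∀ e, ∃ k : ℕ, l e = k • w e then 1 else 0 := by
    intro l
    split_ifs with h
    · exact Finset.prod_eq_one fun e _ => if_pos (h e)
    · push Not at h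
      obtain ⟨e, he⟩ := h
      exact Finset.prod_eq_zero (Finset.mem_univ e) (if_neg fun ⟨k, hk⟩ => he k hk)
  simp only [hprod, Finset.sum_boole]
  norm_cast
  rw [← Nat.card_eq_finsetCard]
  symm
  refine Nat.card_congr (Equiv.ofBijective (fun A => ⟨Finsupp.equivFunOnFinite.symm
    (fun e => A.1 e • w e), Finset.mem_filter.2 ⟨?_, fun e => ⟨A.1 e, rfl⟩⟩⟩) ⟨?_, ?_⟩)
  · rw [Finset.mem_finsuppAntidiag]
    exact ⟨by simpa using A.2, Finset.subset_univ _⟩
  · intro A B h
    refine Subtype.ext (funext fun e => ?_)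
    have h' := DFunLike.congr_fun (congrArg Subtype.val h) e
    simp only [Finsupp.equivFunOnFinite_symm_apply_apply] at h'
    obtain ⟨v, hv⟩ : ∃ v, w e v ≠ 0 := by
      by_contra hc
      push Not at hc
      exact hw e (Finsupp.ext hc)
    have := DFunLike.congr_fun h' v
    simpa [hv] using this
  · rintro ⟨l, hl⟩
    obtain ⟨hl1, hl2⟩ := Finset.mem_filter.1 hl
    choose k hk using hl2
    refine ⟨⟨k, ?_⟩, Subtype.ext (Finsupp.ext fun e => ?_)⟩
    · rw [Finset.mem_finsuppAntidiag] at hl1
      rw [← hl1.1]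
      simp [hk]
    · simp [hk e]

/-- The exponent vector of `x_i y_j`. -/
noncomputable def pairVec (i j : Fin n) : Fin n ⊕ Fin n →₀ ℕ :=
  Finsupp.single (Sum.inl i) 1 + Finsupp.single (Sum.inr j) 1

theorem pairVec_ne_zero (i j : Fin n) : pairVec i j ≠ 0 := fun h => by
  have := DFunLike.congr_fun h (Sum.inl i)
  simp [pairVec] at this

/-- The exponent vector of two functions. -/
noncomputable def margins (a b : Fin n → ℕ) : Fin n ⊕ Fin n →₀ ℕ :=
  Finsupp.equivFunOnFinite.symm (Sum.elim a b)

theorem sum_smul_pairVec {ι : Type*} [Fintype ι] (r c : ι → Fin n) (A : ι → ℕ) (a b : Fin n → ℕ) :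
    ∑ e, A e • pairVec (r e) (c e) = margins a b ↔
      (∀ i, ∑ e, (if r e = i then A e else 0) = a i) ∧
        ∀ j, ∑ e, (if c e = j then A e else 0) = b j := by
  classical
  rw [Finsupp.ext_iff, Sum.forall]
  simp [pairVec, margins, Finsupp.finsetSum_apply, Finsupp.single_apply, mul_ite]

theorem coeff_all_geom (a b : Fin n → ℕ) :
    coeff (margins a b) (∏ e : Fin n × Fin n, geom (pairVec e.1 e.2)) =
      (marginCount a b : ℤ) := by
  classical
  rw [coeff_prod_geom (fun e : Fin n × Fin n => pairVec e.1 e.2) (fun e => pairVec_ne_zero e.1 e.2)]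
  norm_cast
  refine Nat.card_congr ((Equiv.curry (Fin n) (Fin n) ℕ).subtypeEquiv fun A => ?_)
  rw [sum_smul_pairVec (fun e : Fin n × Fin n => e.1) (fun e : Fin n × Fin n => e.2)]
  refine and_congr (forall_congr' fun i => ?_) (forall_congr' fun j => ?_)
  · rw [Fintype.sum_prod_type, Fintype.sum_eq_single i (fun x hx => by simp [hx])]
    simp [Equiv.curry, Function.curry]
  · rw [Fintype.sum_prod_type, Finset.sum_comm,
      Fintype.sum_eq_single j (fun x hx => by simp [hx])]
    simp [Equiv.curry, Function.curry]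

/-- The combinatorial orthogonality. -/
theorem sum_sign_marginCount (lam lam' : Fin n → ℕ) (h : StrictMono lam) (h' : StrictMono lam') :
    ∑ κ : Equiv.Perm (Fin n), ∑ κ' : Equiv.Perm (Fin n),
      ((Equiv.Perm.sign κ : ℤ) * (Equiv.Perm.sign κ' : ℤ)) *
        (if (∀ i, (κ i : ℕ) ≤ lam i) ∧ ∀ i, (κ' i : ℕ) ≤ lam' i then
          (marginCount (fun i => lam i - κ i) (fun i => lam' i - κ' i) : ℤ) else 0) =
      if lam = lam' then 1 else 0 := by
  classical
  haveI : IsDomain (MvPowerSeries (Fin n ⊕ Fin n) ℤ) := NoZeroDivisors.to_isDomain _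
  let x : Fin n → MvPowerSeries (Fin n ⊕ Fin n) ℤ := fun i => MvPowerSeries.X (Sum.inl i)
  let y : Fin n → MvPowerSeries (Fin n ⊕ Fin n) ℤ := fun j => MvPowerSeries.X (Sum.inr j)
  have hy : Function.Injective y := fun i j hij => Sum.inr_injective (MvPowerSeries.X_inj.1 hij)
  obtain ⟨ε, hε, hdet⟩ := exists_cauchy_det y hy x
  have hgeom : ∀ i j : Fin n, (1 - x i * y j) * geom (pairVec i j) = 1 := by
    intro i j
    rw [show x i * y j = MvPowerSeries.monomial (pairVec i j) (1 : ℤ) by
      simp only [x, y, MvPowerSeries.X_def, MvPowerSeries.monomial_mul_monomial, one_mul, pairVec]]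
    exact one_sub_mul_geom _ (pairVec_ne_zero i j)
  set T : MvPowerSeries (Fin n ⊕ Fin n) ℤ := ∏ e : Fin n × Fin n, geom (pairVec e.1 e.2) with hT
  -- the determinant of the geometric series
  set Gm : Matrix (Fin n) (Fin n) (MvPowerSeries (Fin n ⊕ Fin n) ℤ) := Matrix.of fun i j => geom (pairVec i j) with hGm
  have hG : Gm.det = ε * ((vandermonde x).det * (vandermonde y).det) * T := by
    rw [← hdet, hT, Fintype.prod_prod_type, mul_comm, ← Matrix.det_mul_column]
    congr 1
    refine Matrix.ext fun i j => ?_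
    simp only [hGm, Matrix.of_apply]
    rw [← Finset.mul_prod_erase _ _ (Finset.mem_univ j), mul_assoc, ← Finset.prod_mul_distrib,
      Finset.prod_eq_one, mul_one]
    intro k _
    rw [mul_comm]
    exact hgeom i k
  -- coefficients of the determinant
  have hL : ∀ l l' : Fin n → ℕ, StrictMono l → StrictMono l' →
      coeff (margins l l') Gm.det = if l = l' then (1 : ℤ) else 0 := by
    intro l l' hl hl'
    rw [Matrix.det_apply, map_sum]
    simp only [Units.smul_def, map_zsmul, hGm, Matrix.of_apply]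
    have hc : ∀ σ : Equiv.Perm (Fin n), coeff (margins l l')
        (∏ i, geom (pairVec (σ i) i)) = if l ∘ σ = l' then (1 : ℤ) else 0 := by
      intro σ
      rw [coeff_prod_geom _ (fun i => pairVec_ne_zero (σ i) i)]
      have hiff : ∀ A : Fin n → ℕ, ∑ i, A i • pairVec (σ i) i = margins l l' ↔
          A = l' ∧ l ∘ σ = l' := by
        intro A
        rw [sum_smul_pairVec (fun i => σ i) (fun i => i)]
        have e1 : ∀ i, ∑ e, (if σ e = σ i then A e else 0) = A i := fun i => by
          simp [σ.injective.eq_iff]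
        have e2 : ∀ j, ∑ e, (if e = j then A e else 0) = A j := fun j => by simp
        simp only [e2]
        rw [σ.surjective.forall]
        simp only [e1]
        constructor
        · rintro ⟨h1, h2⟩
          exact ⟨funext h2, funext fun i => ((h1 i).symm.trans (h2 i))⟩
        · rintro ⟨rfl, h2⟩
          exact ⟨fun i => (congrFun h2 i).symm, fun i => rfl⟩
      split_ifs with hσ
      · norm_cast
        rw [Nat.card_eq_one_iff_unique]
        exact ⟨⟨fun a b => Subtype.ext (((hiff _).1 a.2).1.trans ((hiff _).1 b.2).1.symm)⟩,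
          ⟨⟨l', (hiff _).2 ⟨rfl, hσ⟩⟩⟩⟩
      · norm_cast
        haveI : IsEmpty {A : Fin n → ℕ // ∑ i, A i • pairVec (σ i) i = margins l l'} :=
          ⟨fun a => hσ ((hiff _).1 a.2).2⟩
        exact Nat.card_of_isEmpty
    simp only [hc]
    rw [Fintype.sum_eq_single (1 : Equiv.Perm (Fin n))]
    · simp
    · intro σ hσ
      rw [if_neg, smul_zero]
      intro e
      refine hσ (Equiv.ext fun i => ?_)
      have hmono : StrictMono (σ : Fin n → Fin n) := fun a b hab =>
        hl.lt_iff_lt.1 (by
          have := hl' hab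
          rwa [← congrFun e a, ← congrFun e b] at this)
      exact congrFun ((StrictMono.range_inj hmono strictMono_id).1 (by
        rw [σ.surjective.range_eq, Set.range_id])) i
  -- coefficients of the other side
  have hV : ∀ v : Fin n → MvPowerSeries (Fin n ⊕ Fin n) ℤ, (vandermonde v).det =
      ∑ κ : Equiv.Perm (Fin n), (Equiv.Perm.sign κ : ℤ) • ∏ i, v i ^ (κ i : ℕ) := by
    intro v
    rw [← Matrix.det_transpose, Matrix.det_apply]
    simp [Units.smul_def, vandermonde_apply]
  have hR : ∀ l l' : Fin n → ℕ, coeff (margins l l') ((vandermonde x).det * (vandermonde y).det * T) =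
      ∑ κ : Equiv.Perm (Fin n), ∑ κ' : Equiv.Perm (Fin n),
      ((Equiv.Perm.sign κ : ℤ) * (Equiv.Perm.sign κ' : ℤ)) *
        (if (∀ i, (κ i : ℕ) ≤ l i) ∧ ∀ i, (κ' i : ℕ) ≤ l' i then
          (marginCount (fun i => l i - κ i) (fun i => l' i - κ' i) : ℤ) else 0) := by
    intro l l'
    rw [hV, hV, Finset.sum_mul, Finset.sum_mul, map_sum]
    refine Finset.sum_congr rfl fun κ _ => ?_
    rw [Finset.mul_sum, Finset.sum_mul, map_sum]
    refine Finset.sum_congr rfl fun κ' _ => ?_
    rw [smul_mul_smul_comm, smul_mul_assoc, map_zsmul, smul_eq_mul]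
    congr 1
    have hmon : (∏ i, x i ^ (κ i : ℕ)) * ∏ j, y j ^ (κ' j : ℕ) =
        MvPowerSeries.monomial (margins (fun i => (κ i : ℕ)) fun i => (κ' i : ℕ)) (1 : ℤ) := by
      simp only [x, y, MvPowerSeries.X_pow_eq, MvPowerSeries.prod_monomial, prod_const_one]
      rw [MvPowerSeries.monomial_mul_monomial, one_mul]
      congr 1
      congr 1
      ext v
      rcases v with v | v <;> simp [margins, Finsupp.finsetSum_apply, Finsupp.single_apply]
    rw [hmon, coeff_monomial_mul, one_mul, hT]
    have hle : margins (fun i => (κ i : ℕ)) (fun i => (κ' i : ℕ)) ≤ margins l l' ↔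
        (∀ i, (κ i : ℕ) ≤ l i) ∧ ∀ i, (κ' i : ℕ) ≤ l' i := by
      rw [Finsupp.le_def, Sum.forall]
      simp [margins]
    by_cases hcond : (∀ i, (κ i : ℕ) ≤ l i) ∧ ∀ i, (κ' i : ℕ) ≤ l' i
    · rw [if_pos hcond, if_pos (hle.2 hcond), ← coeff_all_geom]
      congr 1
      congr 1
      ext v
      rcases v with v | v <;> simp [margins]
    · rw [if_neg hcond, if_neg (fun e => hcond (hle.1 e))]
  -- the sign is one
  have hεc : ε = 1 ∨ ε = -1 := mul_self_eq_one_iff.1 hε
  obtain ⟨s, hs⟩ : ∃ s : ℤ, ∀ l l' : Fin n → ℕ, coeff (margins l l') Gm.det =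
      s * coeff (margins l l') ((vandermonde x).det * (vandermonde y).det * T) := by
    rcases hεc with e | e
    · exact ⟨1, fun l l' => by rw [hG, e, one_mul, one_mul]⟩
    · exact ⟨-1, fun l l' => by rw [hG, e, neg_mul, one_mul, neg_mul, map_neg, neg_one_mul]⟩
  set δ : Fin n → ℕ := fun i => (i : ℕ)
  have hδ : StrictMono δ := fun a b hab => hab
  have h0 := hs δ δ
  rw [hL δ δ hδ hδ, if_pos rfl, hR] at h0
  have hone : ∑ κ : Equiv.Perm (Fin n), ∑ κ' : Equiv.Perm (Fin n),
      ((Equiv.Perm.sign κ : ℤ) * (Equiv.Perm.sign κ' : ℤ)) *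
        (if (∀ i, (κ i : ℕ) ≤ δ i) ∧ ∀ i, (κ' i : ℕ) ≤ δ i then
          (marginCount (fun i => δ i - κ i) (fun i => δ i - κ' i) : ℤ) else 0) = 1 := by
    have hid : ∀ κ : Equiv.Perm (Fin n), (∀ i, (κ i : ℕ) ≤ δ i) → κ = 1 := by
      intro κ hκ
      refine Equiv.ext fun i => ?_
      by_contra hne
      have h1 : ∑ a, (κ a : ℕ) < ∑ a : Fin n, (a : ℕ) :=
        Finset.sum_lt_sum (fun a _ => hκ a)
          ⟨i, Finset.mem_univ i, lt_of_le_of_ne (hκ i) (fun e => hne (Fin.ext e))⟩
      rw [Equiv.sum_comp κ (fun a : Fin n => (a : ℕ))] at h1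
      exact lt_irrefl _ h1
    rw [Fintype.sum_eq_single (1 : Equiv.Perm (Fin n)), Fintype.sum_eq_single (1 : Equiv.Perm (Fin n))]
    · have hu : marginCount (fun i : Fin n => δ i - ((1 : Equiv.Perm (Fin n)) i : ℕ))
          (fun i : Fin n => δ i - ((1 : Equiv.Perm (Fin n)) i : ℕ)) = 1 := by
        rw [marginCount, Nat.card_eq_one_iff_unique]
        have hz : ∀ A : {A : Fin n → Fin n → ℕ //
            (∀ i, ∑ j, A i j = δ i - ((1 : Equiv.Perm (Fin n)) i : ℕ)) ∧
              ∀ j, ∑ i, A i j = δ j - ((1 : Equiv.Perm (Fin n)) j : ℕ)}, A.1 = fun _ _ => 0 := by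
          intro A
          funext i j
          have := A.2.1 i
          simp only [δ, Equiv.Perm.coe_one, id_eq, Nat.sub_self, Finset.sum_eq_zero_iff] at this
          exact this j (Finset.mem_univ j)
        exact ⟨⟨fun A B => Subtype.ext ((hz A).trans (hz B).symm)⟩,
          ⟨⟨fun _ _ => 0, fun i => by simp [δ], fun i => by simp [δ]⟩⟩⟩
      simp [δ] at hu ⊢
      exact hu
    · intro κ' hκ'
      rw [if_neg (fun e => hκ' (hid κ' e.2)), mul_zero]
    · intro κ hκ
      refine Finset.sum_eq_zero fun κ' _ => ?_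
      rw [if_neg (fun e => hκ (hid κ e.1)), mul_zero]
  rw [hone, mul_one] at h0
  have hfin := hs lam lam'
  rw [hL lam lam' h h', hR, ← h0, one_mul] at hfin
  exact hfin.symm

end Series

end CfsgLib.ClassK.Frobenius
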