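import Cfsg.Agent.Lib.ClassK.CompLabel
import Cfsg.Agent.Lib.ClassK.FrobeniusDet
import Cfsg.Agent.Lib.ClassK.SLBruhat
import Cfsg.Agent.Lib.CharTheory.PermChar

/-!
# Parabolic double cosets of `GLₙ(q)` against Young double cosets of `Sₙ`
-/

set_option autoImplicit false
set_option linter.style.haveILetI false
set_option linter.unusedSectionVars false

open Matrix Cfsg MulAction

namespace CfsgLib.ClassK.GLn

section Orbit

variable {G : Type*} [Group G]

/-- The orbit of the pair of cosets `(H, xK)`. -/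
def pairOrbit (H K : Subgroup G) (x : G) : orbitRel.Quotient G ((G ⧸ H) × (G ⧸ K)) :=
  Quotient.mk'' (((1 : G) : G ⧸ H), (x : G ⧸ K))

theorem pairOrbit_surjective (H K : Subgroup G) (q : orbitRel.Quotient G ((G ⧸ H) × (G ⧸ K))) :
    ∃ x, pairOrbit H K x = q := by
  induction q using Quotient.inductionOn' with
  | _ pr =>
    obtain ⟨u, v⟩ := pr
    obtain ⟨g, rfl⟩ := QuotientGroup.mk_surjective u
    obtain ⟨r, rfl⟩ := QuotientGroup.mk_surjective v
    refine ⟨g⁻¹ * r, Quotient.eq''.2 (orbitRel_apply.2 ⟨g⁻¹, ?_⟩)⟩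
    exact Prod.ext (by simp [MulAction.Quotient.smul_mk]) (by simp [MulAction.Quotient.smul_mk])

theorem pairOrbit_eq_iff (H K : Subgroup G) (x y : G) :
    pairOrbit H K x = pairOrbit H K y ↔ ∃ h ∈ H, ∃ k ∈ K, y = h * x * k := by
  rw [pairOrbit, pairOrbit, Quotient.eq'', orbitRel_apply]
  constructor
  · rintro ⟨g, hg⟩
    have h1 : ((g * 1 : G) : G ⧸ H) = ((1 : G) : G ⧸ H) := congrArg Prod.fst hg
    have h2 : ((g * y : G) : G ⧸ K) = (x : G ⧸ K) := congrArg Prod.snd hg
    rw [QuotientGroup.eq] at h1 h2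
    refine ⟨g⁻¹, by simpa using h1, ((g * y)⁻¹ * x)⁻¹, inv_mem h2, ?_⟩
    group
  · rintro ⟨h, hh, k, hk, rfl⟩
    refine ⟨h⁻¹, Prod.ext ?_ ?_⟩
    · exact QuotientGroup.eq.2 (by simpa using hh)
    · refine QuotientGroup.eq.2 ?_
      have e : (h⁻¹ * (h * x * k))⁻¹ * x = k⁻¹ := by group
      show (h⁻¹ * (h * x * k))⁻¹ * x ∈ K
      rw [e]
      exact inv_mem hk

variable [Fintype G]

/-- The inner product of two coset permutation characters. -/
theorem classInner_fixedPoint (H K : Subgroup G) :
    classInner (fixedPointCharacter H) (fixedPointCharacter K) =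
      (Nat.card (orbitRel.Quotient G ((G ⧸ H) × (G ⧸ K))) : ℂ) := by
  rw [← CharTheory.classInner_card_fixedBy_one ((G ⧸ H) × (G ⧸ K))]
  simp only [classInner, fixedPointCharacter, map_natCast, map_one, mul_one]
  congr 1
  refine Finset.sum_congr rfl fun g _ => ?_
  rw [← Nat.cast_mul, ← Nat.card_prod]
  congr 1
  exact Nat.card_congr
    { toFun := fun p => ⟨(p.1.1, p.2.1), Prod.ext p.1.2 p.2.2⟩
      invFun := fun p => (⟨p.1.1, congrArg Prod.fst p.2⟩, ⟨p.1.2, congrArg Prod.snd p.2⟩)
      left_inv := fun _ => rfl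
      right_inv := fun _ => rfl }

/-- Two surjections with the same fibres. -/
theorem card_eq_of_same_kernel {W A B : Type*} [Finite W] (f : W → A) (g : W → B)
    (hf : Function.Surjective f) (hg : Function.Surjective g)
    (h : ∀ s t, f s = f t ↔ g s = g t) : Nat.card A = Nat.card B := by
  refine Nat.card_congr (Equiv.ofBijective (fun a => g (hf a).choose) ⟨?_, ?_⟩)
  · intro a a' e
    have := (h _ _).2 e
    rwa [(hf a).choose_spec, (hf a').choose_spec] at this
  · intro b
    obtain ⟨w, rfl⟩ := hg b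
    exact ⟨f w, (h _ _).1 (hf (f w)).choose_spec⟩

end Orbit

open CfsgLib.ClassK.Comp CfsgLib.ClassK.SLn CfsgLib.ClassK.Frobenius

variable {n : ℕ}

/-- The Young double cosets are counted by matrices with given margins. -/
theorem classInner_young {a b : Fin n → ℕ} (ha : ∑ i, a i = n) (hb : ∑ i, b i = n) :
    classInner (fixedPointCharacter (youngSubgroup a)) (fixedPointCharacter (youngSubgroup b)) =
      (marginCount a b : ℂ) := by
  classical
  rw [classInner_fixedPoint]
  norm_cast
  refine (card_eq_of_same_kernel (W := Equiv.Perm (Fin n))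
    (fun σ => pairOrbit (youngSubgroup a) (youngSubgroup b) σ)
    (fun σ => (⟨fun x y => cnt a b σ x y, cnt_margins ha hb σ⟩ :
      {A : Fin n → Fin n → ℕ // (∀ i, ∑ j, A i j = a i) ∧ ∀ j, ∑ i, A i j = b j}))
    (pairOrbit_surjective _ _) ?_ ?_)
  · rintro ⟨A, hr, hc⟩
    obtain ⟨σ, hσ⟩ := exists_cnt_eq ha hb A hr hc
    exact ⟨σ, Subtype.ext (funext fun x => funext fun y => hσ x y)⟩
  · intro s t
    rw [pairOrbit_eq_iff, ← cnt_eq_iff, Subtype.ext_iff]
    constructor
    · intro e; funext x y
      show cnt a b s x y = cnt a b t x y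
      rw [e]
    · intro e
      funext x y
      by_cases hxy : x < n ∧ y < n
      · exact congrFun (congrFun e ⟨x, hxy.1⟩) ⟨y, hxy.2⟩
      · rw [cnt_eq_zero ha hb s (by omega), cnt_eq_zero ha hb t (by omega)]

variable {F : Type*} [Field F]

/-- A permutation matrix with determinant one, in the general linear group. -/
noncomputable def pm (n : ℕ) (F : Type*) [Field F] (σ : Equiv.Perm (Fin n)) : GL (Fin n) F :=
  Matrix.SpecialLinearGroup.toGL (mono n F σ)

theorem mem_parabolic_of_isUp (μ : Fin n → ℕ) {g : SpecialLinearGroup (Fin n) F} (hg : IsUp g) :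
    Matrix.SpecialLinearGroup.toGL g ∈ parabolicGL n F μ := fun i j hij =>
  hg i j ((compLabel_mono μ).reflect_lt hij)

theorem pm_young_mem (μ : Fin n → ℕ) {h : Equiv.Perm (Fin n)} (hh : h ∈ youngSubgroup μ) :
    pm n F h ∈ parabolicGL n F μ := fun i j hij => by
  refine isMono_mono (F := F) h i j fun e => ?_
  have : compLabel μ (h j) = compLabel μ j := hh j
  rw [← e] at this
  omega

variable [Finite F]

theorem pairOrbit_pm_surjective (a b : Fin n → ℕ)
    (q : orbitRel.Quotient (GL (Fin n) F) ((GL (Fin n) F ⧸ parabolicGL n F a) ×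
      (GL (Fin n) F ⧸ parabolicGL n F b))) :
    ∃ σ, pairOrbit (parabolicGL n F a) (parabolicGL n F b) (pm n F σ) = q := by
  classical
  obtain ⟨g, rfl⟩ := pairOrbit_surjective _ _ q
  -- split off the determinant
  let dvec : Fin n → F := fun i => if (i : ℕ) = 0 then (g : Matrix (Fin n) (Fin n) F).det else 1
  have hg0 : (g : Matrix (Fin n) (Fin n) F).det ≠ 0 :=
    (g.isUnit.map Matrix.detMonoidHom).ne_zero
  have hd : (Matrix.diagonal dvec).det = (g : Matrix (Fin n) (Fin n) F).det := by
    rcases n with _ | m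
    · simp [Matrix.det_isEmpty]
    · rw [det_diagonal, Fintype.prod_eq_single (0 : Fin (m + 1))]
      · simp [dvec]
      · intro i hi
        exact if_neg fun e => hi (Fin.ext e)
  let D : GL (Fin n) F := Matrix.GeneralLinearGroup.mkOfDetNeZero (Matrix.diagonal dvec)
    (by rw [hd]; exact hg0)
  have hDP : D ∈ parabolicGL n F a := fun i j hij =>
    Matrix.diagonal_apply_ne _ (fun e => (e ▸ hij).false)
  have hdet : ((D⁻¹ * g : GL (Fin n) F) : Matrix (Fin n) (Fin n) F).det = 1 := by
    have e : ((D : GL (Fin n) F) : Matrix (Fin n) (Fin n) F).det *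
        ((D⁻¹ * g : GL (Fin n) F) : Matrix (Fin n) (Fin n) F).det =
        (g : Matrix (Fin n) (Fin n) F).det := by
      rw [← det_mul, ← Units.val_mul, mul_inv_cancel_left]
    have hD : ((D : GL (Fin n) F) : Matrix (Fin n) (Fin n) F).det =
        (g : Matrix (Fin n) (Fin n) F).det := hd
    rw [hD] at e
    exact mul_left_cancel₀ hg0 (e.trans (mul_one _).symm)
  let s : SpecialLinearGroup (Fin n) F :=
    ⟨((D⁻¹ * g : GL (Fin n) F) : Matrix (Fin n) (Fin n) F), hdet⟩
  have hs : Matrix.SpecialLinearGroup.toGL s = D⁻¹ * g := Units.ext rfl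
  obtain ⟨x, hx, σ, m, hm, y, hy, he⟩ := inCell_all s
  have ht : IsMono 1 ((mono n F σ)⁻¹ * m) := by simpa using (isMono_mono (F := F) σ).inv.mul hm
  refine ⟨σ, (pairOrbit_eq_iff _ _ _ _).2 ⟨D * Matrix.SpecialLinearGroup.toGL x,
    mul_mem hDP (mem_parabolic_of_isUp a hx),
    Matrix.SpecialLinearGroup.toGL ((mono n F σ)⁻¹ * m * y),
    mem_parabolic_of_isUp b (isUp_mul (isUp_of_isMono_one ht) hy), ?_⟩⟩
  have : g = D * Matrix.SpecialLinearGroup.toGL s := by rw [hs, mul_inv_cancel_left]
  rw [this, he, pm]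
  simp only [map_mul, map_inv, mul_assoc, mul_inv_cancel_left]

/-- Vectors in an intersection of two flag subspaces. -/
noncomputable def flagCount (a b : Fin n → ℕ) (g : GL (Fin n) F) (x y : ℕ) : ℕ :=
  Nat.card {v : Fin n → F // (∀ i, x ≤ compLabel a i → v i = 0) ∧
    ∀ i, y < compLabel b i → (((g⁻¹ : GL (Fin n) F) : Matrix (Fin n) (Fin n) F) *ᵥ v) i = 0}

omit [Finite F] in
theorem mulVec_zero_of_mem {μ : Fin n → ℕ} {p : GL (Fin n) F} (hp : p ∈ parabolicGL n F μ) (x : ℕ)
    {v : Fin n → F} (hv : ∀ i, x ≤ compLabel μ i → v i = 0) (i : Fin n) (hi : x ≤ compLabel μ i) :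
    ((p : Matrix (Fin n) (Fin n) F) *ᵥ v) i = 0 := by
  show ∑ l, (p : Matrix (Fin n) (Fin n) F) i l * v l = 0
  refine Finset.sum_eq_zero fun l _ => ?_
  rcases lt_or_ge (compLabel μ l) (compLabel μ i) with h | h
  · exact mul_eq_zero_of_left (hp h) _
  · exact mul_eq_zero_of_right _ (hv l (hi.trans h))

theorem flagCount_mul (a b : Fin n → ℕ) {p q : GL (Fin n) F} (hp : p ∈ parabolicGL n F a)
    (hq : q ∈ parabolicGL n F b) (g : GL (Fin n) F) (x y : ℕ) :
    flagCount a b (p * g * q) x y = flagCount a b g x y := by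
  symm
  refine Nat.card_congr (Equiv.ofBijective
    (fun v => ⟨(p : Matrix (Fin n) (Fin n) F) *ᵥ v.1, fun i hi => mulVec_zero_of_mem hp x v.2.1 i hi,
      fun i hi => ?_⟩) ⟨fun v w e => ?_, fun w => ?_⟩)
  · rw [mulVec_mulVec, ← Units.val_mul, show (p * g * q)⁻¹ * p = q⁻¹ * g⁻¹ by group, Units.val_mul,
      ← mulVec_mulVec]
    exact mulVec_zero_of_mem (inv_mem hq) (y + 1) (fun l hl => v.2.2 l hl) i hi
  · have := congrArg (fun u => ((p⁻¹ : GL (Fin n) F) : Matrix (Fin n) (Fin n) F) *ᵥ u.1) e
    simp only [mulVec_mulVec, Units.inv_mul, one_mulVec] at this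
    exact Subtype.ext this
  · refine ⟨⟨((p⁻¹ : GL (Fin n) F) : Matrix (Fin n) (Fin n) F) *ᵥ w.1,
      fun i hi => mulVec_zero_of_mem (inv_mem hp) x w.2.1 i hi, fun i hi => ?_⟩, Subtype.ext ?_⟩
    · rw [mulVec_mulVec, ← Units.val_mul, show g⁻¹ * p⁻¹ = q * (p * g * q)⁻¹ by group,
        Units.val_mul, ← mulVec_mulVec]
      exact mulVec_zero_of_mem hq (y + 1) (fun l hl => w.2.2 l hl) i hi
    · show (p : Matrix (Fin n) (Fin n) F) *ᵥ
        (((p⁻¹ : GL (Fin n) F) : Matrix (Fin n) (Fin n) F) *ᵥ w.1) = w.1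
      rw [mulVec_mulVec, Units.mul_inv, one_mulVec]

theorem flagCount_pm (a b : Fin n → ℕ) (σ : Equiv.Perm (Fin n)) (x y : ℕ) :
    flagCount a b (pm n F σ) x y = Nat.card F ^
      (Finset.univ.filter fun j : Fin n => compLabel a (σ j) < x ∧ compLabel b j ≤ y).card := by
  classical
  have hm := isMono_mono (F := F) σ
  have hinv : ∀ (v : Fin n → F) j,
      ((((pm n F σ)⁻¹ : GL (Fin n) F) : Matrix (Fin n) (Fin n) F) *ᵥ v) j =
        (mono n F σ)⁻¹ j (σ j) * v (σ j) := by
    intro v j
    rw [pm, ← map_inv]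
    show ∑ l, ((mono n F σ)⁻¹ : SpecialLinearGroup (Fin n) F) j l * v l = _
    rw [Fintype.sum_eq_single (σ j) (fun l hl => by
      rw [hm.inv j l (fun e => hl (by simp [e])), zero_mul])]
  set S := Finset.univ.filter fun j : Fin n => compLabel a (σ j) < x ∧ compLabel b j ≤ y with hS
  have e : {v : Fin n → F // (∀ i, x ≤ compLabel a i → v i = 0) ∧
      ∀ i, y < compLabel b i → ((((pm n F σ)⁻¹ : GL (Fin n) F) : Matrix (Fin n) (Fin n) F) *ᵥ v) i = 0} ≃
      (S → F) :=
    { toFun := fun v j => v.1 (σ j.1)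
      invFun := fun f => ⟨fun i => if h : σ⁻¹ i ∈ S then f ⟨σ⁻¹ i, h⟩ else 0, fun i hi => by
          simp only
          refine dif_neg fun h => ?_
          have := (Finset.mem_filter.1 h).2.1
          simp at this
          omega, fun i hi => by
          rw [hinv]
          simp only [Equiv.Perm.coe_inv, Equiv.symm_apply_apply]
          rw [dif_neg, mul_zero]
          intro h
          have := (Finset.mem_filter.1 h).2.2
          omega⟩
      left_inv := fun v => by
        refine Subtype.ext (funext fun i => ?_)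
        simp only
        split_ifs with h
        · simp
        · have h' : ¬ (compLabel a i < x ∧ compLabel b (σ⁻¹ i) ≤ y) := fun hh =>
            h (Finset.mem_filter.2 ⟨Finset.mem_univ _, by simpa using hh⟩)
          rw [not_and_or, not_lt, not_le] at h'
          rcases h' with h' | h'
          · exact (v.2.1 i h').symm
          · have := v.2.2 _ h'
            rw [hinv, mul_eq_zero] at this
            have := this.resolve_left (hm.conj_coeff_ne_zero _)
            simpa using this.symm
      right_inv := fun f => funext fun j => by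
        simp [j.2] }
  rw [flagCount, Nat.card_congr e, Nat.card_fun, Nat.card_eq_fintype_card (α := S),
    Fintype.card_coe]

/-- The flag counts determine the intersection numbers. -/
theorem cnt_eq_of_flagCount (a b : Fin n → ℕ) (σ τ : Equiv.Perm (Fin n))
    (h : ∀ x y, flagCount a b (pm n F σ) x y = flagCount a b (pm n F τ) x y) :
    cnt a b σ = cnt a b τ := by
  classical
  let S : Equiv.Perm (Fin n) → ℕ → ℕ → ℕ := fun π x y =>
    (Finset.univ.filter fun j : Fin n => compLabel a (π j) < x ∧ compLabel b j ≤ y).card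
  let E : Equiv.Perm (Fin n) → ℕ → ℕ → ℕ := fun π x y =>
    (Finset.univ.filter fun j : Fin n => compLabel a (π j) = x ∧ compLabel b j ≤ y).card
  have hS : ∀ x y, S σ x y = S τ x y := fun x y => by
    have := h x y
    rw [flagCount_pm, flagCount_pm] at this
    exact Nat.pow_right_injective Finite.one_lt_card this
  have hSE : ∀ π x y, S π (x + 1) y = S π x y + E π x y := by
    intro π x y
    simp only [S, E]
    rw [← Finset.card_union_of_disjoint (Finset.disjoint_filter.2 fun j _ h h' => by omega),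
      ← Finset.filter_or]
    congr 1
    refine Finset.filter_congr fun j _ => ?_
    omega
  have hE : ∀ x y, E σ x y = E τ x y := fun x y => by
    have h1 := hSE σ x y
    rw [hS, hS, hSE τ x y] at h1
    omega
  have hc0 : ∀ π x, cnt a b π x 0 = E π x 0 := fun π x => by
    simp [cnt, E]
  have hcs : ∀ π x y, E π x (y + 1) = E π x y + cnt a b π x (y + 1) := by
    intro π x y
    simp only [cnt, E]
    rw [← Finset.card_union_of_disjoint (Finset.disjoint_filter.2 fun j _ h h' => by omega),
      ← Finset.filter_or]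
    congr 1
    refine Finset.filter_congr fun j _ => ?_
    omega
  funext x y
  rcases y with _ | y
  · rw [hc0, hc0, hE]
  · have h1 := hcs σ x y
    rw [hE, hE, hcs τ x y] at h1
    omega

theorem pairOrbit_pm_iff (a b : Fin n → ℕ) (σ τ : Equiv.Perm (Fin n)) :
    pairOrbit (parabolicGL n F a) (parabolicGL n F b) (pm n F σ) =
      pairOrbit (parabolicGL n F a) (parabolicGL n F b) (pm n F τ) ↔
        cnt a b σ = cnt a b τ := by
  rw [pairOrbit_eq_iff]
  constructor
  · rintro ⟨p, hp, q, hq, e⟩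
    exact cnt_eq_of_flagCount a b σ τ fun x y => by
      rw [e, flagCount_mul a b hp hq]
  · intro h
    obtain ⟨u, hu, k, hk, rfl⟩ := (cnt_eq_iff a b σ τ).1 h
    have hmm : IsMono (u * σ * k) (mono n F u * mono n F σ * mono n F k) :=
      ((isMono_mono u).mul (isMono_mono σ)).mul (isMono_mono k)
    have ht : IsMono 1 ((mono n F u * mono n F σ * mono n F k)⁻¹ * mono n F (u * σ * k)) := by
      have := hmm.inv.mul (isMono_mono (F := F) (u * σ * k))
      rwa [inv_mul_cancel] at this
    refine ⟨pm n F u, pm_young_mem a hu, pm n F k * Matrix.SpecialLinearGroup.toGL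
      ((mono n F u * mono n F σ * mono n F k)⁻¹ * mono n F (u * σ * k)),
      mul_mem (pm_young_mem b hk) (mem_parabolic_of_isUp b (isUp_of_isMono_one ht)), ?_⟩
    simp only [pm, ← map_mul]
    congr 1
    group

variable [Fintype (GL (Fin n) F)]

/-- The parabolic double cosets are counted by matrices with given margins. -/
theorem classInner_parabolic {a b : Fin n → ℕ} (ha : ∑ i, a i = n) (hb : ∑ i, b i = n) :
    classInner (fixedPointCharacter (parabolicGL n F a)) (fixedPointCharacter (parabolicGL n F b)) =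
      (marginCount a b : ℂ) := by
  classical
  rw [classInner_fixedPoint]
  norm_cast
  refine (card_eq_of_same_kernel (W := Equiv.Perm (Fin n))
    (fun σ => pairOrbit (parabolicGL n F a) (parabolicGL n F b) (pm n F σ))
    (fun σ => (⟨fun x y => cnt a b σ x y, cnt_margins ha hb σ⟩ :
      {A : Fin n → Fin n → ℕ // (∀ i, ∑ j, A i j = a i) ∧ ∀ j, ∑ i, A i j = b j}))
    (fun q => pairOrbit_pm_surjective a b q) ?_ ?_)
  · rintro ⟨A, hr, hc⟩
    obtain ⟨σ, hσ⟩ := exists_cnt_eq ha hb A hr hc
    exact ⟨σ, Subtype.ext (funext fun x => funext fun y => hσ x y)⟩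
  · intro s t
    rw [pairOrbit_pm_iff, Subtype.ext_iff]
    constructor
    · intro e; funext x y
      show cnt a b s x y = cnt a b t x y
      rw [e]
    · intro e
      funext x y
      by_cases hxy : x < n ∧ y < n
      · exact congrFun (congrFun e ⟨x, hxy.1⟩) ⟨y, hxy.2⟩
      · rw [cnt_eq_zero ha hb s (by omega), cnt_eq_zero ha hb t (by omega)]

end CfsgLib.ClassK.GLn
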