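import Cfsg.Agent.Lib.ClassK.GLDoubleCosets
import Cfsg.Agent.S2420
import Cfsg.Agent.Lib.Brauer.CharRing

/-!
# The unipotent characters of `GLₙ(q)`
-/

set_option autoImplicit false
set_option linter.style.haveILetI false
set_option linter.unusedSectionVars false

open Matrix Cfsg

namespace CfsgLib.ClassK.GLn

variable {n : ℕ} {F : Type*} [Field F]

theorem strictMono_add_val {ν : Fin n → ℕ} (hmono : Monotone ν) :
    StrictMono fun i : Fin n => ν i + i.val := fun i j h =>
  Nat.add_lt_add_of_le_of_lt (hmono h.le) (Fin.lt_def.1 h)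

theorem sum_shift {ν : Fin n → ℕ} (hsum : ∑ i, ν i = n) {κ : Equiv.Perm (Fin n)}
    (h : ∀ i : Fin n, (κ i).val ≤ ν i + i.val) : ∑ i, (ν i + i.val - (κ i).val) = n := by
  have e : ∑ i, (ν i + i.val - (κ i).val) + ∑ i, ((κ i).val) = ∑ i, (ν i + i.val) := by
    rw [← Finset.sum_add_distrib]
    exact Finset.sum_congr rfl fun i _ => Nat.sub_add_cancel (h i)
  rw [Equiv.sum_comp κ (fun i : Fin n => i.val), Finset.sum_add_distrib, hsum] at e
  omega

theorem unipotent_eq_sum (ν : Fin n → ℕ) :
    unipotentCharacterGL n F ν = ∑ κ : Equiv.Perm (Fin n),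
      ((Equiv.Perm.sign κ : ℤ) : ℂ) • (if ∀ i : Fin n, (κ i).val ≤ ν i + i.val then
        fixedPointCharacter (parabolicGL n F fun i => ν i + i.val - (κ i).val) else 0) := by
  funext g
  rw [Finset.sum_apply, unipotentCharacterGL]
  refine Finset.sum_congr rfl fun κ _ => ?_
  by_cases h : ∀ i : Fin n, (κ i).val ≤ ν i + i.val
  · rw [if_pos h, if_pos h, Pi.smul_apply, smul_eq_mul]
  · rw [if_neg h, if_neg h, Pi.smul_apply, Pi.zero_apply, smul_zero]

variable [Fintype F]

/-- The orthogonality of the unipotent characters. -/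
theorem classInner_unipotent [Fintype (GL (Fin n) F)] {ν ν' : Fin n → ℕ} (hmono : Monotone ν)
    (hsum : ∑ i, ν i = n) (hmono' : Monotone ν') (hsum' : ∑ i, ν' i = n) :
    classInner (unipotentCharacterGL n F ν) (unipotentCharacterGL n F ν') =
      if ν = ν' then 1 else 0 := by
  classical
  have key := Frobenius.sum_sign_marginCount _ _ (strictMono_add_val hmono) (strictMono_add_val hmono')
  have key' := congrArg (fun z : ℤ => (z : ℂ)) key
  simp only [Int.cast_sum] at key'
  rw [unipotent_eq_sum, unipotent_eq_sum, CharTheory.classInner_sum_left]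
  refine Eq.trans ?_ (key'.trans ?_)
  · refine Finset.sum_congr rfl fun κ _ => ?_
    rw [CharTheory.classInner_sum_right]
    refine Finset.sum_congr rfl fun κ' _ => ?_
    rw [CharTheory.classInner_smul_left, CharTheory.classInner_smul_right, map_intCast]
    by_cases h : ∀ i : Fin n, (κ i).val ≤ ν i + i.val
    · by_cases h' : ∀ i : Fin n, (κ' i).val ≤ ν' i + i.val
      · rw [if_pos h, if_pos h', if_pos ⟨h, h'⟩,
          classInner_parabolic (sum_shift hsum h) (sum_shift hsum' h')]
        push_cast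
        ring
      · rw [if_pos h, if_neg h', CharTheory.classInner_zero_right, if_neg (fun e => h' e.2),
          mul_zero, mul_zero, mul_zero, Int.cast_zero]
    · rw [if_neg h, CharTheory.classInner_zero_left, if_neg (fun e => h e.1), mul_zero, mul_zero,
        mul_zero, Int.cast_zero]
  · have hiff : ((fun i : Fin n => ν i + i.val) = fun i : Fin n => ν' i + i.val) ↔ ν = ν' :=
      ⟨fun e => funext fun i => Nat.add_right_cancel (congrFun e i), fun e => e ▸ rfl⟩
    by_cases hν : ν = ν'
    · rw [if_pos hν, if_pos (hiff.2 hν), Int.cast_one]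
    · rw [if_neg hν, if_neg (fun e => hν (hiff.1 e)), Int.cast_zero]

/-- The q-integer. -/
def qInt (q r : ℕ) : ℕ := ∑ l ∈ Finset.range r, q ^ l

theorem qInt_strictMono {q : ℕ} (hq : 0 < q) : StrictMono (qInt q) :=
  strictMono_nat_of_lt_succ fun r => by
    rw [qInt, qInt, Finset.sum_range_succ]
    exact Nat.lt_add_of_pos_right (pow_pos hq r)

theorem qInt_sub_mul {q l a : ℕ} (h : l ≤ a) :
    (q : ℂ) ^ l * (qInt q (a - l) : ℂ) = (qInt q a : ℂ) - (qInt q l : ℂ) := by
  rw [eq_sub_iff_add_eq, add_comm]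
  have : qInt q a = qInt q l + q ^ l * qInt q (a - l) := by
    simp only [qInt]
    rw [Finset.mul_sum, Finset.sum_congr rfl (fun x _ => (pow_add q l x).symm)]
    conv_lhs => rw [show a = l + (a - l) by omega, Finset.sum_range_add]
  rw [this]
  push_cast
  ring

/-- The `q`-falling factorial. -/
noncomputable def qDesc (q a j : ℕ) : ℂ :=
  if j ≤ a then ∏ l ∈ Finset.range j, (qInt q (a - l) : ℂ) else 0

theorem qDesc_eq (q a j : ℕ) : (q : ℂ) ^ (∑ l ∈ Finset.range j, l) * qDesc q a j =
    ∏ l ∈ Finset.range j, ((qInt q a : ℂ) - (qInt q l : ℂ)) := by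
  rw [qDesc]
  split_ifs with h
  · rw [← Finset.prod_pow_eq_pow_sum, ← Finset.prod_mul_distrib]
    exact Finset.prod_congr rfl fun l hl =>
      qInt_sub_mul ((Finset.mem_range.1 hl).le.trans h)
  · rw [mul_zero, Finset.prod_eq_zero (Finset.mem_range.2 (lt_of_not_ge h)) (sub_self _)]

theorem prod_qInt_split (q : ℕ) {a j : ℕ} (h : j ≤ a) :
    (∏ l ∈ Finset.range a, (qInt q (l + 1) : ℂ)) =
      (∏ l ∈ Finset.range (a - j), (qInt q (l + 1) : ℂ)) * qDesc q a j := by
  rw [qDesc, if_pos h]
  induction j with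
  | zero => simp
  | succ j ih =>
    rw [ih (by omega), Finset.prod_range_succ, show a - j = (a - (j + 1)) + 1 by omega,
      Finset.prod_range_succ]
    ring

theorem two_le_card : 2 ≤ Fintype.card F := Fintype.one_lt_card

theorem fixedPoint_one {G : Type*} [Group G] (H : Subgroup G) :
    fixedPointCharacter H 1 = (Nat.card (G ⧸ H) : ℂ) := by
  rw [fixedPointCharacter]
  congr 1
  exact Nat.card_congr ((Equiv.setCongr (Set.eq_univ_of_forall fun x => one_smul G x)).trans
    (Equiv.Set.univ _))

/-- The degree of a unipotent character. -/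
theorem unipotent_degree {q : ℕ} (hq : Fintype.card F = q) (ν : Fin n → ℕ) (hsum : ∑ i, ν i = n) :
    unipotentCharacterGL n F ν 1 * (q : ℂ) ^ (∑ i : Fin n, ∑ l ∈ Finset.range i.val, l) *
        ∏ i : Fin n, ∏ j ∈ Finset.range (ν i + i.val), (qInt q (j + 1) : ℂ) =
      (∏ j ∈ Finset.range n, (qInt q (j + 1) : ℂ)) *
        ∏ i : Fin n, ∏ j ∈ Finset.univ.filter (fun j : Fin n => i < j),
          ((qInt q (ν j + j.val) : ℂ) - (qInt q (ν i + i.val) : ℂ)) := by
  classical
  set lam : Fin n → ℕ := fun i => ν i + i.val with hlam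
  have hterm : ∀ κ : Equiv.Perm (Fin n),
      (if ∀ i : Fin n, (κ i).val ≤ lam i then
          ((Equiv.Perm.sign κ : ℤ) : ℂ) *
            fixedPointCharacter (parabolicGL n F fun i => lam i - (κ i).val) 1 else 0) *
        ∏ i : Fin n, ∏ j ∈ Finset.range (lam i), (qInt q (j + 1) : ℂ) =
      (∏ j ∈ Finset.range n, (qInt q (j + 1) : ℂ)) *
        (((Equiv.Perm.sign κ : ℤ) : ℂ) * ∏ i, qDesc q (lam i) (κ i).val) := by
    intro κ
    split_ifs with h
    · have e1 : ∏ i : Fin n, ∏ j ∈ Finset.range (lam i), (qInt q (j + 1) : ℂ) =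
          (∏ i : Fin n, ∏ j ∈ Finset.range (lam i - (κ i).val), (qInt q (j + 1) : ℂ)) *
            ∏ i, qDesc q (lam i) (κ i).val := by
        rw [← Finset.prod_mul_distrib]
        exact Finset.prod_congr rfl fun i _ => prod_qInt_split q (h i)
      have e2 := congrArg (fun z : ℕ => (z : ℂ))
        (Cfsg.Agent.S2420.result (F := F) hq (fun i => lam i - (κ i).val) (sum_shift hsum h))
      push_cast at e2
      simp only [qInt, Nat.cast_sum, Nat.cast_pow] at e1 ⊢
      rw [e1, fixedPoint_one, ← e2]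
      ring
    · push Not at h
      obtain ⟨i, hi⟩ := h
      rw [zero_mul, Finset.prod_eq_zero (Finset.mem_univ i) (if_neg (not_le.2 hi)), mul_zero,
        mul_zero]
  have hdet : (∑ κ : Equiv.Perm (Fin n), ((Equiv.Perm.sign κ : ℤ) : ℂ) *
      ∏ i, qDesc q (lam i) (κ i).val) = (Matrix.of fun i j : Fin n => qDesc q (lam i) j.val).det := by
    rw [← Matrix.det_transpose, Matrix.det_apply']
    simp [Matrix.transpose_apply]
  have hvan : (q : ℂ) ^ (∑ i : Fin n, ∑ l ∈ Finset.range i.val, l) *
      (Matrix.of fun i j : Fin n => qDesc q (lam i) j.val).det =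
        ∏ i : Fin n, ∏ j ∈ Finset.univ.filter (fun j : Fin n => i < j),
          ((qInt q (lam j) : ℂ) - (qInt q (lam i) : ℂ)) := by
    let P : Fin n → Polynomial ℂ := fun j =>
      ∏ l ∈ Finset.range j.val, (Polynomial.X - Polynomial.C (qInt q l : ℂ))
    have hdeg : ∀ j, (P j).natDegree = j.val := fun j => by
      rw [Polynomial.natDegree_prod_of_monic _ _ fun l _ => Polynomial.monic_X_sub_C _,
        Finset.sum_congr rfl fun l _ => Polynomial.natDegree_X_sub_C _]
      simp
    have hmon : ∀ j, (P j).Monic := fun j =>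
      Polynomial.monic_prod_of_monic _ _ fun l _ => Polynomial.monic_X_sub_C _
    have hV := Matrix.det_eval_matrixOfPolynomials_eq_det_vandermonde
      (fun i : Fin n => (qInt q (lam i) : ℂ)) P hdeg hmon
    rw [Matrix.det_vandermonde] at hV
    have hIoi : ∀ i : Fin n, Finset.univ.filter (fun j : Fin n => i < j) = Finset.Ioi i := fun i => by
      ext j; simp
    simp only [hIoi]
    rw [hV, ← Finset.prod_pow_eq_pow_sum, ← Matrix.det_mul_row]
    congr 1
    refine Matrix.ext fun i j => ?_
    simp only [Matrix.of_apply, P, Polynomial.eval_prod, Polynomial.eval_sub, Polynomial.eval_X,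
      Polynomial.eval_C]
    exact qDesc_eq q (lam i) j.val
  rw [← hvan, ← hdet, unipotentCharacterGL]
  rw [mul_right_comm, Finset.sum_mul]
  rw [Finset.sum_congr rfl fun κ _ => hterm κ]
  rw [← Finset.mul_sum]
  ring

theorem sum_sum_range (n : ℕ) :
    ∑ i : Fin n, ∑ l ∈ Finset.range i.val, l = n * (n - 1) * (n - 2) / 6 := by
  rw [Fin.sum_univ_eq_sum_range (fun i => ∑ l ∈ Finset.range i, l)]
  have h : ∀ m : ℕ, 6 * (∑ i ∈ Finset.range m, ∑ l ∈ Finset.range i, l) = m * (m - 1) * (m - 2) := by
    intro m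
    induction m with
    | zero => simp
    | succ m ih =>
      rw [Finset.sum_range_succ, mul_add, ih,
        show 6 * (∑ l ∈ Finset.range m, l) = 3 * ((∑ l ∈ Finset.range m, l) * 2) by ring,
        Finset.sum_range_id_mul_two]
      rcases m with _ | _ | m
      · simp
      · simp
      · simp only [Nat.add_sub_cancel, show m + 1 + 1 - 2 = m by omega,
          show m + 1 + 1 + 1 - 2 = m + 1 by omega]
        ring
  rw [← h n, Nat.mul_div_cancel_left _ (by norm_num : 0 < 6)]

/-- The degree is positive. -/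
theorem unipotent_degree_pos {ν : Fin n → ℕ} (hmono : Monotone ν) (hsum : ∑ i, ν i = n) :
    0 < (unipotentCharacterGL n F ν 1).re := by
  classical
  set q := Fintype.card F with hqdef
  have hq0 : 0 < q := Fintype.card_pos
  have h := unipotent_degree (F := F) (q := q) rfl ν hsum
  set A : ℕ := q ^ (∑ i : Fin n, ∑ l ∈ Finset.range i.val, l) *
    ∏ i : Fin n, ∏ j ∈ Finset.range (ν i + i.val), qInt q (j + 1) with hA
  set B : ℕ := (∏ j ∈ Finset.range n, qInt q (j + 1)) *
    ∏ i : Fin n, ∏ j ∈ Finset.univ.filter (fun j : Fin n => i < j),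
      (qInt q (ν j + j.val) - qInt q (ν i + i.val)) with hB
  have hpos : ∀ r, 0 < qInt q (r + 1) := fun r =>
    (Nat.zero_le _).trans_lt (qInt_strictMono hq0 (Nat.lt_succ_self r))
  have hA0 : 0 < A := Nat.mul_pos (pow_pos hq0 _)
    (Finset.prod_pos fun i _ => Finset.prod_pos fun j _ => hpos j)
  have hB0 : 0 < B := Nat.mul_pos (Finset.prod_pos fun j _ => hpos j)
    (Finset.prod_pos fun i _ => Finset.prod_pos fun j hj =>
      Nat.sub_pos_of_lt (qInt_strictMono hq0 (strictMono_add_val hmono (Finset.mem_filter.1 hj).2)))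
  have e : unipotentCharacterGL n F ν 1 * (A : ℂ) = (B : ℂ) := by
    rw [hA, hB]
    push_cast
    rw [← mul_assoc, h]
    congr 1
    refine Finset.prod_congr rfl fun i _ => Finset.prod_congr rfl fun j hj => ?_
    exact (Nat.cast_sub ((qInt_strictMono hq0).monotone
      ((strictMono_add_val hmono).monotone (Finset.mem_filter.1 hj).2.le))).symm
  have e2 : unipotentCharacterGL n F ν 1 = ((B : ℝ) / A : ℝ) := by
    rw [Complex.ofReal_div, Complex.ofReal_natCast, Complex.ofReal_natCast]
    exact eq_div_of_mul_eq (Nat.cast_ne_zero.2 hA0.ne') e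
  rw [e2, Complex.ofReal_re]
  positivity

theorem isGeneralizedCharacter_unipotent [Fintype (GL (Fin n) F)] (ν : Fin n → ℕ) :
    IsGeneralizedCharacter (GL (Fin n) F) (unipotentCharacterGL n F ν) := by
  classical
  rw [unipotent_eq_sum]
  refine CfsgLib.Coherence.isGeneralizedCharacter_sum _ _ fun κ _ => ?_
  rw [Int.cast_smul_eq_zsmul]
  refine CfsgLib.Brauer.isGeneralizedCharacter_zsmul ?_ _
  split_ifs
  · exact CharTheory.IsCharacter.isGeneralizedCharacter (CharTheory.isCharacter_card_fixedBy _)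
  · exact CfsgLib.Coherence.isGeneralizedCharacter_zero

/-- The unipotent characters are irreducible. -/
theorem isIrrCharacter_unipotent {ν : Fin n → ℕ} (hmono : Monotone ν) (hsum : ∑ i, ν i = n) :
    IsIrrCharacter (GL (Fin n) F) (unipotentCharacterGL n F ν) := by
  classical
  haveI := Fintype.ofFinite (GL (Fin n) F)
  exact CharTheory.isIrrCharacter_of_norm_one (isGeneralizedCharacter_unipotent ν)
    ((classInner_unipotent hmono hsum hmono hsum).trans (if_pos rfl))
    (unipotent_degree_pos hmono hsum)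

theorem unipotent_injective {ν ν' : Fin n → ℕ} (hmono : Monotone ν) (hsum : ∑ i, ν i = n)
    (hmono' : Monotone ν') (hsum' : ∑ i, ν' i = n)
    (h : unipotentCharacterGL n F ν = unipotentCharacterGL n F ν') : ν = ν' := by
  classical
  haveI := Fintype.ofFinite (GL (Fin n) F)
  by_contra hne
  have h1 := classInner_unipotent (F := F) hmono hsum hmono' hsum'
  rw [if_neg hne, ← h, classInner_unipotent hmono hsum hmono hsum, if_pos rfl] at h1
  exact one_ne_zero h1

end CfsgLib.ClassK.GLn
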