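import Cfsg.Prelude.Def_ClassificationK
import Cfsg.Agent.Lib.Fischer2.LargeExtraspecial
import Cfsg.Agent.Lib.TwoGroups.NormalAbelian

/-!
2-groups of symplectic type of exponent dividing 4: squares and commutators are `1` or the
central involution `z`.
-/

set_option autoImplicit false

namespace CfsgLib.ClassK

open Cfsg

variable {T : Type*} [Group T] [Finite T]

private theorem cyclic_two_involutions {A : Type*} [Group A] [Finite A] [IsCyclic A] {a b : A}
    (ha : a * a = 1) (hb : b * b = 1) (ha1 : a ≠ 1) : b = 1 ∨ b = a := by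
  by_contra h
  push Not at h
  classical
  have := Fintype.ofFinite A
  have hsub : ({1, a, b} : Finset A) ⊆ Finset.univ.filter (fun x : A => x ^ 2 = 1) := by
    intro x hx
    simp only [Finset.mem_insert, Finset.mem_singleton] at hx
    rcases hx with rfl | rfl | rfl <;> simp [sq, ha, hb]
  have h2 := (Finset.card_le_card hsub).trans (IsCyclic.card_pow_eq_one_le (α := A) two_pos)
  have h3 : ({1, a, b} : Finset A).card = 3 :=
    Finset.card_eq_three.mpr ⟨1, a, b, ha1.symm, h.1.symm, h.2.symm, rfl⟩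
  omega

theorem symplectic_center_involution (hT : IsOfSymplecticType T) {z x : T} (hz : z ∈ Subgroup.center T)
    (hz2 : z * z = 1) (hz1 : z ≠ 1) (hx : x ∈ Subgroup.center T) (hx2 : x * x = 1) :
    x = 1 ∨ x = z := by
  haveI : IsCyclic ↥(Subgroup.center T) := hT.2 _ inferInstance inferInstance
  rcases cyclic_two_involutions (a := (⟨z, hz⟩ : ↥(Subgroup.center T))) (b := ⟨x, hx⟩) (Subtype.ext hz2)
    (Subtype.ext hx2) (fun e => hz1 (congrArg Subtype.val e)) with e | e
  · exact Or.inl (congrArg Subtype.val e)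
  · exact Or.inr (congrArg Subtype.val e)

section
variable {u z : T}

private theorem frattini_commutes (hT : IsPGroup 2 T) (hz : z ∈ Subgroup.center T) (hz2 : z * z = 1)
    (hu : ∀ g : T, g * u * g⁻¹ = u ∨ g * u * g⁻¹ = u * z) : ∀ x ∈ frattini T, x * u = u * x := by
  set C := Subgroup.centralizer ({u} : Set T) with hC
  have hmul : ∀ g h : T, g ∉ C → h ∉ C → g * h⁻¹ ∈ C := by
    intro g h hg hh
    rw [hC, Subgroup.mem_centralizer_singleton_iff] at hg hh ⊢
    have hg' : g * u * g⁻¹ = u * z := (hu g).resolve_left fun e => hg (mul_inv_eq_iff_eq_mul.mp e)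
    have hh' : h * u * h⁻¹ = u * z := (hu h).resolve_left fun e => hh (mul_inv_eq_iff_eq_mul.mp e)
    have hzc : ∀ y : T, y * z = z * y := fun y => Subgroup.mem_center_iff.mp hz y
    have e1 : h⁻¹ * u = u * z⁻¹ * h⁻¹ := by
      calc h⁻¹ * u = h⁻¹ * (u * z) * z⁻¹ := by group
        _ = h⁻¹ * (h * u * h⁻¹) * z⁻¹ := by rw [hh']
        _ = u * (h⁻¹ * z⁻¹) := by group
        _ = _ := by rw [(show Commute h⁻¹ z⁻¹ from (show Commute h z from hzc h).inv_inv).eq]; group
    have e2 : g * u = u * z * g := by rw [← hg']; group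
    calc g * h⁻¹ * u = (g * u) * z⁻¹ * h⁻¹ := by rw [mul_assoc g, e1]; group
      _ = u * (z * g) * z⁻¹ * h⁻¹ := by rw [e2]; group
      _ = u * (g * h⁻¹) := by rw [← hzc g]; group
  intro x hx
  by_contra hxu
  have hxC : x ∉ C := fun h => hxu (Subgroup.mem_centralizer_singleton_iff.mp h)
  refine hxC (frattini_le_coatom ⟨fun e => hxC (by rw [e]; exact Subgroup.mem_top x), fun K hK => ?_⟩ hx)
  obtain ⟨g, hgK, hgC⟩ := SetLike.exists_of_lt hK
  rw [eq_top_iff]
  intro y _
  by_cases hyC : y ∈ C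
  · exact hK.le hyC
  · simpa using K.mul_mem (hK.le (hmul y g hyC hgC)) hgK

/-- No involution of `Φ(T)` outside `⟨z⟩` is fixed modulo `z`. -/
private theorem no_involution (hT : IsOfSymplecticType T) (hz : z ∈ Subgroup.center T) (hz2 : z * z = 1)
    (hz1 : z ≠ 1) (hu : ∀ g : T, g * u * g⁻¹ = u ∨ g * u * g⁻¹ = u * z) (huΦ : u ∈ frattini T)
    (hu2 : u * u = 1) : u = 1 ∨ u = z := by
  by_cases hu1 : u = 1
  · exact Or.inl hu1
  set A : Subgroup T := frattini T ⊓ Subgroup.centralizer (frattini T : Set T) with hA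
  haveI : A.Characteristic := by rw [hA]; infer_instance
  haveI hAc : IsMulCommutative ↥A := ⟨⟨fun a b => Subtype.ext
    ((Subgroup.mem_centralizer_iff.mp a.2.2 b b.2.1).symm)⟩⟩
  haveI : IsCyclic ↥A := hT.2 A inferInstance hAc
  have huA : u ∈ A := ⟨huΦ, Subgroup.mem_centralizer_iff.mpr fun x hx =>
    frattini_commutes hT.1 hz hz2 hu x hx⟩
  refine symplectic_center_involution hT hz hz2 hz1 (Subgroup.mem_center_iff.mpr fun g => ?_) hu2
  have hgu : g * u * g⁻¹ ∈ A := (inferInstance : A.Normal).conj_mem u huA g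
  have hgu2 : (g * u * g⁻¹) * (g * u * g⁻¹) = 1 := by
    calc (g * u * g⁻¹) * (g * u * g⁻¹) = g * (u * u) * g⁻¹ := by group
      _ = 1 := by rw [hu2]; group
  rcases cyclic_two_involutions (a := (⟨u, huA⟩ : ↥A)) (b := ⟨_, hgu⟩) (Subtype.ext hu2)
    (Subtype.ext hgu2) (fun e => hu1 (congrArg Subtype.val e)) with e | e
  · exfalso
    have e' : g * u * g⁻¹ = 1 := congrArg Subtype.val e
    exact hu1 (by
      calc u = g⁻¹ * (g * u * g⁻¹) * g := by group
        _ = 1 := by rw [e']; group)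
  · exact mul_inv_eq_iff_eq_mul.mp (congrArg Subtype.val e)

end

private theorem exists_fixed_mod {p : ℕ} [Fact p.Prime] (hT : IsPGroup p T) (N K : Subgroup T)
    [N.Normal] [K.Normal] (h : ¬ N ≤ K) :
    ∃ u ∈ N, u ∉ K ∧ ∀ g : T, u⁻¹ * (g * u * g⁻¹) ∈ K := by
  haveI : (N.map (QuotientGroup.mk' K)).Normal :=
    (inferInstance : N.Normal).map _ (QuotientGroup.mk'_surjective K)
  obtain ⟨c, ⟨u, hu, rfl⟩, hc1, hc⟩ := CfsgLib.TwoGroups.exists_mem_center_of_normal
    (hT.to_quotient K) (N := N.map (QuotientGroup.mk' K)) (fun e => h (by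
      rwa [Subgroup.map_eq_bot_iff, QuotientGroup.ker_mk'] at e))
  refine ⟨u, hu, fun h' => hc1 ((QuotientGroup.eq_one_iff u).mpr h'), fun g => ?_⟩
  rw [← QuotientGroup.eq]
  have := Subgroup.mem_center_iff.mp hc (g : T ⧸ K)
  simp only [QuotientGroup.mk'_apply] at this
  rw [QuotientGroup.mk_mul, QuotientGroup.mk_mul, QuotientGroup.mk_inv, this, mul_inv_cancel_right]

/-- In a 2-group of symplectic type of exponent dividing 4 with central involution `z`, all squares
are `1` or `z`. -/
theorem symplectic_exp_four_sq (hT : IsOfSymplecticType T) (h4 : ∀ x : T, x ^ 4 = 1) {z : T}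
    (hz : z ∈ Subgroup.center T) (hz2 : z * z = 1) (hz1 : z ≠ 1) (x : T) :
    x * x = 1 ∨ x * x = z := by
  haveI : Fact (Nat.Prime 2) := ⟨Nat.prime_two⟩
  have hzc : ∀ y : T, y * z = z * y := fun y => Subgroup.mem_center_iff.mp hz y
  have h4' : ∀ y : T, (y * y) * (y * y) = 1 := fun y => by
    rw [← h4 y, show 4 = 2 + 2 from rfl, pow_add, sq]
  set Z : Subgroup T := Subgroup.zpowers z with hZdef
  haveI hZn : Z.Normal := ⟨fun a ha g => by
    obtain ⟨k, rfl⟩ := ha
    have : Commute g (z ^ k) := (show Commute g z from hzc g).zpow_right k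
    rw [this.eq, mul_inv_cancel_right]
    exact ⟨k, rfl⟩⟩
  have hZ : ∀ {a : T}, a ∈ Z → a = 1 ∨ a = z := by
    intro a ha
    obtain ⟨k, rfl⟩ := ha
    rcases Int.even_or_odd' k with ⟨j, rfl | rfl⟩
    · exact Or.inl (by
        change z ^ (2 * j) = 1
        rw [zpow_mul, zpow_two, hz2, one_zpow])
    · refine Or.inr (?_ : z ^ (2 * j + 1) = z)
      rw [zpow_add_one, zpow_mul, zpow_two, hz2, one_zpow, one_mul]
  have hfix : ∀ {a : T}, (∀ g : T, a⁻¹ * (g * a * g⁻¹) ∈ Z) →
      ∀ g : T, g * a * g⁻¹ = a ∨ g * a * g⁻¹ = a * z := by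
    intro a ha g
    rcases hZ (ha g) with e | e
    · exact Or.inl (inv_mul_eq_one.mp e).symm
    · exact Or.inr (by rw [← e]; group)
  have hfix' : ∀ {a : T}, a ∈ frattini T → (∀ g : T, g * a * g⁻¹ = a ∨ g * a * g⁻¹ = a * z) →
      a * a = 1 ∨ a * a = z := by
    intro a _ ha
    refine symplectic_center_involution hT hz hz2 hz1 (Subgroup.mem_center_iff.mpr fun g => ?_) (h4' a)
    have h2 : g * (a * a) * g⁻¹ = a * a := by
      calc g * (a * a) * g⁻¹ = (g * a * g⁻¹) * (g * a * g⁻¹) := by group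
        _ = a * a := by
          rcases ha g with e | e <;> rw [e]
          rw [mul_assoc a z, ← mul_assoc z a, ← hzc a, mul_assoc a z, hz2, mul_one]
    exact mul_inv_eq_iff_eq_mul.mp h2
  have hsqΦ : x * x ∈ frattini T := by
    have := CfsgLib.Fischer2.sq_mem_frattini hT.1 x
    rwa [sq] at this
  by_cases hΦ : frattini T ≤ Z
  · exact hZ (hΦ hsqΦ)
  obtain ⟨u, huΦ, huZ, hu⟩ := exists_fixed_mod hT.1 (frattini T) Z hΦ
  have hu' := hfix hu
  have hu2 : u * u = z := by
    refine (hfix' huΦ hu').resolve_left fun e => ?_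
    rcases no_involution hT hz hz2 hz1 hu' huΦ e with rfl | rfl
    · exact huZ Z.one_mem
    · exact huZ (Subgroup.mem_zpowers _)
  set U : Subgroup T := Subgroup.zpowers u with hUdef
  have hzU : z ∈ U := hu2 ▸ U.mul_mem (Subgroup.mem_zpowers u) (Subgroup.mem_zpowers u)
  have hU : ∀ {a : T}, a ∈ U → a ∈ Z ∨ ∃ b ∈ Z, a = u * b := by
    intro a ha
    obtain ⟨k, rfl⟩ := ha
    rcases Int.even_or_odd' k with ⟨j, rfl | rfl⟩
    · refine Or.inl (?_ : u ^ (2 * j) ∈ Z)
      rw [zpow_mul, zpow_two, hu2]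
      exact ⟨j, rfl⟩
    · refine Or.inr ⟨z ^ j, ⟨j, rfl⟩, (?_ : u ^ (2 * j + 1) = u * z ^ j)⟩
      rw [add_comm, zpow_add, zpow_one, zpow_mul, zpow_two, hu2]
  haveI hUn : U.Normal := ⟨fun a ha g => by
    obtain ⟨k, rfl⟩ := ha
    change g * u ^ k * g⁻¹ ∈ U
    rw [← conj_zpow]
    refine U.zpow_mem ?_ k
    rcases hu' g with e | e <;> rw [e]
    · exact Subgroup.mem_zpowers u
    · exact U.mul_mem (Subgroup.mem_zpowers u) hzU⟩
  suffices hΦU : frattini T ≤ U by
    rcases hU (hΦU hsqΦ) with h | ⟨b, hb, e⟩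
    · exact hZ h
    · exfalso
      have := h4' x
      rw [e] at this
      rcases hZ hb with e' | e' <;> rw [e'] at this
      · rw [mul_one, hu2] at this; exact hz1 this
      · rw [mul_assoc u z, ← mul_assoc z u, ← hzc u, mul_assoc u z, hz2, mul_one, hu2] at this
        exact hz1 this
  by_contra hΦU
  obtain ⟨a, haΦ, haU, ha⟩ := exists_fixed_mod hT.1 (frattini T) U hΦU
  have hua : a * u = u * a := frattini_commutes hT.1 hz hz2 hu' a haΦ
  -- `a * a` is `1` or `z`
  have ha2 : a * a = 1 ∨ a * a = z := by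
    have hy : ∀ g : T, g * (a * a) * g⁻¹ = a * a ∨ g * (a * a) * g⁻¹ = a * a * z := by
      intro g
      set i := a⁻¹ * (g * a * g⁻¹) with hi
      have hgi : g * a * g⁻¹ = a * i := by rw [hi]; group
      have hai : a * i = i * a := by
        obtain ⟨k, hk⟩ := ha g
        rw [← hi] at hk
        rw [← hk]
        exact ((show Commute a u from hua).zpow_right k).eq
      have h2 : g * (a * a) * g⁻¹ = a * a * (i * i) := by
        calc g * (a * a) * g⁻¹ = (g * a * g⁻¹) * (g * a * g⁻¹) := by group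
          _ = a * (i * a) * i := by rw [hgi]; group
          _ = a * a * (i * i) := by rw [← hai]; group
      rcases hU (ha g) with h | ⟨b, hb, e⟩
      · rw [← hi] at h
        rcases hZ h with e | e <;> rw [h2, e]
        · simp
        · exact Or.inl (by rw [hz2, mul_one])
      · rw [← hi] at e
        refine Or.inr ?_
        rw [h2, e]
        rcases hZ hb with e' | e' <;> rw [e']
        · rw [mul_one, hu2]
        · rw [mul_assoc u z, ← mul_assoc z u, ← hzc u, mul_assoc u z, hz2, mul_one, hu2]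
    exact no_involution hT hz hz2 hz1 hy
      (by have := CfsgLib.Fischer2.sq_mem_frattini hT.1 a; rwa [sq] at this) (h4' a)
  -- an involution in the coset `a U`
  obtain ⟨b, hbΦ, hbU, hb, hbu, hb2⟩ : ∃ b ∈ frattini T, b ∉ U ∧
      (∀ g : T, b⁻¹ * (g * b * g⁻¹) ∈ U) ∧ b * u = u * b ∧ b * b = 1 := by
    rcases ha2 with e | e
    · exact ⟨a, haΦ, haU, ha, hua, e⟩
    · refine ⟨a * u, (frattini T).mul_mem haΦ huΦ,
        fun h => haU (by simpa using U.mul_mem h (U.inv_mem (Subgroup.mem_zpowers u))), fun g => ?_,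
        ((show Commute a u from hua).mul_left (Commute.refl u)).eq, ?_⟩
      · have h1 := ha g
        have h2 : g * u * g⁻¹ ∈ U := hUn.conj_mem u (Subgroup.mem_zpowers u) g
        have : (a * u)⁻¹ * (g * (a * u) * g⁻¹) = u⁻¹ * (a⁻¹ * (g * a * g⁻¹)) * (g * u * g⁻¹) := by group
        rw [this]
        exact U.mul_mem (U.mul_mem (U.inv_mem (Subgroup.mem_zpowers u)) h1) h2
      · calc a * u * (a * u) = a * (u * a) * u := by group
          _ = (a * a) * (u * u) := by rw [← hua]; group
          _ = 1 := by rw [e, hu2, hz2]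
  have hb' : ∀ g : T, g * b * g⁻¹ = b ∨ g * b * g⁻¹ = b * z := by
    intro g
    set i := b⁻¹ * (g * b * g⁻¹) with hi
    have hgi : g * b * g⁻¹ = b * i := by rw [hi]; group
    have hii : i * i = 1 := by
      have hbi : b * i = i * b := by
        obtain ⟨k, hk⟩ := hb g
        rw [← hi] at hk
        rw [← hk]
        exact ((show Commute b u from hbu).zpow_right k).eq
      calc i * i = (b * b) * (i * i) := by rw [hb2, one_mul]
        _ = b * (b * i) * i := by group
        _ = (b * i) * (b * i) := by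
          have hbi' : Commute b i := hbi
          conv_rhs => rw [mul_assoc b i, ← mul_assoc i b i, ← hbi'.eq]
          group
        _ = (g * b * g⁻¹) * (g * b * g⁻¹) := by rw [hgi]
        _ = g * (b * b) * g⁻¹ := by group
        _ = 1 := by rw [hb2]; group
    rcases hU (hb g) with h | ⟨c, hc, e⟩
    · rw [← hi] at h
      rcases hZ h with e | e <;> rw [hgi, e]
      · exact Or.inl (mul_one b)
      · exact Or.inr rfl
    · exfalso
      rw [← hi] at e
      rw [e] at hii
      rcases hZ hc with e' | e' <;> rw [e'] at hii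
      · rw [mul_one, hu2] at hii; exact hz1 hii
      · rw [mul_assoc u z, ← mul_assoc z u, ← hzc u, mul_assoc u z, hz2, mul_one, hu2] at hii
        exact hz1 hii
  rcases no_involution hT hz hz2 hz1 hb' hbΦ hb2 with rfl | rfl
  · exact hbU U.one_mem
  · exact hbU hzU

/-- In a 2-group of symplectic type of exponent dividing 4 with central involution `z`, all
commutators are `1` or `z`. -/
theorem symplectic_exp_four_comm (hT : IsOfSymplecticType T) (h4 : ∀ x : T, x ^ 4 = 1) {z : T}
    (hz : z ∈ Subgroup.center T) (hz2 : z * z = 1) (hz1 : z ≠ 1) (x y : T) :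
    x * y * x⁻¹ * y⁻¹ = 1 ∨ x * y * x⁻¹ * y⁻¹ = z := by
  have h := symplectic_exp_four_sq hT h4 hz hz2 hz1
  have hmem : ∀ w : T, w * w ∈ Subgroup.center T := fun w => by
    rcases h w with e | e <;> rw [e]
    · exact one_mem _
    · exact hz
  have e : x * y * x⁻¹ * y⁻¹ = x * x * ((x⁻¹ * y) * (x⁻¹ * y)) * (y⁻¹ * y⁻¹) := by group
  refine symplectic_center_involution hT hz hz2 hz1 (e ▸ mul_mem (mul_mem (hmem _) (hmem _)) (hmem _)) ?_
  have hc : ∀ w : T, (w * w) * (w * w) = 1 := fun w => by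
    rcases h w with e | e <;> rw [e]
    · exact one_mul 1
    · exact hz2
  have hm : ∀ w v : T, Commute (w * w) v := fun w v => (Subgroup.mem_center_iff.mp (hmem w) v).symm
  rw [e]
  rw [show ∀ A B C : T, A * B * C * (A * B * C) = A * ((B * C) * A) * B * C from fun A B C => by group,
    ← (hm x _).eq, show ∀ A B C : T, A * (A * (B * C)) * B * C = (A * A) * (B * (C * B)) * C from
      fun A B C => by group, hc, ← (hm (x⁻¹ * y) _).eq, ← mul_assoc (x⁻¹ * y * (x⁻¹ * y)), hc, one_mul,
    one_mul, hc]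

end CfsgLib.ClassK
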